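import Cfsg.Agent.Helper25.CycInert

set_option autoImplicit false
set_option linter.unusedSectionVars false
set_option linter.unusedVariables false

namespace Cfsg.Agent.Helper25

open Cfsg Cfsg.FusionSystem
open scoped ComplexConjugate

section AbelLocal

variable {G : Type*} [Group G] [Fintype G] {p : ℕ} {M : Ideal AlgInt}

theorem isInducedBlockIn_unique (hM : M.IsPrime) (H K : Subgroup G) (e : Set (IrrCharacter K))
    (f f₁ : Set (IrrCharacter H)) (h : IsInducedBlockIn M H K e f)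
    (h' : IsInducedBlockIn M H K e f₁) : f = f₁ := by
  obtain ⟨ξ, hξ⟩ := id h.1
  have hξb : ξ ∈ e := by
    rw [hξ]
    exact mem_blockOf_self hM.ne_top ξ
  obtain ⟨χ, hχ⟩ := id h.2.1
  obtain ⟨χ', hχ'⟩ := id h'.2.1
  have hχB : χ ∈ f := by
    rw [hχ]
    exact mem_blockOf_self hM.ne_top χ
  have hχB' : χ' ∈ f₁ := by
    rw [hχ']
    exact mem_blockOf_self hM.ne_top χ'
  have hs : SameBlock M (χ : H → ℂ) (χ' : H → ℂ) := by
    intro g
    have h1 := h.2.2 ξ hξb χ hχB g
    have h2 := h'.2.2 ξ hξb χ' hχB' g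
    have h3 := MemLocalIdeal.sub hM h2 h1
    convert h3 using 1
    ring
  rw [hχ, hχ']
  exact blockOf_eq_of_mem hM hs

theorem isInducedBlockIn_of_iso (H K : Subgroup G) (K' : Subgroup H) (ι : K' ≃* K)
    (hι : ∀ c : K', ((ι c : K) : G) = ((c : H) : G)) (e : Set (IrrCharacter K))
    (he : IsPBlock M e) (f : Set (IrrCharacter H))
    (hind : IsInducedBlock M K' {ψ | (irrCongr ι).symm ψ ∈ e} f) :
    IsInducedBlockIn M H K e f := by
  refine ⟨he, hind.2.1, fun ξ hξ χ hχ h => ?_⟩
  have hmem : irrCongr ι ξ ∈ {ψ : IrrCharacter K' | (irrCongr ι).symm ψ ∈ e} := by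
    show (irrCongr ι).symm (irrCongr ι ξ) ∈ e
    rw [Equiv.symm_apply_apply]
    exact hξ
  have h1 := hind.2.2 (irrCongr ι ξ) hmem χ hχ h
  have heq : inducedCentralCharIn H K (ξ : K → ℂ) (h : G)
      = inducedCentralChar K' ((irrCongr ι ξ : IrrCharacter K') : K' → ℂ) h := by
    unfold inducedCentralCharIn inducedCentralChar
    symm
    refine finsum_mem_eq_of_bijOn (fun k' : K' => ι k') ⟨?_, ?_, ?_⟩ ?_
    · intro k' hk'
      obtain ⟨c, hc⟩ := isConj_iff.1 hk'
      refine ⟨c⁻¹, ?_⟩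
      show ((c⁻¹ : H) : G) * ((ι k' : K) : G) * ((c⁻¹ : H) : G)⁻¹ = (h : G)
      rw [hι, ← hc]
      simp only [Subgroup.coe_mul, Subgroup.coe_inv]
      group
    · exact ι.injective.injOn
    · intro k hk
      obtain ⟨x, hx⟩ := hk
      refine ⟨ι.symm k, ?_, ι.apply_symm_apply k⟩
      show IsConj h ((ι.symm k : K') : H)
      rw [isConj_iff]
      refine ⟨x⁻¹, ?_⟩
      apply Subtype.ext
      have e1 := hι (ι.symm k)
      rw [MulEquiv.apply_symm_apply] at e1
      show ((x⁻¹ * h * x⁻¹⁻¹ : H) : G) = (((ι.symm k : K') : H) : G)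
      rw [← e1]
      simp only [Subgroup.coe_mul, Subgroup.coe_inv]
      rw [← hx]
      group
    · intro k' _
      rw [irrCongr_apply, irrCongr_apply, map_one]
  rw [heq]
  exact h1

theorem stabilizes_down (H : Subgroup G) (P : Subgroup G) (hPH : P ≤ H)
    (ι : Subgroup.centralizer ((P.subgroupOf H : Subgroup H) : Set H) ≃* (Subgroup.centralizer (P : Set G)))
    (hι : ∀ c, ((ι c : (Subgroup.centralizer (P : Set G))) : G) = ((c : H) : G))
    (e : Set (IrrCharacter (Subgroup.centralizer (P : Set G)))) (y : H)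
    (hyN : (y : G) ∈ (Subgroup.normalizer (P : Set G)))
    (hys : StabilizesBlock (Subgroup.centralizer (P : Set G)) e (y : G)) :
    y ∈ Subgroup.normalizer ((P.subgroupOf H : Subgroup H) : Set H) ∧
      StabilizesBlock (Subgroup.centralizer ((P.subgroupOf H : Subgroup H) : Set H))
        {ψ | (irrCongr ι).symm ψ ∈ e} y := by
  have hN : y ∈ Subgroup.normalizer ((P.subgroupOf H : Subgroup H) : Set H) := by
    rw [Subgroup.mem_normalizer_iff]
    intro u
    rw [Subgroup.mem_subgroupOf, Subgroup.mem_subgroupOf]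
    exact (Subgroup.mem_normalizer_iff.1 hyN (u : G))
  refine ⟨hN, normalizer_le_normalizer_centralizer' _ hN, fun χ' hχ' => ?_⟩
  obtain ⟨χ₂, hχ₂, hconj⟩ := hys.2 ((irrCongr ι).symm χ') hχ'
  refine ⟨irrCongr ι χ₂, ?_, ?_⟩
  · show (irrCongr ι).symm (irrCongr ι χ₂) ∈ e
    rw [Equiv.symm_apply_apply]
    exact hχ₂
  · intro k k' hkk
    have h0 : ((ι k' : (Subgroup.centralizer (P : Set G))) : G) = (y : G) * ((ι k : (Subgroup.centralizer (P : Set G))) : G) * (y : G)⁻¹ := by
      rw [hι, hι, hkk]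
      simp only [Subgroup.coe_mul, Subgroup.coe_inv]
    have h1 := hconj (ι k) (ι k') h0
    rw [irrCongr_symm_apply, MulEquiv.symm_apply_apply] at h1
    rw [irrCongr_apply]
    exact h1

theorem local_pair_lift [Fact p.Prime] (hpM : IsPModular p M) (B : Set (IrrCharacter G))
    (hB : IsPBlock M B) (Q : Subgroup G) (f : Set (IrrCharacter (Subgroup.centralizer (Q : Set G))))
    (hQf : IsBrauerPairOf p M B Q f) (S' : Subgroup (Subgroup.centralizer (Q : Set G)))
    (g' : Set (IrrCharacter (Subgroup.centralizer (S' : Set (Subgroup.centralizer (Q : Set G))))))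
    (hSg : IsBrauerPairOf p M f S' g') (x : (Subgroup.centralizer (Q : Set G))) (hxN : x ∈ Subgroup.normalizer (S' : Set (Subgroup.centralizer (Q : Set G))))
    (hxs : StabilizesBlock (Subgroup.centralizer (S' : Set (Subgroup.centralizer (Q : Set G)))) g' x) :
    ∃ (R : Subgroup G) (g₀ : Set (IrrCharacter (Subgroup.centralizer (R : Set G)))),
      IsBrauerPairOf p M B R g₀ ∧ Q ≤ R ∧ (x : G) ∈ Subgroup.normalizer (R : Set G) ∧
      StabilizesBlock (Subgroup.centralizer (R : Set G)) g₀ (x : G) ∧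
      ((x : G) ∈ Subgroup.centralizer (R : Set G) → x ∈ Subgroup.centralizer (S' : Set (Subgroup.centralizer (Q : Set G)))) := by
  classical
  have hMp := hpM.2.1.isPrime
  have hQ : IsPGroup p Q := hQf.1.1
  have hf : IsPBlock M f := hQf.1.2
  have : Fintype (Subgroup.centralizer (Q : Set G)) := Fintype.ofFinite _
  obtain ⟨R, hR⟩ : ∃ R : Subgroup G, R = Q ⊔ S'.map (Subgroup.centralizer (Q : Set G)).subtype := ⟨_, rfl⟩
  have hQR : Q ≤ R := by
    rw [hR]
    exact le_sup_left
  obtain ⟨ι, hι⟩ := exists_centIso R (Subgroup.centralizer (Q : Set G)) (Subgroup.centralizer_le hQR)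
    (Subgroup.centralizer (S' : Set (Subgroup.centralizer (Q : Set G)))) (mem_cent_sup_iff Q S' R hR)
  obtain ⟨g₀, hg₀def⟩ : ∃ g₀ : Set (IrrCharacter (Subgroup.centralizer (R : Set G))),
      g₀ = {ξ | irrCongr ι ξ ∈ g'} := ⟨_, rfl⟩
  have hgg : ∀ ξ : IrrCharacter (Subgroup.centralizer (R : Set G)),
      irrCongr ι ξ ∈ g' ↔ ξ ∈ g₀ := by
    intro ξ
    rw [hg₀def]
    rfl
  have hnorm := normal_of_centPair hMp Q hQ S' R hR ι hι f g₀ g' hgg hSg
  have hRg : IsBrauerPairOf p M B R g₀ :=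
    (normalSubpair_brauerPairOf_iff hpM Q R f g₀ hnorm B hB).2 hQf
  have hxQ : (x : G) ∈ Subgroup.normalizer (Q : Set G) :=
    Subgroup.centralizer_le_normalizer _ x.2
  have hxNR : (x : G) ∈ Subgroup.normalizer (R : Set G) := by
    apply mem_normalizer_of_map_conj_le'
    rw [hR, Subgroup.map_sup]
    refine sup_le ?_ ?_
    · rw [map_conj_eq_of_mem_normalizer' Q hxQ]
      exact le_sup_left
    · refine le_trans ?_ le_sup_right
      rintro _ ⟨_, ⟨s, hs, rfl⟩, rfl⟩
      exact ⟨x * s * x⁻¹, (Subgroup.mem_normalizer_iff.1 hxN s).1 hs, rfl⟩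
  have hxsR : StabilizesBlock (Subgroup.centralizer (R : Set G)) g₀ (x : G) := by
    refine ⟨normalizer_le_normalizer_centralizer' R hxNR, fun χ hχ => ?_⟩
    obtain ⟨χ'', hχ'', hconj⟩ := hxs.2 (irrCongr ι χ) ((hgg χ).2 hχ)
    refine ⟨(irrCongr ι).symm χ'', ?_, ?_⟩
    · rw [← hgg, Equiv.apply_symm_apply]
      exact hχ''
    · intro k k' hkk
      have h0 : ((ι.symm k' : Subgroup.centralizer (S' : Set (Subgroup.centralizer (Q : Set G)))) : (Subgroup.centralizer (Q : Set G)))
          = x * ((ι.symm k : Subgroup.centralizer (S' : Set (Subgroup.centralizer (Q : Set G)))) : (Subgroup.centralizer (Q : Set G))) * x⁻¹ := by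
        apply Subtype.ext
        have e1 := hι (ι.symm k')
        have e2 := hι (ι.symm k)
        rw [MulEquiv.apply_symm_apply] at e1 e2
        show (((ι.symm k' : Subgroup.centralizer (S' : Set (Subgroup.centralizer (Q : Set G)))) : (Subgroup.centralizer (Q : Set G))) : G)
          = (x : G) * (((ι.symm k : Subgroup.centralizer (S' : Set (Subgroup.centralizer (Q : Set G)))) : (Subgroup.centralizer (Q : Set G))) : G) * (x : G)⁻¹
        rw [← e1, ← e2]
        exact hkk
      have h1 := hconj (ι.symm k) (ι.symm k') h0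
      rw [irrCongr_apply, MulEquiv.apply_symm_apply] at h1
      rw [irrCongr_symm_apply]
      exact h1
  exact ⟨R, g₀, hRg, hQR, hxNR, hxsR, fun hxC => (mem_cent_sup_iff Q S' R hR x).2 hxC⟩

theorem abelian_local_pair [Fact p.Prime] (hpM : IsPModular p M) (B : Set (IrrCharacter G))
    (P : Subgroup G) (e : Set (IrrCharacter (Subgroup.centralizer (P : Set G)))) (hmax : IsMaximalBrauerPair p M B P e)
    (hab : ∀ x ∈ P, ∀ y ∈ P, x * y = y * x)
    (Q : Subgroup G) (f : Set (IrrCharacter (Subgroup.centralizer (Q : Set G)))) (hQP : Q ≤ P) (hf : IsPBlock M f)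
    (hle : SubpairLE p M Q f P e) :
    P ≤ (Subgroup.centralizer (Q : Set G)) ∧ ∃ (ι : Subgroup.centralizer ((P.subgroupOf (Subgroup.centralizer (Q : Set G)) : Subgroup (Subgroup.centralizer (Q : Set G))) : Set (Subgroup.centralizer (Q : Set G))) ≃* (Subgroup.centralizer (P : Set G))),
      (∀ c, ((ι c : (Subgroup.centralizer (P : Set G))) : G) = ((c : (Subgroup.centralizer (Q : Set G))) : G)) ∧
      IsMaximalBrauerPair p M f (P.subgroupOf (Subgroup.centralizer (Q : Set G))) {ψ | (irrCongr ι).symm ψ ∈ e} := by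
  classical
  have hM := hpM.2.1.isPrime
  have hPe : IsBrauerPair p M P e := hmax.1.1
  have : Fintype (Subgroup.centralizer (Q : Set G)) := Fintype.ofFinite _
  have hcentP : ∀ R : Subgroup G, R ≤ P → P ≤ Subgroup.centralizer (R : Set G) := by
    intro R hR u hu
    rw [Subgroup.mem_centralizer_iff]
    intro q hq
    exact hab q (hR hq) u hu
  have hPH : P ≤ (Subgroup.centralizer (Q : Set G)) := hcentP Q hQP
  have hPN : P ≤ (Subgroup.normalizer (Q : Set G)) := hPH.trans (Subgroup.centralizer_le_normalizer _)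
  obtain ⟨f', hf', -⟩ := normalSubpair_existsUnique hpM P Q e hPe hQP hPN
  have hff : f' = f :=
    subpair_unique hpM _ P e hPe rfl Q f' f (Relation.ReflTransGen.single hf') hle
  rw [hff] at hf'
  -- the order of P
  obtain ⟨-, x₀, hle₀, hD₀⟩ := fully_centralized hpM B P Q e f hmax hQP hle
  have : Fintype (Subgroup.centralizer (((Q.map (MulAut.conj x₀).toMonoidHom) : Subgroup G) : Set G)) := Fintype.ofFinite _
  have hPH₀ : P ≤ Subgroup.centralizer (((Q.map (MulAut.conj x₀).toMonoidHom) : Subgroup G) : Set G) :=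
    hcentP _ (subpairLE_le hle₀)
  have hc₀ := card_defectGroup hpM (isPBlock_conjBlock hM Q x₀ hf) _ hD₀
  have hcard : Nat.card P = p ^ blockDefect p f := by
    rw [blockDefect_conjBlock Q x₀ f, ← hc₀, inf_eq_left.2 hPH₀]
    exact (Nat.card_congr (Subgroup.subgroupOfEquivOfLe hPH₀).toEquiv).symm
  obtain ⟨ι, hι, hmax'⟩ := abelian_local_maximal hpM Q f P e hPH hf' hcard
  exact ⟨hPH, ι, hι, hmax'⟩

theorem abelian_free_iff_local_nilpotent [Fact p.Prime] (hpM : IsPModular p M)
    (B : Set (IrrCharacter G)) (P : Subgroup G) (hPD : IsDefectGroup p M B P)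
    (hPab : ∀ x ∈ P, ∀ y ∈ P, x * y = y * x)
    (c : Set (IrrCharacter (Subgroup.centralizer (P : Set G)))) (hc : IsInducedBlock M (Subgroup.centralizer (P : Set G)) c B) (T : Subgroup G)
    (hT : ∀ g : G, g ∈ T ↔ (g ∈ (Subgroup.normalizer (P : Set G)) ∧ StabilizesBlock (Subgroup.centralizer (P : Set G)) c g)) :
    (∀ g ∈ T, ∀ x ∈ P, x ≠ 1 → g * x * g⁻¹ = x → g ∈ (Subgroup.centralizer (P : Set G))) ↔
      ∀ Q : Subgroup G, Q ≤ P → Q ≠ ⊥ → ∀ f : Set (IrrCharacter (Subgroup.centralizer (Q : Set G))),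
        IsInducedBlockIn M (Subgroup.centralizer (Q : Set G)) (Subgroup.centralizer (P : Set G)) c f → IsNilpotentBlock p M f := by
  classical
  have hp : p.Prime := Fact.out
  have hMp := hpM.2.1.isPrime
  have hB : IsPBlock M B := hc.2.1
  have hmax := maximal_of_induced_defect hpM B P hPD c hc
  have hPe : IsBrauerPair p M P c := hmax.1.1
  have hcb : IsPBlock M c := hPe.2
  have hkey : ∀ Q : Subgroup G, Q ≤ P → ∃ f₁ : Set (IrrCharacter (Subgroup.centralizer (Q : Set G))),
      IsPBlock M f₁ ∧ SubpairLE p M Q f₁ P c ∧ IsInducedBlockIn M (Subgroup.centralizer (Q : Set G)) (Subgroup.centralizer (P : Set G)) c f₁ ∧ P ≤ (Subgroup.centralizer (Q : Set G)) ∧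
      ∃ (ι : Subgroup.centralizer ((P.subgroupOf (Subgroup.centralizer (Q : Set G)) : Subgroup (Subgroup.centralizer (Q : Set G))) : Set (Subgroup.centralizer (Q : Set G))) ≃* (Subgroup.centralizer (P : Set G))),
        (∀ c', ((ι c' : (Subgroup.centralizer (P : Set G))) : G) = ((c' : (Subgroup.centralizer (Q : Set G))) : G)) ∧
        IsMaximalBrauerPair p M f₁ (P.subgroupOf (Subgroup.centralizer (Q : Set G))) {ψ | (irrCongr ι).symm ψ ∈ c} := by
    intro Q hQP
    obtain ⟨f₁, hf₁, hle₁⟩ := subpair_exists hpM P c hPe _ Q hQP rfl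
    obtain ⟨hPH, ι, hι, hmax'⟩ := abelian_local_pair hpM B P c hmax hPab Q f₁ hQP hf₁ hle₁
    have : Fintype (Subgroup.centralizer (Q : Set G)) := Fintype.ofFinite _
    have hind := pair_induces hpM f₁ _ _ hmax'.1
    exact ⟨f₁, hf₁, hle₁, isInducedBlockIn_of_iso (Subgroup.centralizer (Q : Set G)) (Subgroup.centralizer (P : Set G)) _ ι hι c hcb f₁ hind, hPH, ι, hι, hmax'⟩
  constructor
  · intro hfree Q hQP hQ1 f hfin
    obtain ⟨f₁, hf₁, hle₁, hin₁, -, -⟩ := hkey Q hQP
    have hff : f = f₁ := isInducedBlockIn_unique hMp _ _ c f f₁ hfin hin₁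
    rw [hff]
    have hQf₁ : IsBrauerPairOf p M B Q f₁ := subpairLE_brauerPairOf hpM B hle₁ hmax.1
    refine ⟨hf₁, fun S' g' hSg x hxN hxs _ => ?_⟩
    obtain ⟨R, g₀, hRg, hQR, hxNR, hxsR, hback⟩ :=
      local_pair_lift hpM B hB Q f₁ hQf₁ S' g' hSg x hxN hxs
    obtain ⟨z, hz⟩ := conj_below_maximal hpM B P R c g₀ hmax hRg
    have hRzP := subpairLE_le hz
    have hgz := isPBlock_conjBlock hMp R z hRg.1.2
    have hxN' := (mem_normalizer_map_conj_iff R z (x : G)).2 hxNR
    have hxs' := (stabilizes_conj_iff R z g₀ (x : G)).2 hxsR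
    obtain ⟨y, hyN, hys, c₁, hc₁, hxy⟩ :=
      abelian_fusion_control hpM B P c hmax hPab _ _ hRzP hgz hz _ hxN' hxs'
    obtain ⟨q, hqQ, hq1⟩ : ∃ q ∈ Q, q ≠ 1 := by
      by_contra hcon
      exact hQ1 ((Subgroup.eq_bot_iff_forall Q).2
        (fun q hq => by_contra (fun h => hcon ⟨q, hq, h⟩)))
    have hu : z * q * z⁻¹ ∈ R.map (MulAut.conj z).toMonoidHom :=
      Helper12.conj_mem_map_conj R z (hQR hqQ)
    have huP : z * q * z⁻¹ ∈ P := hRzP hu
    have hu1 : z * q * z⁻¹ ≠ 1 := by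
      intro h
      apply hq1
      have e0 : q = z⁻¹ * (z * q * z⁻¹) * z := by group
      rw [e0, h]
      group
    have hcu := (Subgroup.mem_centralizer_iff.1 hc₁) _ hu
    have hxq := (Subgroup.mem_centralizer_iff.1 x.2) q hqQ
    have hy : y = z * (x : G) * z⁻¹ * c₁⁻¹ := by
      rw [hxy]
      group
    have hyu : y * (z * q * z⁻¹) * y⁻¹ = z * q * z⁻¹ := by
      have e1 : c₁⁻¹ * (z * q * z⁻¹) * c₁ = z * q * z⁻¹ := by
        rw [mul_assoc, hcu]
        group
      have e2 : (x : G) * q * (x : G)⁻¹ = q := by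
        rw [← hxq]
        group
      have e3 : y * (z * q * z⁻¹) * y⁻¹
          = z * (x : G) * z⁻¹ * (c₁⁻¹ * (z * q * z⁻¹) * c₁) * (z * (x : G) * z⁻¹)⁻¹ := by
        rw [hy]
        group
      have e4 : z * (x : G) * z⁻¹ * (z * q * z⁻¹) * (z * (x : G) * z⁻¹)⁻¹
          = z * ((x : G) * q * (x : G)⁻¹) * z⁻¹ := by group
      rw [e3, e1, e4, e2]
    have hyT : y ∈ T := (hT y).2 ⟨hyN, hys⟩
    have hyC : y ∈ (Subgroup.centralizer (P : Set G)) := hfree y hyT _ huP hu1 hyu
    have hyC' : y ∈ Subgroup.centralizer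
        ((R.map (MulAut.conj z).toMonoidHom : Subgroup G) : Set G) :=
      Subgroup.centralizer_le (SetLike.coe_subset_coe.2 hRzP) hyC
    have hxC : z * (x : G) * z⁻¹ ∈ Subgroup.centralizer
        ((R.map (MulAut.conj z).toMonoidHom : Subgroup G) : Set G) := by
      rw [hxy]
      exact Subgroup.mul_mem _ hyC' hc₁
    have h1 := (mem_centralizer_map_conj_iff R z _).1 hxC
    have e5 : z⁻¹ * (z * (x : G) * z⁻¹) * z = (x : G) := by group
    rw [e5] at h1
    exact hback h1
  · intro hnil g hgT x hxP hx1 hgx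
    obtain ⟨Q, hQdef⟩ : ∃ Q : Subgroup G, Q = Subgroup.zpowers x := ⟨_, rfl⟩
    have hQP : Q ≤ P := by
      rw [hQdef]
      exact (Subgroup.zpowers_le).2 hxP
    have hQ1 : Q ≠ ⊥ := by
      rw [hQdef]
      exact Subgroup.zpowers_ne_bot.2 hx1
    obtain ⟨f₁, hf₁, hle₁, hin₁, hPH, ι, hι, hmax'⟩ := hkey Q hQP
    have hnf := hnil Q hQP hQ1 f₁ hin₁
    have hcomm : Commute g x := by
      show g * x = x * g
      calc g * x = g * x * g⁻¹ * g := by group
        _ = x * g := by rw [hgx]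
    have hgC : ∀ n : ℕ, g ^ n ∈ (Subgroup.centralizer (Q : Set G)) := by
      intro n
      rw [Subgroup.mem_centralizer_iff]
      intro h hh
      rw [hQdef] at hh
      obtain ⟨j, rfl⟩ := Subgroup.mem_zpowers_iff.1 hh
      exact (((hcomm.pow_left n).zpow_right j).eq).symm
    have hndvd := abelian_inertial_index hpM B P c hmax hPab T hT
    have hHT : (Subgroup.centralizer (P : Set G)) ≤ T := cent_le_stab P c T hT
    have hTN : T ≤ (Subgroup.normalizer (P : Set G)) := fun y hy => ((hT y).1 hy).1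
    have hnorm : ((Subgroup.centralizer (P : Set G)).subgroupOf T).Normal :=
      (Subgroup.normal_subgroupOf_iff_le_normalizer hHT).2
        (hTN.trans (normalizer_le_normalizer_centralizer' P))
    have ho : orderOf g ≠ 0 := (orderOf_pos g).ne'
    have hu : g ^ (p ^ (orderOf g).factorization p) ∈ (Subgroup.centralizer (P : Set G)) := by
      have huT : g ^ (p ^ (orderOf g).factorization p) ∈ T := T.pow_mem hgT _
      obtain ⟨huN, hus⟩ := (hT _).1 huT
      obtain ⟨hN', hs'⟩ := stabilizes_down (Subgroup.centralizer (Q : Set G)) P hPH ι hι c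
        ⟨g ^ (p ^ (orderOf g).factorization p), hgC _⟩ huN hus
      have hreg : IsPRegular p
          (⟨g ^ (p ^ (orderOf g).factorization p), hgC _⟩ : (Subgroup.centralizer (Q : Set G))) := by
        show ¬ p ∣ orderOf (⟨g ^ (p ^ (orderOf g).factorization p), hgC _⟩ : (Subgroup.centralizer (Q : Set G)))
        rw [Subgroup.orderOf_mk, orderOf_pow g, Nat.gcd_eq_right (Nat.ordProj_dvd _ _)]
        exact Nat.not_dvd_ordCompl hp ho
      have h1 := hnf.2 _ _ hmax'.1 _ hN' hs' hreg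
      rw [Subgroup.mem_centralizer_iff] at h1 ⊢
      intro u huP
      have h2 := h1 ⟨u, hPH huP⟩ (Subgroup.mem_subgroupOf.2 huP)
      exact congrArg Subtype.val h2
    have hk : g ^ (Subgroup.centralizer (P : Set G)).relIndex T ∈ (Subgroup.centralizer (P : Set G)) :=
      Subgroup.pow_index_mem ((Subgroup.centralizer (P : Set G)).subgroupOf T) (⟨g, hgT⟩ : T)
    have hcop : Nat.Coprime (p ^ (orderOf g).factorization p) ((Subgroup.centralizer (P : Set G)).relIndex T) :=
      Nat.Coprime.pow_left _ ((Nat.Prime.coprime_iff_not_dvd hp).2 hndvd)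
    obtain ⟨s, t, hst⟩ := Nat.isCoprime_iff_coprime.2 hcop
    have hx1' : g = (g ^ (p ^ (orderOf g).factorization p)) ^ s * (g ^ (Subgroup.centralizer (P : Set G)).relIndex T) ^ t := by
      rw [← zpow_natCast g (p ^ (orderOf g).factorization p),
        ← zpow_natCast g ((Subgroup.centralizer (P : Set G)).relIndex T), ← zpow_mul', ← zpow_mul', ← zpow_add, hst, zpow_one]
    rw [hx1']
    exact Subgroup.mul_mem _ (Subgroup.zpow_mem _ hu s) (Subgroup.zpow_mem _ hk t)

end AbelLocal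

end Cfsg.Agent.Helper25
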