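import Cfsg.Agent.Helper25.BlockMinMax3
import Mathlib.LinearAlgebra.InvariantBasisNumber
import Mathlib.LinearAlgebra.Matrix.ToLin

set_option autoImplicit false
set_option linter.unusedSectionVars false

/-!
# Counting blocks against conjugacy classes (helper25)
-/

namespace Cfsg.Agent.Helper25

open Cfsg
open scoped ComplexConjugate

section Residue

variable {M : Ideal AlgInt}

/-- The local ideal as an ideal of the local ring. -/
def localIdealI (M : Ideal AlgInt) (hM : M.IsPrime) : Ideal (localRing M hM) where
  carrier := {x | MemLocalIdeal M (x : ℂ)}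
  add_mem' := fun ha hb => MemLocalIdeal.add hM ha hb
  zero_mem' := MemLocalIdeal.zero hM.ne_top
  smul_mem' := fun c _ hx => MemLocalIdeal.mul_left hM c.2 hx

theorem mem_localIdealI {hM : M.IsPrime} {x : localRing M hM} :
    x ∈ localIdealI M hM ↔ MemLocalIdeal M (x : ℂ) := Iff.rfl

theorem localIdealI_ne_top (hM : M.IsPrime) : localIdealI M hM ≠ ⊤ := by
  intro h
  have h1 : (1 : localRing M hM) ∈ localIdealI M hM := by
    rw [h]
    exact Submodule.mem_top
  exact not_memLocalIdeal_one h1

/-- If two families of local integers pair to the identity matrix modulo the local ideal, the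
index set of the first is at most as large as the common index set. -/
theorem card_le_of_pairing (hM : M.IsPrime) {ι κ : Type*} [Fintype ι] [Fintype κ]
    [DecidableEq ι] (a : ι → κ → ℂ) (e : κ → ι → ℂ) (ha : ∀ i k, MemLocalRing M (a i k))
    (he : ∀ k j, MemLocalRing M (e k j))
    (h : ∀ i j, MemLocalIdeal M (∑ k, a i k * e k j - if i = j then 1 else 0)) :
    Fintype.card ι ≤ Fintype.card κ := by
  classical
  have hnt : Nontrivial (localRing M hM ⧸ localIdealI M hM) :=
    Ideal.Quotient.nontrivial_iff.2 (localIdealI_ne_top hM)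
  obtain ⟨A, hA⟩ : ∃ A : Matrix ι κ (localRing M hM ⧸ localIdealI M hM),
      A = Matrix.of fun i k => Ideal.Quotient.mk (localIdealI M hM) ⟨a i k, ha i k⟩ := ⟨_, rfl⟩
  obtain ⟨E, hE⟩ : ∃ E : Matrix κ ι (localRing M hM ⧸ localIdealI M hM),
      E = Matrix.of fun k j => Ideal.Quotient.mk (localIdealI M hM) ⟨e k j, he k j⟩ := ⟨_, rfl⟩
  have hAE : A * E = 1 := by
    ext i j
    rw [Matrix.mul_apply, hA, hE]
    simp only [Matrix.of_apply]
    have key : (∑ k, (⟨a i k, ha i k⟩ : localRing M hM) * ⟨e k j, he k j⟩)
        - (if i = j then 1 else 0) ∈ localIdealI M hM := by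
      rw [mem_localIdealI]
      have hco : (((∑ k, (⟨a i k, ha i k⟩ : localRing M hM) * ⟨e k j, he k j⟩)
          - (if i = j then 1 else 0) : localRing M hM) : ℂ)
          = ∑ k, a i k * e k j - if i = j then 1 else 0 := by
        rw [AddSubgroupClass.coe_sub]
        congr 1
        · push_cast
          rfl
        · split_ifs <;> simp
      rw [hco]
      exact h i j
    rw [Matrix.one_apply]
    have e2 : (if i = j then (1 : localRing M hM ⧸ localIdealI M hM) else 0)
        = Ideal.Quotient.mk (localIdealI M hM) (if i = j then 1 else 0) := by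
      split_ifs <;> simp
    rw [e2]
    simp only [← map_mul, ← map_sum]
    exact Ideal.Quotient.eq.2 key
  have hinj : Function.Injective (Matrix.mulVecLin E) := by
    intro v w hvw
    have h1 : A.mulVec (E.mulVec v) = A.mulVec (E.mulVec w) := by
      have h2 : E.mulVec v = E.mulVec w := hvw
      rw [h2]
    rw [Matrix.mulVec_mulVec, Matrix.mulVec_mulVec, hAE, Matrix.one_mulVec, Matrix.one_mulVec] at h1
    exact h1
  exact card_le_of_injective _ (Matrix.mulVecLin E) hinj

end Residue

section Count

variable {G : Type*} [Group G] [Fintype G] {M : Ideal AlgInt} {p : ℕ}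

/-- A family of blocks is at most as numerous as a family of conjugacy classes, as soon as
outside these classes the products `ω_χ(g) e_{B'}(g)` vanish modulo the local ideal. -/
theorem card_blocks_le (hM : M.IsPrime) (PB : Set (IrrCharacter G) → Prop) (PC : G → Prop)
    (hJ : ∀ B B' : Set (IrrCharacter G), IsPBlock M B → PB B → IsPBlock M B' → PB B' →
      ∀ g : G, ¬ PC g → ∀ χ ∈ B,
        MemLocalIdeal M (centralChar (χ : G → ℂ) g * blockCoeff B' g)) :
    Nat.card {B : Set (IrrCharacter G) // IsPBlock M B ∧ PB B}
      ≤ Nat.card {C : ConjClasses G // ∃ g : G, ConjClasses.mk g = C ∧ PC g} := by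
  classical
  have := Helper24.finite_irrCharacter (G := G)
  have : Fintype (IrrCharacter G) := Fintype.ofFinite _
  have : Fintype (ConjClasses G) := Fintype.ofFinite _
  have : Fintype {B : Set (IrrCharacter G) // IsPBlock M B ∧ PB B} := Fintype.ofFinite _
  rw [Nat.card_eq_fintype_card, Nat.card_eq_fintype_card]
  have hrep : ∀ B : {B : Set (IrrCharacter G) // IsPBlock M B ∧ PB B},
      ∃ χ : IrrCharacter G, χ ∈ B.1 := by
    intro B
    obtain ⟨χ, hχ⟩ := B.2.1
    exact ⟨χ, by rw [hχ]; exact mem_blockOf_self hM.ne_top χ⟩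
  choose rep hrepmem using hrep
  refine card_le_of_pairing hM
    (fun B C => centralChar (rep B : G → ℂ) (Quotient.out C.1))
    (fun C B' => blockCoeff B'.1 (Quotient.out C.1)) ?_ ?_ ?_
  · intro B C
    exact memLocalRing_of_isIntegral hM.ne_top (centralChar_isIntegral _ _)
  · intro C B'
    exact blockCoeff_memLocalRing hM B'.2.1 _
  · intro B B'
    have hfull : ∑ C : ConjClasses G, centralChar (rep B : G → ℂ) (Quotient.out C)
        * blockCoeff B'.1 (Quotient.out C) = if B = B' then 1 else 0 := by
      have h1 := spec_eq_sum (fun χ : IrrCharacter G => if χ ∈ B'.1 then (1 : ℂ) else 0) (rep B)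
      have hcl : IsClassFunction G (fun g =>
          coeffT (fun χ : IrrCharacter G => if χ ∈ B'.1 then (1 : ℂ) else 0) g
            * ((rep B : G → ℂ) g / (rep B : G → ℂ) 1)) := by
        intro g k
        simp only
        rw [coeffT_isClassFunction _ g k,
          (Helper2.IsIrrCharacter.isClassFunction (rep B).2) g k]
      rw [Helper2.sum_eq_sum_conjClasses _ hcl] at h1
      have h2 : (if rep B ∈ B'.1 then (1 : ℂ) else 0) = if B = B' then 1 else 0 := by
        by_cases hBB : B = B'
        · rw [if_pos hBB, if_pos (hBB ▸ hrepmem B)]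
        · rw [if_neg hBB, if_neg]
          intro hmem
          apply hBB
          apply Subtype.ext
          obtain ⟨χ₁, h1eq⟩ := B.2.1
          obtain ⟨χ₂, h2eq⟩ := B'.2.1
          have ha := hrepmem B
          rw [h1eq] at ha
          rw [h2eq] at hmem
          rw [h1eq, h2eq, blockOf_eq_of_mem hM ha, blockOf_eq_of_mem hM hmem]
      rw [← h2, h1]
      refine Finset.sum_congr rfl fun C _ => ?_
      rw [← blockCoeff_eq_coeffT, ← Helper2.index_centralizer_eq_card_conj]
      unfold centralChar
      ring
    have hsplit := Fintype.sum_subtype_add_sum_subtype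
      (fun C : ConjClasses G => ∃ g : G, ConjClasses.mk g = C ∧ PC g)
      (fun C => centralChar (rep B : G → ℂ) (Quotient.out C)
        * blockCoeff B'.1 (Quotient.out C))
    have hrw : (∑ C : {C : ConjClasses G // ∃ g : G, ConjClasses.mk g = C ∧ PC g},
        centralChar (rep B : G → ℂ) (Quotient.out C.1) * blockCoeff B'.1 (Quotient.out C.1))
        - (if B = B' then 1 else 0)
        = -(∑ C : {C : ConjClasses G // ¬ ∃ g : G, ConjClasses.mk g = C ∧ PC g},
          centralChar (rep B : G → ℂ) (Quotient.out C.1)
            * blockCoeff B'.1 (Quotient.out C.1)) := by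
      rw [← hfull, ← hsplit]
      ring
    rw [hrw]
    apply MemLocalIdeal.neg
    refine memLocalIdeal_sum hM _ _ fun C _ => ?_
    apply hJ B.1 B'.1 B.2.1 B.2.2 B'.2.1 B'.2.2 _ _ (rep B) (hrepmem B)
    intro hPC
    exact C.2 ⟨Quotient.out C.1, Quotient.out_eq C.1, hPC⟩

/-- Number of blocks of defect at least `d` against `p`-regular classes of defect at least `d`. -/
theorem card_blocks_defect_ge [Fact p.Prime] (hpM : IsPModular p M) (d : ℕ) :
    Nat.card {B : Set (IrrCharacter G) // IsPBlock M B ∧ d ≤ blockDefect p B}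
      ≤ Nat.card {C : ConjClasses G // ∃ g : G, ConjClasses.mk g = C ∧ (IsPRegular p g ∧
        d ≤ (Nat.card (Subgroup.centralizer ({g} : Set G))).factorization p)} := by
  have hM := hpM.2.1.isPrime
  refine card_blocks_le hM (fun B => d ≤ blockDefect p B)
    (fun g => IsPRegular p g ∧
      d ≤ (Nat.card (Subgroup.centralizer ({g} : Set G))).factorization p) ?_
  intro B B' hB hBd hB' hB'd g hg χ hχ
  by_cases hreg : p ∣ orderOf g
  · rw [osima hpM hB' g hreg, mul_zero]
    exact MemLocalIdeal.zero hM.ne_top
  · have hlt : ¬ d ≤ (Nat.card (Subgroup.centralizer ({g} : Set G))).factorization p :=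
      fun h => hg ⟨hreg, h⟩
    have h1 : MemLocalIdeal M (centralChar (χ : G → ℂ) g) := by
      by_contra hc
      have h3 := blockDefect_le_of_centralChar hpM hB χ hχ g hc
      omega
    exact MemLocalIdeal.mul_right hM h1 (blockCoeff_memLocalRing hM hB' g)

/-- Number of blocks of defect exactly `σ` against `p`-regular classes of defect `σ`. -/
theorem card_blocks_defect_eq [Fact p.Prime] (hpM : IsPModular p M) (σ : ℕ) :
    Nat.card {B : Set (IrrCharacter G) // IsPBlock M B ∧ blockDefect p B = σ}
      ≤ Nat.card {C : ConjClasses G // ∃ g : G, ConjClasses.mk g = C ∧ (¬ p ∣ orderOf g ∧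
        (Nat.card (Subgroup.centralizer ({g} : Set G))).factorization p = σ)} := by
  have hM := hpM.2.1.isPrime
  refine card_blocks_le hM (fun B => blockDefect p B = σ)
    (fun g => ¬ p ∣ orderOf g ∧
      (Nat.card (Subgroup.centralizer ({g} : Set G))).factorization p = σ) ?_
  intro B B' hB hBd hB' hB'd g hg χ hχ
  by_cases hreg : p ∣ orderOf g
  · rw [osima hpM hB' g hreg, mul_zero]
    exact MemLocalIdeal.zero hM.ne_top
  · have hne : ¬ (Nat.card (Subgroup.centralizer ({g} : Set G))).factorization p = σ :=
      fun h => hg ⟨hreg, h⟩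
    rcases lt_or_gt_of_ne hne with hlt | hgt
    · have h1 : MemLocalIdeal M (centralChar (χ : G → ℂ) g) := by
        by_contra hc
        have h3 := blockDefect_le_of_centralChar hpM hB χ hχ g hc
        omega
      exact MemLocalIdeal.mul_right hM h1 (blockCoeff_memLocalRing hM hB' g)
    · have h1 : MemLocalIdeal M (blockCoeff B' g) := by
        by_contra hc
        have h3 := le_blockDefect_of_coeff hpM hB' g hc
        omega
      exact MemLocalIdeal.mul_left hM
        (memLocalRing_of_isIntegral hM.ne_top (centralChar_isIntegral χ g)) h1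

end Count

end Cfsg.Agent.Helper25
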