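import Cfsg.Agent.Helper25.BlockBase
import Cfsg.Agent.Helper24.ClassSum
import Cfsg.Agent.Helper24.CharBasic
import Cfsg.Agent.Helper24.CharValues
import Cfsg.Agent.Helper2.CharGalois
import Cfsg.Agent.Helper2.CharBound
import Cfsg.Agent.Helper2.CharNat
import Cfsg.Agent.Helper2.CharDecomp

set_option autoImplicit false
open Cfsg

namespace Cfsg.Agent.Helper25

/-- Burnside: a faithful irreducible character of `p`-power degree of a group with trivial
centre vanishes at every nonidentity element whose class size is prime to `p`. -/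
theorem burnside_vanish {G : Type*} [Group G] [Finite G] (p : ℕ) [Fact p.Prime]
    (hZ : Subgroup.center G = ⊥) (χ : IrrCharacter G)
    (hfaith : ∀ g : G, (χ : G → ℂ) g = (χ : G → ℂ) 1 → g = 1) (k : ℕ)
    (hdeg : charDegree (χ : G → ℂ) = p ^ k) (z : G) (hz1 : z ≠ 1)
    (hzc : ¬ p ∣ (Subgroup.centralizer ({z} : Set G)).index) : (χ : G → ℂ) z = 0 := by
  classical
  cases nonempty_fintype G
  have hp : p.Prime := Fact.out
  obtain ⟨n, ρ, hρ, hρχ⟩ := χ.2
  have := hρ
  have hχc : IsCharacter G (χ : G → ℂ) := Helper24.isCharacter_of_irr χ.2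
  have hn : (χ : G → ℂ) 1 = (n : ℂ) := by
    rw [← hρχ, Representation.char_one]
    simp
  have hfr : Module.finrank ℂ (Fin n → ℂ) = n := by simp
  have hnk : n = p ^ k := by
    have h1 : (n : ℂ) = ((p ^ k : ℕ) : ℂ) := by
      rw [← hn, Helper24.charDegree_spec hχc, hdeg]
    exact_mod_cast h1
  obtain ⟨c, hc⟩ : ∃ c : ℕ, c = (Subgroup.centralizer ({z} : Set G)).index := ⟨_, rfl⟩
  rw [← hc] at hzc
  have hcop : Nat.Coprime c (p ^ k) :=
    Nat.Coprime.pow_right k (Nat.Coprime.symm ((Nat.Prime.coprime_iff_not_dvd hp).mpr hzc))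
  have hbez : (c : ℤ) * Int.gcdA c (p ^ k : ℕ) + ((p ^ k : ℕ) : ℤ) * Int.gcdB c (p ^ k : ℕ)
      = 1 := by
    have h1 := Int.gcd_eq_gcd_ab (c : ℤ) ((p ^ k : ℕ) : ℤ)
    rw [Int.gcd_natCast_natCast, hcop] at h1
    exact_mod_cast h1.symm
  have hn0' : (n : ℂ) ≠ 0 := by
    rw [hnk]
    exact_mod_cast (pow_pos hp.pos k).ne'
  have hint : IsIntegral ℤ ((χ : G → ℂ) z / (n : ℂ)) := by
    have h1 := centralChar_isIntegral χ z
    have h2 := Helper2.IsCharacter.isIntegral hχc z
    have hb : ((c : ℂ) * (Int.gcdA c (p ^ k : ℕ) : ℂ) +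
        (n : ℂ) * (Int.gcdB c (p ^ k : ℕ) : ℂ)) = 1 := by
      rw [hnk]
      exact_mod_cast hbez
    have e : (χ : G → ℂ) z / (n : ℂ) =
        (Int.gcdA c (p ^ k : ℕ) : ℂ) * centralChar (χ : G → ℂ) z +
          (Int.gcdB c (p ^ k : ℕ) : ℂ) * (χ : G → ℂ) z := by
      unfold centralChar
      rw [hn, ← hc]
      field_simp
      linear_combination (-((χ : G → ℂ) z)) * hb
    rw [e]
    exact (IsIntegral.mul (isIntegral_algebraMap (R := ℤ) (A := ℂ)) h1).add
      (IsIntegral.mul (isIntegral_algebraMap (R := ℤ) (A := ℂ)) h2)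
  have hn0 : Module.finrank ℂ (Fin n → ℂ) ≠ 0 := by
    rw [hfr, hnk]
    exact (pow_pos hp.pos k).ne'
  have hint' : IsIntegral ℤ (ρ.character z / (Module.finrank ℂ (Fin n → ℂ) : ℂ)) := by
    rw [hfr, hρχ]
    exact hint
  rcases Helper2.character_eq_zero_or_norm_eq_of_integral ρ z hn0 hint' with h0 | hnorm
  · rw [← hρχ]
    exact h0
  · exfalso
    obtain ⟨ω, hω, -⟩ := Helper2.character_scalar_of_norm_eq ρ z hnorm
    have hcentral : ∀ g : G, z * g = g * z := by
      intro g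
      have h1 : ρ (z * g) = ρ (g * z) := by
        rw [map_mul, map_mul, hω, smul_mul_assoc, one_mul, mul_smul_comm, mul_one]
      have h2 : ρ ((z * g) * (g * z)⁻¹) = 1 := by
        rw [map_mul, h1, ← map_mul, mul_inv_cancel, map_one]
      have h3 : (χ : G → ℂ) ((z * g) * (g * z)⁻¹) = (χ : G → ℂ) 1 := by
        rw [← hρχ]
        show LinearMap.trace _ _ (ρ _) = LinearMap.trace _ _ (ρ 1)
        rw [h2, map_one ρ]
      exact mul_inv_eq_one.mp (hfaith _ h3)
    have hzcen : z ∈ Subgroup.center G :=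
      Subgroup.mem_center_iff.mpr (fun g => (hcentral g).symm)
    rw [hZ, Subgroup.mem_bot] at hzcen
    exact hz1 hzcen

/-- If the normalised values `ψ z / ψ 1` of an irreducible character lie in the local ideal
for all nonidentity `z` of a subgroup `A` of order `p ^ b`, then `p ^ b` divides the
`p`-part of `ψ 1`. -/
theorem le_factorization_of_vanish {G : Type*} [Group G] [Finite G] (p : ℕ) [Fact p.Prime]
    {M : Ideal AlgInt} (hM : IsPModular p M) (A : Subgroup G) (b : ℕ)
    (hA : Nat.card A = p ^ b) (ψ : IrrCharacter G)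
    (h : ∀ z ∈ A, z ≠ 1 → MemLocalIdeal M ((ψ : G → ℂ) z / (ψ : G → ℂ) 1)) :
    b ≤ (charDegree (ψ : G → ℂ)).factorization p := by
  classical
  cases nonempty_fintype G
  have hMp : M.IsPrime := hM.2.1.isPrime
  have hp : p.Prime := Fact.out
  have hψc : IsCharacter G (ψ : G → ℂ) := Helper24.isCharacter_of_irr ψ.2
  have hd := Helper24.charDegree_spec hψc
  have hdpos : 0 < charDegree (ψ : G → ℂ) := Helper24.irr_degree_pos ψ.2
  obtain ⟨d, hdd⟩ : ∃ d : ℕ, d = charDegree (ψ : G → ℂ) := ⟨_, rfl⟩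
  rw [← hdd] at hd hdpos ⊢
  obtain ⟨m, hm⟩ := Helper2.classInner_char_nat (Helper24.isCharacter_restrict A hψc)
    (Helper2.isCharacter_one (G := A))
  have hsum : ∑ z : A, (ψ : G → ℂ) z = ((p ^ b * m : ℕ) : ℂ) := by
    unfold classInner at hm
    rw [hA] at hm
    simp only [map_one, mul_one] at hm
    have hpb : ((p ^ b : ℕ) : ℂ) ≠ 0 := by exact_mod_cast (pow_pos hp.pos b).ne'
    push_cast
    push_cast at hm hpb
    rw [← hm]
    field_simp
  by_contra hlt
  push Not at hlt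
  -- the sum of normalised values minus one lies in the ideal
  have h1 : MemLocalIdeal M (∑ z : A, (if (z : G) = 1 then 0 else (ψ : G → ℂ) z / (ψ : G → ℂ) 1)) := by
    refine memLocalIdeal_sum hMp _ _ (fun z _ => ?_)
    by_cases hz : (z : G) = 1
    · rw [if_pos hz]
      exact MemLocalIdeal.zero hMp.ne_top
    · rw [if_neg hz]
      exact h z z.2 hz
  have hd0 : (d : ℂ) ≠ 0 := by exact_mod_cast hdpos.ne'
  have h2 : ∑ z : A, (if (z : G) = 1 then 0 else (ψ : G → ℂ) z / (ψ : G → ℂ) 1)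
      = ((p ^ b * m : ℕ) : ℂ) / (d : ℂ) - 1 := by
    rw [← hsum, Finset.sum_div, eq_sub_iff_add_eq]
    rw [← Finset.sum_erase_add _ _ (Finset.mem_univ (1 : A))]
    rw [← Finset.sum_erase_add (s := Finset.univ) (a := (1 : A)) (f := fun z : A => (ψ : G → ℂ) z / (d : ℂ)) (Finset.mem_univ (1 : A))]
    have e1 : ((1 : A) : G) = 1 := rfl
    rw [if_pos e1, add_zero, e1, hd, div_self hd0]
    congr 1
    refine Finset.sum_congr rfl (fun z hz => ?_)
    have hz1 : (z : G) ≠ 1 := by
      intro hz1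
      apply (Finset.mem_erase.mp hz).1
      exact Subtype.ext hz1
    rw [if_neg hz1]
  rw [h2] at h1
  -- but the quotient lies in the ideal
  have h3 : MemLocalIdeal M (((p ^ b * m : ℕ) : ℂ) / (d : ℂ)) := by
    have hd' : d = p ^ (d.factorization p) * (d / p ^ (d.factorization p)) :=
      (Nat.ordProj_mul_ordCompl_eq_self d p).symm
    have hnd : ¬ p ∣ d / p ^ (d.factorization p) := Nat.not_dvd_ordCompl hp hdpos.ne'
    obtain ⟨c, hc⟩ : ∃ c : ℕ, c = d.factorization p := ⟨_, rfl⟩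
    obtain ⟨d', hd''⟩ : ∃ d' : ℕ, d' = d / p ^ (d.factorization p) := ⟨_, rfl⟩
    rw [← hd''] at hd' hnd
    rw [← hc] at hd' hlt
    have hd'0 : (d' : ℂ) ≠ 0 := by
      intro h0
      have : d' = 0 := by exact_mod_cast h0
      rw [this] at hnd
      exact hnd (dvd_zero p)
    have e : ((p ^ b * m : ℕ) : ℂ) / (d : ℂ) = ((p ^ (b - c) * m : ℕ) : ℂ) * ((d' : ℕ) : ℂ)⁻¹ := by
      have hb : b = c + (b - c) := by omega
      have hpc : ((p : ℂ)) ^ c ≠ 0 := pow_ne_zero _ (by exact_mod_cast hp.ne_zero)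
      rw [hd']
      conv_lhs => rw [hb, pow_add]
      push_cast
      field_simp
    rw [e]
    refine MemLocalIdeal.mul_right hMp ((memLocalIdeal_natCast_iff hM _).mpr ?_)
      (MemLocalRing.inv (memLocalRing_natCast hMp.ne_top d') ?_)
    · exact Dvd.dvd.mul_right (dvd_pow_self p (by omega)) m
    · intro hcon
      exact hnd ((memLocalIdeal_natCast_iff hM _).mp hcon)
  have h4 := MemLocalIdeal.sub hMp h3 h1
  rw [sub_sub_cancel] at h4
  exact not_memLocalIdeal_one h4

end Cfsg.Agent.Helper25
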