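import Cfsg.Agent.Helper25.BlockQuot
import Cfsg.Agent.Helper25.BlockThird

set_option autoImplicit false
set_option linter.unusedSectionVars false

/-!
# Blocks of `G ⧸ N` for a normal `p'`-subgroup `N` (helper25)

In every coset of a normal `p'`-subgroup there is an element whose class size differs from the
class size of its image by a factor prime to `p`; hence the block relation descends to the
quotient.
-/

namespace Cfsg.Agent.Helper25

open Cfsg

section

variable {G : Type*} [Group G] [Fintype G] {M : Ideal AlgInt} {p : ℕ}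

theorem fibIdx_conj (N : Subgroup G) [N.Normal] (g t : G) :
    fibIdx N (t * g * t⁻¹) = fibIdx N g := by
  classical
  have : Fintype (G ⧸ N) := Fintype.ofFinite _
  have h1 := index_eq_mul_fibIdx N (t * g * t⁻¹)
  have h2 := index_eq_mul_fibIdx N g
  have h3 : (Subgroup.centralizer ({(QuotientGroup.mk' N (t * g * t⁻¹))} : Set (G ⧸ N))).index
      = (Subgroup.centralizer ({(QuotientGroup.mk' N g)} : Set (G ⧸ N))).index := by
    rw [map_mul, map_mul, map_inv]
    exact index_centralizer_conj _ _
  rw [index_centralizer_conj, h3, h2] at h1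
  have hpos : 0 < (Subgroup.centralizer ({(QuotientGroup.mk' N g)} : Set (G ⧸ N))).index :=
    Nat.pos_of_ne_zero Subgroup.index_ne_zero_of_finite
  exact (Nat.eq_of_mul_eq_mul_right hpos h1).symm

/-- In every coset of a normal `p'`-subgroup there is an element whose class size has the same
`p`-part as the class size of its image in the quotient. -/
theorem exists_fibIdx_not_dvd (N : Subgroup G) [N.Normal]
    (hN : ¬ p ∣ Nat.card N) (g : G) :
    ∃ g' : G, (QuotientGroup.mk g' : G ⧸ N) = QuotientGroup.mk g ∧ ¬ p ∣ fibIdx N g' := by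
  classical
  have : Fintype (G ⧸ N) := Fintype.ofFinite _
  have := Helper24.finite_irrCharacter (G := G)
  have : Fintype (IrrCharacter G) := Fintype.ofFinite _
  by_contra hcon
  push Not at hcon
  have hall : ∀ x : G, IsConj (QuotientGroup.mk x : G ⧸ N) (QuotientGroup.mk g) →
      p ∣ fibIdx N x := by
    intro x hx
    obtain ⟨c, hc⟩ := isConj_iff.mp hx
    obtain ⟨t, rfl⟩ := QuotientGroup.mk_surjective c
    have h1 := hcon (t * x * t⁻¹) (by simpa using hc)
    rwa [fibIdx_conj] at h1
  obtain ⟨f, hfdef⟩ : ∃ f : G → ℂ, f = fun x =>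
      if IsConj (QuotientGroup.mk x : G ⧸ N) (QuotientGroup.mk g) then (1 : ℂ) else 0 :=
    ⟨_, rfl⟩
  have hfcl : IsClassFunction G f := by
    intro x t
    rw [hfdef]
    simp only []
    have hiff : IsConj (QuotientGroup.mk (t * x * t⁻¹) : G ⧸ N) (QuotientGroup.mk g)
        ↔ IsConj (QuotientGroup.mk x : G ⧸ N) (QuotientGroup.mk g) := by
      have hc : IsConj (QuotientGroup.mk x : G ⧸ N) (QuotientGroup.mk (t * x * t⁻¹)) :=
        isConj_iff.mpr ⟨QuotientGroup.mk t, by simp⟩
      exact ⟨fun h => hc.trans h, fun h => hc.symm.trans h⟩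
    rw [if_congr hiff rfl rfl]
  obtain ⟨m, hmdef⟩ : ∃ m : ℕ,
      m = (Subgroup.centralizer ({(QuotientGroup.mk' N g)} : Set (G ⧸ N))).index := ⟨_, rfl⟩
  have hmem : ∑ x : G, f x ∈ AddSubgroup.zmultiples ((p * m : ℕ) : ℂ) := by
    apply sum_class_mem _ f hfcl
    intro x
    rw [hfdef]
    simp only []
    split_ifs with hx
    · obtain ⟨c, hc⟩ := hall x hx
      have hidx : (Subgroup.centralizer ({(QuotientGroup.mk' N x)} : Set (G ⧸ N))).index = m := by
        rw [hmdef]
        obtain ⟨d, hd⟩ := isConj_iff.mp hx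
        rw [QuotientGroup.mk'_apply, QuotientGroup.mk'_apply, ← hd]
        exact (index_centralizer_conj d _).symm
      rw [mul_one, index_eq_mul_fibIdx N x, hc, hidx]
      refine AddSubgroup.mem_zmultiples_iff.mpr ⟨(c : ℤ), ?_⟩
      rw [zsmul_eq_mul]
      push_cast
      ring
    · rw [mul_zero]
      exact zero_mem _
  have hsum : ∑ x : G, f x = ((Nat.card N * m : ℕ) : ℂ) := by
    rw [hfdef]
    beta_reduce
    have h1 := Helper6.sum_comp_surjective (QuotientGroup.mk' N) (QuotientGroup.mk'_surjective N)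
      (fun q : G ⧸ N => if IsConj q (QuotientGroup.mk g) then (1 : ℂ) else 0)
    rw [QuotientGroup.ker_mk'] at h1
    simp only [QuotientGroup.mk'_apply] at h1
    refine (Eq.trans (Finset.sum_congr rfl fun x _ => by congr 1) h1).trans ?_
    rw [Finset.sum_boole, nsmul_eq_mul]
    have h2 : (Finset.univ.filter fun q : G ⧸ N => IsConj q (QuotientGroup.mk g)).card = m := by
      rw [hmdef, Helper2.index_centralizer_eq_card_conj, Nat.card_eq_fintype_card,
        Fintype.card_subtype]
      rfl
    rw [h2]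
    push_cast
    ring
  rw [hsum] at hmem
  obtain ⟨k, hk⟩ := AddSubgroup.mem_zmultiples_iff.mp hmem
  have hm0 : m ≠ 0 := by
    rw [hmdef]
    exact Subgroup.index_ne_zero_of_finite
  have h3 : (k * ((p : ℤ) * (m : ℤ)) : ℤ) = (Nat.card N : ℤ) * (m : ℤ) := by
    have h0 : ((k * ((p : ℤ) * (m : ℤ)) : ℤ) : ℂ) = (((Nat.card N : ℤ) * (m : ℤ) : ℤ) : ℂ) := by
      rw [zsmul_eq_mul] at hk
      push_cast at hk ⊢
      exact hk
    exact_mod_cast h0
  have h4 : (p : ℤ) ∣ (Nat.card N : ℤ) := by
    have h5 : (k * (p : ℤ)) * (m : ℤ) = (Nat.card N : ℤ) * (m : ℤ) := by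
      rw [← h3]
      ring
    have h6 := mul_right_cancel₀ (by exact_mod_cast hm0 : (m : ℤ) ≠ 0) h5
    exact ⟨k, by rw [← h6]; ring⟩
  exact hN (by exact_mod_cast h4)

/-- For a normal `p'`-subgroup `N`, the block relation between inflated functions descends to
`G ⧸ N`. -/
theorem sameBlock_deflate_pprime (hpM : IsPModular p M) (N : Subgroup G) [N.Normal]
    (hN : ¬ p ∣ Nat.card N) (χ ψ : G ⧸ N → ℂ)
    (h : SameBlock M (χ ∘ (QuotientGroup.mk : G → G ⧸ N))
      (ψ ∘ (QuotientGroup.mk : G → G ⧸ N))) : SameBlock M χ ψ := by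
  intro x
  obtain ⟨g, rfl⟩ := QuotientGroup.mk_surjective x
  obtain ⟨g', hg', hnd⟩ := exists_fibIdx_not_dvd N hN g
  have h1 := h g'
  rw [centralChar_inflate, centralChar_inflate, ← mul_sub, hg'] at h1
  have hM := hpM.2.1.isPrime
  rcases MemLocalIdeal.of_mul hM (memLocalRing_natCast hM.ne_top _) h1 with h2 | h2
  · exact absurd ((memLocalIdeal_natCast_iff hpM _).mp h2) hnd
  · exact h2

end

end Cfsg.Agent.Helper25
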