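import Cfsg.Agent.Helper25.BlockThird
import Cfsg.Agent.Helper6.BrauerInd
import Cfsg.Agent.Helper6.Clifford
import Cfsg.Agent.Helper24.OneNonlinear
import Cfsg.Agent.Helper10.Bessel
import Cfsg.Agent.Helper10.VirtualChar
import Cfsg.Agent.Helper2.CharNat
import Cfsg.Agent.Helper2.CharDecomp
import Cfsg.Agent.Helper2.CharComplete

set_option autoImplicit false

/-!
# The indicator of the `p`-regular elements as a generalized character (helper25)

`|G|_p` times the indicator function of the `p`-regular elements is a generalized character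
(by Brauer's characterization of characters).  Consequently the principal `p`-block has at most
`|G|_p ^ 2` irreducible characters.
-/

universe u

namespace Cfsg.Agent.Helper25

open Cfsg
open scoped ComplexConjugate

/-- In a finite nilpotent group the `p`-regular elements form a normal subgroup whose index is
the order of a Sylow `p`-subgroup. -/
theorem exists_regular_subgroup_of_nilpotent {E : Type*} [Group E] [Finite E]
    [Group.IsNilpotent E] (p : ℕ) [Fact p.Prime] (P : Sylow p E) :
    ∃ K : Subgroup E, K.Normal ∧ K.index = Nat.card P ∧ ∀ e : E, e ∈ K ↔ ¬ p ∣ orderOf e := by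
  have hp : p.Prime := Fact.out
  obtain ⟨-, K, hKn, hKcard, -, -⟩ := Helper24.exists_normal_complement_of_nilpotent p P
  have hidx : K.index = Nat.card P := by
    have h1 := Subgroup.card_mul_index K
    have h2 := Subgroup.card_mul_index (P : Subgroup E)
    rw [hKcard] at h1
    have h3 : (P : Subgroup E).index ≠ 0 := Subgroup.index_ne_zero_of_finite
    have h4 : (P : Subgroup E).index * K.index = (P : Subgroup E).index * Nat.card P := by
      rw [h1, mul_comm, h2]
    exact Nat.eq_of_mul_eq_mul_left (Nat.pos_of_ne_zero h3) h4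
  refine ⟨K, hKn, hidx, fun e => ⟨fun he hdvd => ?_, fun he => ?_⟩⟩
  · have h1 : orderOf e ∣ (P : Subgroup E).index := by
      rw [← hKcard]
      have h3 := orderOf_dvd_natCard (⟨e, he⟩ : K)
      rwa [Subgroup.orderOf_mk] at h3
    exact P.not_dvd_index (dvd_trans hdvd h1)
  · have h1 : orderOf (QuotientGroup.mk' K e) ∣ orderOf e := orderOf_map_dvd _ e
    have h2 : orderOf (QuotientGroup.mk' K e) ∣ Nat.card P := by
      rw [← hidx, Subgroup.index_eq_card]
      exact orderOf_dvd_natCard _
    obtain ⟨m, hm⟩ := IsPGroup.iff_card.mp P.isPGroup'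
    rw [hm] at h2
    obtain ⟨j, -, hj⟩ := (Nat.dvd_prime_pow hp).mp h2
    have hj0 : j = 0 := by
      by_contra hne
      apply he
      refine dvd_trans ?_ h1
      rw [hj]
      exact dvd_pow_self p hne
    rw [hj0, pow_zero, orderOf_eq_one_iff] at hj
    exact (QuotientGroup.eq_one_iff e).mp hj

/-- On a finite nilpotent group, a multiple of the indicator function of the `p`-regular
elements by a multiple of the Sylow order is a character. -/
theorem isCharacter_regular_nilpotent {E : Type u} [Group E] [Fintype E] [Group.IsNilpotent E]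
    (p : ℕ) [Fact p.Prime] (c : ℕ) (hc : ∀ P : Sylow p E, Nat.card P ∣ c) :
    IsCharacter E (fun e : E => if p ∣ orderOf e then 0 else (c : ℂ)) := by
  classical
  obtain ⟨P⟩ : Nonempty (Sylow p E) := inferInstance
  obtain ⟨K, hKn, hidx, hK⟩ := exists_regular_subgroup_of_nilpotent p P
  obtain ⟨d, hd⟩ := hc P
  have h1 : IsCharacter E (d • indFun K (fun _ : K => (1 : ℂ))) :=
    Helper2.IsCharacter.nsmul (Helper2.isCharacter_indFun K Helper2.isCharacter_one) d
  have e : (fun e : E => if p ∣ orderOf e then 0 else (c : ℂ))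
      = d • indFun K (fun _ : K => (1 : ℂ)) := by
    funext e
    rw [Pi.smul_apply, nsmul_eq_mul]
    by_cases he : e ∈ K
    · have h2 := Helper6.indFun_apply_of_invariant K (fun _ : K => (1 : ℂ)) (fun _ _ => rfl)
        ⟨e, he⟩
      rw [if_neg ((hK e).1 he)]
      have h3 : indFun K (fun _ : K => (1 : ℂ)) e = (K.index : ℂ) * 1 := h2
      rw [h3, hidx, hd]
      push_cast
      ring
    · have h2 : p ∣ orderOf e := by
        by_contra h
        exact he ((hK e).2 h)
      rw [if_pos h2, Helper6.indFun_apply_of_not_mem K _ he, mul_zero]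
  rw [e]
  exact h1

/-- `|G|_p` times the indicator function of the `p`-regular elements is a generalized
character. -/
theorem isGeneralizedCharacter_regular {G : Type u} [Group G] [Fintype G] (p : ℕ)
    [Fact p.Prime] :
    IsGeneralizedCharacter G (fun g : G => if p ∣ orderOf g then 0 else
      ((p ^ (Nat.card G).factorization p : ℕ) : ℂ)) := by
  classical
  have hp : p.Prime := Fact.out
  refine Helper6.BrauerInd.brauer_characterization (fun g h => ?_) (fun E q hq hE => ?_)
  · show (if p ∣ orderOf (h * g * h⁻¹) then (0 : ℂ) else _) = (if p ∣ orderOf g then 0 else _)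
    rw [orderOf_conj']
  · have hnil : Group.IsNilpotent E := Helper6.BrauerInd.isNilpotent_of_isElementary hq hE
    have h1 := isCharacter_regular_nilpotent (E := E) p (p ^ (Nat.card G).factorization p)
      (fun P => by
        obtain ⟨m, hm⟩ := IsPGroup.iff_card.mp P.isPGroup'
        rw [hm]
        apply pow_dvd_pow
        have h2 : p ^ m ∣ Nat.card G := by
          rw [← hm]
          exact dvd_trans (Subgroup.card_subgroup_dvd_card _) (Subgroup.card_subgroup_dvd_card E)
        exact (Nat.Prime.pow_dvd_iff_le_factorization hp Nat.card_pos.ne').mp h2)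
    have e : (fun e : E => (fun g : G => if p ∣ orderOf g then 0 else
          ((p ^ (Nat.card G).factorization p : ℕ) : ℂ)) e)
        = (fun e : E => if p ∣ orderOf e then 0 else
          ((p ^ (Nat.card G).factorization p : ℕ) : ℂ)) := by
      funext e
      show (if p ∣ orderOf (e : G) then (0 : ℂ) else _) = _
      rw [Subgroup.orderOf_coe]
    rw [e]
    exact Helper10.isGeneralizedCharacter_of_char h1

/-- The principal `p`-block has at most `|G|_p ^ 2` irreducible characters. -/
theorem card_principalBlock_le {G : Type u} [Group G] [Finite G] (p : ℕ) [Fact p.Prime]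
    {M : Ideal AlgInt} (hM : IsPModular p M) :
    Nat.card (principalBlock M G) ≤ p ^ (2 * (Nat.card G).factorization p) := by
  classical
  have : Fintype G := Fintype.ofFinite G
  have := Helper24.finite_irrCharacter (G := G)
  have : Fintype (IrrCharacter G) := Fintype.ofFinite _
  have hMp := hM.2.1.isPrime
  have hp : p.Prime := Fact.out
  obtain ⟨a, ha⟩ : ∃ a, a = (Nat.card G).factorization p := ⟨_, rfl⟩
  obtain ⟨θ, hθdef⟩ : ∃ θ : G → ℂ, θ = fun g => if p ∣ orderOf g then 0 else
    ((p ^ a : ℕ) : ℂ) := ⟨_, rfl⟩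
  have hθ : IsGeneralizedCharacter G θ := by
    rw [hθdef, ha]
    exact isGeneralizedCharacter_regular p
  have hpa : ((p ^ a : ℕ) : ℂ) ≠ 0 := by exact_mod_cast (pow_pos hp.pos a).ne'
  have hinner : ∀ χ : IrrCharacter G, classInner θ (χ : G → ℂ)
      = (Nat.card G : ℂ)⁻¹ * (((p ^ a : ℕ) : ℂ)
        * conj (∑ g : G, (if p ∣ orderOf g then 0 else (χ : G → ℂ) g))) := by
    intro χ
    unfold classInner
    congr 1
    rw [map_sum, Finset.mul_sum]
    refine Finset.sum_congr rfl (fun g _ => ?_)
    rw [hθdef]
    by_cases hg : p ∣ orderOf g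
    · simp [hg]
    · simp [hg]
  have hne : ∀ χ ∈ principalBlock M G, classInner θ ((χ : IrrCharacter G) : G → ℂ) ≠ 0 := by
    intro χ hχ
    rw [hinner]
    have h1 := (mem_principal_iff hM χ).1 hχ
    have h2 : ∑ g : G, (if p ∣ orderOf g then 0 else (χ : G → ℂ) g) ≠ 0 := by
      intro h0
      apply h1
      rw [regSum_div, h0, zero_div]
      exact MemLocalIdeal.zero hMp.ne_top
    exact mul_ne_zero (inv_ne_zero card_ne_zero_complex)
      (mul_ne_zero hpa ((map_ne_zero _).2 h2))
  obtain ⟨n, hn0, hn⟩ := Helper10.gen_norm_nonneg hθ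
  have hnle : n ≤ ((p ^ (2 * a) : ℕ) : ℤ) := by
    have h1 : classInner θ θ = (Nat.card G : ℂ)⁻¹ * (((p ^ (2 * a) : ℕ) : ℂ)
        * (Nat.card {g : G // ¬ p ∣ orderOf g} : ℂ)) := by
      unfold classInner
      congr 1
      rw [← sum_regular_one (p := p), Finset.mul_sum]
      refine Finset.sum_congr rfl (fun g _ => ?_)
      rw [hθdef]
      by_cases hg : p ∣ orderOf g
      · simp [hg]
      · simp [hg]
        ring
    rw [hn] at h1
    have hG0 : (Nat.card G : ℂ) ≠ 0 := card_ne_zero_complex
    have h2 : (n : ℂ) * (Nat.card G : ℂ) = ((p ^ (2 * a) : ℕ) : ℂ)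
        * (Nat.card {g : G // ¬ p ∣ orderOf g} : ℂ) := by
      rw [h1]
      field_simp
    have h3 : n * (Nat.card G : ℤ) = ((p ^ (2 * a) : ℕ) : ℤ)
        * (Nat.card {g : G // ¬ p ∣ orderOf g} : ℤ) := by exact_mod_cast h2
    have h4 : Nat.card {g : G // ¬ p ∣ orderOf g} ≤ Nat.card G :=
      Nat.card_le_card_of_injective _ Subtype.val_injective
    have h5 : n * (Nat.card G : ℤ) ≤ ((p ^ (2 * a) : ℕ) : ℤ) * (Nat.card G : ℤ) := by
      rw [h3]
      exact mul_le_mul_of_nonneg_left (by exact_mod_cast h4) (by positivity)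
    exact le_of_mul_le_mul_right h5 (by exact_mod_cast Nat.card_pos)
  have hb := (Helper10.bessel_int
    (Finset.univ.filter (fun χ : IrrCharacter G => χ ∈ principalBlock M G))
    (fun χ => (χ : G → ℂ)) θ (fun χ => Helper10.irrCoeff θ (χ : G → ℂ))
    (fun χ _ => by
      have := Helper2.classInner_irr χ.2 χ.2
      rwa [if_pos rfl] at this)
    (fun χ _ ψ _ hne' => by
      have := Helper2.classInner_irr χ.2 ψ.2
      rwa [if_neg (fun h => hne' (Subtype.ext h))] at this)
    (fun χ _ => Helper10.irrCoeff_spec hθ χ.2) n hn).1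
  have hcard : ((Finset.univ.filter (fun χ : IrrCharacter G => χ ∈ principalBlock M G)).card : ℤ)
      ≤ ∑ χ ∈ Finset.univ.filter (fun χ : IrrCharacter G => χ ∈ principalBlock M G),
        Helper10.irrCoeff θ (χ : G → ℂ) ^ 2 := by
    rw [Finset.card_eq_sum_ones]
    push_cast
    refine Finset.sum_le_sum (fun χ hχ => ?_)
    have hχ' := (Finset.mem_filter.mp hχ).2
    have h1 := hne χ hχ'
    rw [Helper10.irrCoeff_spec hθ χ.2] at h1
    have h2 : Helper10.irrCoeff θ (χ : G → ℂ) ≠ 0 := by
      intro h0
      rw [h0] at h1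
      exact h1 (by simp)
    have h3 : 0 < Helper10.irrCoeff θ (χ : G → ℂ) ^ 2 := by positivity
    omega
  have hfin : Nat.card (principalBlock M G)
      = (Finset.univ.filter (fun χ : IrrCharacter G => χ ∈ principalBlock M G)).card := by
    rw [Nat.card_eq_fintype_card, ← Fintype.card_subtype]
  rw [hfin, ← ha]
  have h6 := le_trans hcard (le_trans hb hnle)
  exact_mod_cast h6

end Cfsg.Agent.Helper25
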