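import Cfsg.Agent.Helper25.SectionSum
import Cfsg.Agent.Helper25.BlockSection
import Cfsg.Agent.Helper25.BlockRankTrace
import Cfsg.Agent.Helper2.CharComplete

set_option autoImplicit false
set_option linter.unusedSectionVars false

/-!
# Brauer's count of the characters of a block by subsections (helper25)
-/

namespace Cfsg.Agent.Helper25

open Cfsg
open scoped ComplexConjugate

section

variable {G : Type*} [Group G] [Fintype G] {M : Ideal AlgInt} {p : ℕ}

/-- The `p`-regular rank of a block as a sum over the group (finsum form). -/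
theorem blockRank_trace_finsum [Fact p.Prime] (hpM : IsPModular p M)
    {B : Set (IrrCharacter G)} (hB : IsPBlock M B) :
    (Nat.card G : ℂ) * (blockRank p B : ℂ)
      = ∑ x : G, ∑ᶠ χ ∈ B, pRegularPart p (χ : G → ℂ) x * (χ : G → ℂ) x⁻¹ := by
  classical
  have := Helper24.finite_irrCharacter (G := G)
  have : Fintype (IrrCharacter G) := Fintype.ofFinite _
  rw [blockRank_trace hpM hB]
  refine Finset.sum_congr rfl fun x _ => ?_
  rw [finsum_mem_eq_sum_ite]

/-- The section sum at a `p`-element through the ranks of the blocks of its centralizer. -/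
theorem section_rank_sum [Fact p.Prime] (hpM : IsPModular p M) {B : Set (IrrCharacter G)}
    (hB : IsPBlock M B) (x : G) (hx : ∃ k : ℕ, orderOf x = p ^ k)
    [Fintype (Subgroup.centralizer ({x} : Set G))] :
    ∑ y : (Subgroup.centralizer ({x} : Set G)), (if p ∣ orderOf y then (0 : ℂ) else
        ∑ᶠ χ ∈ B, (χ : G → ℂ) (x * (y : G)) * conj ((χ : G → ℂ) (x * (y : G))))
      = (Nat.card (Subgroup.centralizer ({x} : Set G)) : ℂ) * ((∑ᶠ b ∈ {b : Set (IrrCharacter (Subgroup.centralizer ({x} : Set G))) |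
          IsInducedBlock M (Subgroup.centralizer ({x} : Set G)) b B}, blockRank p b : ℕ) : ℂ) := by
  classical
  have hM := hpM.2.1.isPrime
  have hfinIrr := Helper24.finite_irrCharacter (G := (Subgroup.centralizer ({x} : Set G)))
  obtain ⟨S, hSdef⟩ : ∃ S : Set (Set (IrrCharacter (Subgroup.centralizer ({x} : Set G)))),
      S = {b : Set (IrrCharacter (Subgroup.centralizer ({x} : Set G))) | IsInducedBlock M (Subgroup.centralizer ({x} : Set G)) b B} := ⟨_, rfl⟩
  obtain ⟨A, hAdef⟩ : ∃ A : Set (IrrCharacter (Subgroup.centralizer ({x} : Set G))),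
      A = {ψ : IrrCharacter (Subgroup.centralizer ({x} : Set G)) | IsInducedBlock M (Subgroup.centralizer ({x} : Set G)) (blockOf M (ψ : (Subgroup.centralizer ({x} : Set G)) → ℂ)) B} := ⟨_, rfl⟩
  have hSmem : ∀ b, b ∈ S ↔ IsInducedBlock M (Subgroup.centralizer ({x} : Set G)) b B := by
    intro b
    rw [hSdef]
    rfl
  have hAmem : ∀ ψ : IrrCharacter (Subgroup.centralizer ({x} : Set G)), ψ ∈ A ↔
      IsInducedBlock M (Subgroup.centralizer ({x} : Set G)) (blockOf M (ψ : (Subgroup.centralizer ({x} : Set G)) → ℂ)) B := by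
    intro ψ
    rw [hAdef]
    rfl
  rw [← hSdef]
  have hS : S.Finite := Set.toFinite S
  have hAeq : A = ⋃ b ∈ S, b := by
    ext ψ
    simp only [Set.mem_iUnion, exists_prop]
    constructor
    · intro hψ
      exact ⟨blockOf M (ψ : (Subgroup.centralizer ({x} : Set G)) → ℂ), (hSmem _).2 ((hAmem ψ).1 hψ), mem_blockOf_self hM.ne_top ψ⟩
    · rintro ⟨b, hb, hψb⟩
      have hb' := (hSmem b).1 hb
      obtain ⟨ψ₀, hb0⟩ := id hb'.1
      rw [hAmem]
      rw [hb0] at hψb hb'
      rw [← blockOf_eq_of_mem hM hψb]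
      exact hb'
  have hdisj : S.PairwiseDisjoint (fun b => b) := by
    intro b hb b' hb' hne
    show Disjoint b b'
    rw [Set.disjoint_left]
    intro ψ hψ hψ'
    apply hne
    obtain ⟨ψ₀, hb0⟩ := id ((hSmem b).1 hb).1
    obtain ⟨ψ₁, hb1⟩ := id ((hSmem b').1 hb').1
    rw [hb0] at hψ ⊢
    rw [hb1] at hψ' ⊢
    rw [blockOf_eq_of_mem hM hψ, blockOf_eq_of_mem hM hψ']
  have e1 : ∀ y : (Subgroup.centralizer ({x} : Set G)), (if p ∣ orderOf y then (0 : ℂ) else
        ∑ᶠ χ ∈ B, (χ : G → ℂ) (x * (y : G)) * conj ((χ : G → ℂ) (x * (y : G))))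
      = ∑ᶠ ψ ∈ A, pRegularPart p (ψ : (Subgroup.centralizer ({x} : Set G)) → ℂ) y * (ψ : (Subgroup.centralizer ({x} : Set G)) → ℂ) y⁻¹ := by
    intro y
    by_cases hy : p ∣ orderOf y
    · rw [if_pos hy]
      symm
      apply finsum_mem_eq_zero_of_forall_eq_zero
      intro ψ _
      rw [pRegularPart_sing _ hy, zero_mul]
    · rw [if_neg hy, section_norm_formula hpM x hx B hB A hAmem y hy]
      apply finsum_mem_congr rfl
      intro ψ _
      rw [pRegularPart_reg _ hy, char_conj_eq_inv]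
  rw [Finset.sum_congr rfl fun y _ => e1 y]
  have e2 : ∀ y : (Subgroup.centralizer ({x} : Set G)), ∑ᶠ ψ ∈ A, pRegularPart p (ψ : (Subgroup.centralizer ({x} : Set G)) → ℂ) y * (ψ : (Subgroup.centralizer ({x} : Set G)) → ℂ) y⁻¹
      = ∑ b ∈ hS.toFinset, ∑ᶠ ψ ∈ b, pRegularPart p (ψ : (Subgroup.centralizer ({x} : Set G)) → ℂ) y * (ψ : (Subgroup.centralizer ({x} : Set G)) → ℂ) y⁻¹ := by
    intro y
    rw [hAeq, finsum_mem_biUnion hdisj hS (fun b _ => Set.toFinite b),
      finsum_mem_eq_finite_toFinset_sum _ hS]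
  rw [Finset.sum_congr rfl fun y _ => e2 y, Finset.sum_comm,
    finsum_mem_eq_finite_toFinset_sum _ hS]
  push_cast
  rw [Finset.mul_sum]
  refine Finset.sum_congr rfl fun b hb => ?_
  have hbS : b ∈ S := (Set.Finite.mem_toFinset hS).1 hb
  exact (blockRank_trace_finsum hpM ((hSmem b).1 hbS).1).symm

/-- Brauer's formula: the number of characters of a block is the sum of the ranks of the blocks
of the centralizers of the `p`-elements inducing it. -/
theorem card_block_eq_sum_ranks [Fact p.Prime] (hpM : IsPModular p M)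
    {B : Set (IrrCharacter G)} (hB : IsPBlock M B) (X : Finset G)
    (hX : ∀ x ∈ X, ∃ k : ℕ, orderOf x = p ^ k)
    (hXrep : ∀ g : G, (∃ k : ℕ, orderOf g = p ^ k) → ∃! x, x ∈ X ∧ IsConj g x) :
    Nat.card B = ∑ x ∈ X, ∑ᶠ b ∈ {b : Set (IrrCharacter (Subgroup.centralizer ({x} : Set G))) |
      IsInducedBlock M (Subgroup.centralizer ({x} : Set G)) b B}, blockRank p b := by
  classical
  letI : ∀ x : G, Fintype (Subgroup.centralizer ({x} : Set G)) := fun x => Fintype.ofFinite _
  have := Helper24.finite_irrCharacter (G := G)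
  have : Fintype (IrrCharacter G) := Fintype.ofFinite _
  have hG : (Nat.card G : ℂ) ≠ 0 := Nat.cast_ne_zero.mpr Nat.card_pos.ne'
  obtain ⟨F, hFdef⟩ : ∃ F : G → ℂ,
      F = fun g => ∑ᶠ χ ∈ B, (χ : G → ℂ) g * conj ((χ : G → ℂ) g) := ⟨_, rfl⟩
  have hFx : ∀ g : G, F g = ∑ᶠ χ ∈ B, (χ : G → ℂ) g * conj ((χ : G → ℂ) g) := by
    intro g
    rw [hFdef]
  have hF : IsClassFunction G F := by
    intro g k
    rw [hFx, hFx]
    apply finsum_mem_congr rfl
    intro χ _
    rw [(Helper2.IsIrrCharacter.isClassFunction χ.2) g k]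
  have hcard : (Nat.card B : ℂ) = (Nat.card G : ℂ)⁻¹ * ∑ g : G, F g := by
    have h1 : (Nat.card B : ℂ) = ∑ χ : IrrCharacter G, if χ ∈ B then (1 : ℂ) else 0 := by
      rw [Finset.sum_boole, Nat.card_eq_fintype_card, Fintype.card_subtype]
    have h2 : ∑ g : G, F g = ∑ χ : IrrCharacter G, ∑ g : G,
        if χ ∈ B then (χ : G → ℂ) g * conj ((χ : G → ℂ) g) else 0 := by
      rw [Finset.sum_comm]
      refine Finset.sum_congr rfl fun g _ => ?_
      rw [hFx, finsum_mem_eq_sum_ite]
    rw [h1, h2, Finset.mul_sum]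
    refine Finset.sum_congr rfl fun χ _ => ?_
    by_cases hχ : χ ∈ B
    · simp only [if_pos hχ]
      have h3 := Helper2.classInner_irr χ.2 χ.2
      rw [if_pos rfl] at h3
      rw [← h3]
      rfl
    · simp only [if_neg hχ]
      simp
  have hsec := section_sum F hF X hX hXrep
  have hxs : ∀ x ∈ X, ((Subgroup.centralizer ({x} : Set G)).index : ℂ)
      * ∑ y : Subgroup.centralizer ({x} : Set G),
        (if p ∣ orderOf y then 0 else F (x * (y : G)))
      = (Nat.card G : ℂ) * ((∑ᶠ b ∈ {b : Set (IrrCharacter (Subgroup.centralizer ({x} : Set G))) |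
        IsInducedBlock M (Subgroup.centralizer ({x} : Set G)) b B}, blockRank p b : ℕ) : ℂ) := by
    intro x hxX
    have h2 := section_rank_sum hpM hB x (hX x hxX)
    have h3 : ∀ y : Subgroup.centralizer ({x} : Set G),
        (if p ∣ orderOf y then (0 : ℂ) else F (x * (y : G)))
        = (if p ∣ orderOf y then (0 : ℂ) else
          ∑ᶠ χ ∈ B, (χ : G → ℂ) (x * (y : G)) * conj ((χ : G → ℂ) (x * (y : G)))) := by
      intro y
      rw [hFx]
    rw [Finset.sum_congr rfl fun y _ => h3 y, h2, ← mul_assoc]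
    congr 1
    have h4 := Subgroup.card_mul_index (Subgroup.centralizer ({x} : Set G))
    rw [mul_comm]
    exact_mod_cast h4
  rw [hsec, Finset.sum_congr rfl hxs, ← Finset.mul_sum, ← mul_assoc, inv_mul_cancel₀ hG,
    one_mul] at hcard
  exact_mod_cast hcard

end

end Cfsg.Agent.Helper25
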