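import Cfsg.Agent.Helper25.BlockAut
import Cfsg.Agent.Helper25.BlockBrauer
import Cfsg.Prelude.Def_BlockFusion

set_option autoImplicit false

/-!
# Brauer pairs of the principal block (helper25)

The principal blocks of the centralizers of `p`-subgroups form a chain of Brauer pairs.
-/

namespace Cfsg.Agent.Helper25

open Cfsg
open scoped ComplexConjugate

theorem autIrr_injective {K : Type*} [Group K] [Finite K] (φ : K ≃* K) :
    Function.Injective (autIrr φ) := by
  intro χ χ' h
  apply Subtype.ext
  funext k
  have h1 := congrArg (fun ψ : IrrCharacter K => (ψ : K → ℂ) (φ.symm k)) h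
  simp only [autIrr_apply, MulEquiv.apply_symm_apply] at h1
  exact h1

theorem autIrr_autIrr_symm {K : Type*} [Group K] [Finite K] (φ : K ≃* K) (χ : IrrCharacter K) :
    autIrr φ (autIrr φ.symm χ) = χ := by
  apply Subtype.ext
  funext k
  rw [autIrr_apply, autIrr_apply, MulEquiv.symm_apply_apply]

/-- The idempotent of the principal block is invariant under automorphisms. -/
theorem blockCoeff_principal_mulEquiv {M : Ideal AlgInt} {K : Type*} [Group K] [Finite K]
    (φ : K ≃* K) (k : K) :
    blockCoeff (principalBlock M K) (φ k) = blockCoeff (principalBlock M K) k := by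
  unfold blockCoeff
  congr 1
  refine finsum_mem_eq_of_bijOn (autIrr φ) ⟨?_, ?_, ?_⟩ ?_
  · intro χ hχ
    exact autIrr_mem_principal φ χ hχ
  · intro χ _ χ' _ h
    exact autIrr_injective φ h
  · intro χ hχ
    exact ⟨autIrr φ.symm χ, autIrr_mem_principal φ.symm χ hχ, autIrr_autIrr_symm φ χ⟩
  · intro χ _
    rw [autIrr_apply, autIrr_apply, map_one]

/-- The idempotent of the principal block of `C_G(X)`, extended by zero, is invariant under
conjugation by the normalizer of `X`. -/
theorem subgroupBlockCoeff_principal_conj {M : Ideal AlgInt} {G : Type*} [Group G] [Finite G]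
    (X : Subgroup G) (u : G) (hu : u ∈ Subgroup.normalizer (X : Set G)) (y : G) :
    subgroupBlockCoeff (Subgroup.centralizer (X : Set G))
      (principalBlock M (Subgroup.centralizer (X : Set G))) (u * y * u⁻¹)
    = subgroupBlockCoeff (Subgroup.centralizer (X : Set G))
      (principalBlock M (Subgroup.centralizer (X : Set G))) y := by
  classical
  have hu' : u⁻¹ ∈ Subgroup.normalizer (X : Set G) := Subgroup.inv_mem _ hu
  unfold subgroupBlockCoeff
  by_cases hy : y ∈ Subgroup.centralizer (X : Set G)
  · have hy' : u * y * u⁻¹ ∈ Subgroup.centralizer (X : Set G) := by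
      have h := (conjCentralizer X u⁻¹ hu' ⟨y, hy⟩).2
      rw [conjCentralizer_apply, inv_inv] at h
      exact h
    rw [dif_pos hy, dif_pos hy']
    have e : (⟨u * y * u⁻¹, hy'⟩ : Subgroup.centralizer (X : Set G))
        = conjCentralizer X u⁻¹ hu' ⟨y, hy⟩ := by
      apply Subtype.ext
      rw [conjCentralizer_apply, inv_inv]
    rw [e]
    exact blockCoeff_principal_mulEquiv _ _
  · have hy' : u * y * u⁻¹ ∉ Subgroup.centralizer (X : Set G) := by
      intro h
      apply hy
      have h2 := (conjCentralizer X u hu ⟨_, h⟩).2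
      rw [conjCentralizer_apply] at h2
      have e : u⁻¹ * (u * y * u⁻¹) * u = y := by group
      rwa [e] at h2
    rw [dif_neg hy, dif_neg hy']

/-- The coefficients of the principal block idempotent sum to one. -/
theorem sum_blockCoeff_principal {M : Ideal AlgInt} (hM : M.IsPrime) {K : Type*} [Group K]
    [Fintype K] : ∑ g : K, blockCoeff (principalBlock M K) g = 1 := by
  classical
  have := Helper24.finite_irrCharacter (G := K)
  have : Fintype (IrrCharacter K) := Fintype.ofFinite _
  have h1G : oneIrr K ∈ principalBlock M K := sameBlock_refl hM.ne_top _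
  have h := spec_eq_sum
    (fun χ : IrrCharacter K => if χ ∈ principalBlock M K then (1 : ℂ) else 0) (oneIrr K)
  rw [if_pos h1G] at h
  rw [h]
  refine Finset.sum_congr rfl fun g _ => ?_
  rw [← blockCoeff_eq_coeffT, oneIrr_apply, oneIrr_apply, div_one, mul_one]

theorem cent_le_norm {G : Type*} [Group G] (Q : Subgroup G) {k : G}
    (hk : k ∈ Subgroup.centralizer (Q : Set G)) : k ∈ Subgroup.normalizer (Q : Set G) :=
  Subgroup.centralizer_le_normalizer (Q : Set G) hk

/-- Relative form of the third main theorem: for `Q ⊴ P` the principal block of `C_G(P)` occurs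
in the Brauer-map image at `P` of the principal block idempotent of `C_G(Q)`. -/
theorem brauerOmega_principal_sub_one {p : ℕ} [Fact p.Prime] {M : Ideal AlgInt}
    (hM : IsPModular p M) {G : Type*} [Group G] [Fintype G] (Q P : Subgroup G)
    (hP : IsPGroup p P) (hQP : Q ≤ P) (hPN : P ≤ Subgroup.normalizer (Q : Set G))
    (ξ : IrrCharacter (Subgroup.centralizer (P : Set G)))
    (hξ : ξ ∈ principalBlock M (Subgroup.centralizer (P : Set G))) :
    MemLocalIdeal M (brauerOmega P (subgroupBlockCoeff (Subgroup.centralizer (Q : Set G))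
      (principalBlock M (Subgroup.centralizer (Q : Set G))))
        (ξ : Subgroup.centralizer (P : Set G) → ℂ) - 1) := by
  classical
  have hM' := hM.2.1.isPrime
  have : Fintype (Subgroup.centralizer (P : Set G)) := Fintype.ofFinite _
  have : Fintype (Subgroup.centralizer (Q : Set G)) := Fintype.ofFinite _
  obtain ⟨a, ha⟩ : ∃ a : G → ℂ, a = subgroupBlockCoeff (Subgroup.centralizer (Q : Set G))
      (principalBlock M (Subgroup.centralizer (Q : Set G))) := ⟨_, rfl⟩
  rw [← ha]
  have hinv : ∀ u ∈ Subgroup.normalizer (Q : Set G), ∀ y : G, a (u * y * u⁻¹) = a y := by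
    intro u hu y
    rw [ha]
    exact subgroupBlockCoeff_principal_conj Q u hu y
  have haR : ∀ y, MemLocalRing M (a y) := by
    intro y
    rw [ha]
    unfold subgroupBlockCoeff
    by_cases hy : y ∈ Subgroup.centralizer (Q : Set G)
    · rw [dif_pos hy]
      exact blockCoeff_memLocalRing hM' ⟨oneIrr _, rfl⟩ _
    · rw [dif_neg hy]
      exact MemLocalRing.zero hM'.ne_top
  have hsum1 : ∑ y : G, a y = 1 := by
    rw [sum_eq_sum_centralizer_add Q a]
    have h0 : ∑ y : G, (if y ∈ Subgroup.centralizer (Q : Set G) then 0 else a y) = 0 := by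
      refine Finset.sum_eq_zero fun y _ => ?_
      split_ifs with hy
      · rfl
      · rw [ha]
        unfold subgroupBlockCoeff
        rw [dif_neg hy]
    rw [h0, add_zero, ← sum_blockCoeff_principal hM' (K := Subgroup.centralizer (Q : Set G))]
    refine Finset.sum_congr rfl fun x _ => ?_
    rw [ha]
    unfold subgroupBlockCoeff
    rw [dif_pos x.2]
  have hLone : MemLocalIdeal M (∑ x : Subgroup.centralizer (P : Set G), a (x : G) - 1) := by
    have h := sum_eq_sum_centralizer_add P a
    rw [hsum1] at h
    have hoff := sum_off_centralizer_mem hM P hP a (fun u hu y => hinv u (hPN hu) y) haR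
    have e : ∑ x : Subgroup.centralizer (P : Set G), a (x : G) - 1
        = -(∑ y : G, (if y ∈ Subgroup.centralizer (P : Set G) then 0 else a y)) := by
      rw [h]
      ring
    rw [e]
    exact MemLocalIdeal.neg hoff
  rw [brauerOmega_eq_sum]
  have hs : SameBlock M (ξ : Subgroup.centralizer (P : Set G) → ℂ)
      ((oneIrr (Subgroup.centralizer (P : Set G)) :
        IrrCharacter (Subgroup.centralizer (P : Set G))) :
          Subgroup.centralizer (P : Set G) → ℂ) := sameBlock_symm hξ
  have hcl : IsClassFunction (Subgroup.centralizer (P : Set G))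
      (fun x : Subgroup.centralizer (P : Set G) => a (x : G)) := by
    intro x k
    show a ((k : G) * (x : G) * (k : G)⁻¹) = a (x : G)
    refine hinv k ?_ x
    exact cent_le_norm Q (Subgroup.centralizer_le hQP k.2)
  have h1 := omega_sub_mem hM' ξ (oneIrr _) hs
    (fun x : Subgroup.centralizer (P : Set G) => a (x : G)) hcl (fun x => haR (x : G))
  have e3 : ∑ x : Subgroup.centralizer (P : Set G), a (x : G)
      * (((oneIrr (Subgroup.centralizer (P : Set G)) :
        IrrCharacter (Subgroup.centralizer (P : Set G))) :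
          Subgroup.centralizer (P : Set G) → ℂ) x
        / ((oneIrr (Subgroup.centralizer (P : Set G)) :
        IrrCharacter (Subgroup.centralizer (P : Set G))) :
          Subgroup.centralizer (P : Set G) → ℂ) 1)
      = ∑ x : Subgroup.centralizer (P : Set G), a (x : G) := by
    refine Finset.sum_congr rfl fun x _ => ?_
    rw [oneIrr_apply, oneIrr_apply, div_one, mul_one]
  rw [e3] at h1
  have h9 := MemLocalIdeal.add hM' h1 hLone
  convert h9 using 1
  ring

theorem subpairLE_le_aux {G : Type*} [Group G] {p : ℕ} {M : Ideal AlgInt}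
    {a b : BrauerPairIdx G} (h : Relation.ReflTransGen (NormalSubpairRel p M) a b) :
    a.1 ≤ b.1 := by
  induction h with
  | refl => exact le_refl _
  | tail _ hbc ih => exact le_trans ih hbc.2.2.1

/-- Inclusion of Brauer pairs implies inclusion of the subgroups. -/
theorem subpairLE_le_princ {G : Type*} [Group G] {p : ℕ} {M : Ideal AlgInt} {Q P : Subgroup G}
    {f : Set (IrrCharacter (Subgroup.centralizer (Q : Set G)))}
    {e : Set (IrrCharacter (Subgroup.centralizer (P : Set G)))} (h : SubpairLE p M Q f P e) :
    Q ≤ P :=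
  subpairLE_le_aux (a := ⟨Q, f⟩) (b := ⟨P, e⟩) h

/-- The normal inclusion of principal Brauer pairs. -/
theorem isNormalSubpair_principal {p : ℕ} [Fact p.Prime] {M : Ideal AlgInt}
    (hM : IsPModular p M) {G : Type*} [Group G] [Fintype G] (Q P : Subgroup G)
    (hP : IsPGroup p P) (hQP : Q ≤ P) (hPN : P ≤ Subgroup.normalizer (Q : Set G)) :
    IsNormalSubpair p M Q (principalBlock M (Subgroup.centralizer (Q : Set G))) P
      (principalBlock M (Subgroup.centralizer (P : Set G))) :=
  ⟨⟨hP.to_le hQP, ⟨oneIrr _, rfl⟩⟩, ⟨hP, ⟨oneIrr _, rfl⟩⟩, hQP, hPN,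
    fun x hx => stabilizesBlock_principal Q x (hPN hx),
    fun ξ hξ => brauerOmega_principal_sub_one hM Q P hP hQP hPN ξ hξ⟩

/-- In a finite `p`-group `S`, a proper subgroup `T` is properly contained in `N_S(T)`. -/
theorem card_lt_card_inf_normalizer' {G : Type*} [Group G] [Finite G] {p : ℕ} [Fact p.Prime]
    {S T : Subgroup G} (hS : IsPGroup p S) (hTS : T ≤ S) (hne : T ≠ S) :
    Nat.card T < Nat.card ((S ⊓ Subgroup.normalizer (T : Set G) : Subgroup G)) := by
  have hnil : Group.IsNilpotent S := hS.isNilpotent
  have hnc : NormalizerCondition S := Group.normalizerCondition_of_isNilpotent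
  have hlt : T.subgroupOf S < ⊤ := by
    rw [lt_top_iff_ne_top]
    intro h
    apply hne
    apply le_antisymm hTS
    intro s hs
    have : (⟨s, hs⟩ : S) ∈ T.subgroupOf S := by rw [h]; exact Subgroup.mem_top _
    exact Subgroup.mem_subgroupOf.1 this
  have h1 := hnc _ hlt
  obtain ⟨s, hsN, hsT⟩ := SetLike.exists_of_lt h1
  have hkey : ∀ u : S, u ∈ Subgroup.normalizer ((T.subgroupOf S : Subgroup S) : Set S) →
      ∀ y : G, y ∈ T → (u : G) * y * (u : G)⁻¹ ∈ T := by
    intro u hu y hy
    have h2 := (Subgroup.mem_normalizer_iff.1 hu ⟨y, hTS hy⟩).1 (Subgroup.mem_subgroupOf.2 hy)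
    have h3 := Subgroup.mem_subgroupOf.1 h2
    simpa using h3
  have hsNG : (s : G) ∈ Subgroup.normalizer (T : Set G) := by
    rw [Subgroup.mem_normalizer_iff]
    intro y
    constructor
    · exact hkey s hsN y
    · intro hy
      have h4 := hkey s⁻¹ (inv_mem hsN) _ hy
      have e : ((s⁻¹ : S) : G) * ((s : G) * y * (s : G)⁻¹) * ((s⁻¹ : S) : G)⁻¹ = y := by
        simp [mul_assoc]
      rw [e] at h4
      exact h4
  have hle : T ≤ S ⊓ Subgroup.normalizer (T : Set G) := le_inf hTS Subgroup.le_normalizer
  by_contra hcon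
  push Not at hcon
  have heq := Subgroup.eq_of_le_of_card_ge hle hcon
  apply hsT
  rw [Subgroup.mem_subgroupOf, heq]
  exact Subgroup.mem_inf.2 ⟨s.2, hsNG⟩

theorem subpairLE_principal_aux {p : ℕ} [Fact p.Prime] {M : Ideal AlgInt}
    (hM : IsPModular p M) {G : Type*} [Group G] [Fintype G] (S : Subgroup G)
    (hS : IsPGroup p S) : ∀ (n : ℕ) (Q : Subgroup G), Q ≤ S → Nat.card S - Nat.card Q ≤ n →
      SubpairLE p M Q (principalBlock M (Subgroup.centralizer (Q : Set G))) S
        (principalBlock M (Subgroup.centralizer (S : Set G))) := by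
  intro n
  induction n with
  | zero =>
    intro Q hQS hn
    have h : Q = S := Subgroup.eq_of_le_of_card_ge hQS (by omega)
    subst h
    exact Relation.ReflTransGen.refl
  | succ n ih =>
    intro Q hQS hn
    by_cases hQ : Q = S
    · subst hQ
      exact Relation.ReflTransGen.refl
    · have hlt := card_lt_card_inf_normalizer' hS hQS hQ
      have hstep := isNormalSubpair_principal hM Q (S ⊓ Subgroup.normalizer (Q : Set G))
        (hS.to_le inf_le_left) (le_inf hQS Subgroup.le_normalizer) inf_le_right
      exact Relation.ReflTransGen.head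
        (show NormalSubpairRel p M ⟨Q, principalBlock M (Subgroup.centralizer (Q : Set G))⟩
          ⟨S ⊓ Subgroup.normalizer (Q : Set G), principalBlock M (Subgroup.centralizer
            ((S ⊓ Subgroup.normalizer (Q : Set G) : Subgroup G) : Set G))⟩ from hstep)
        (ih (S ⊓ Subgroup.normalizer (Q : Set G)) inf_le_left (by omega))

/-- Every principal Brauer pair on a subgroup of the `p`-group `S` lies below the one on `S`. -/
theorem subpairLE_principal {p : ℕ} [Fact p.Prime] {M : Ideal AlgInt}
    (hM : IsPModular p M) {G : Type*} [Group G] [Fintype G] (S : Subgroup G)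
    (hS : IsPGroup p S) (Q : Subgroup G) (hQS : Q ≤ S) :
    SubpairLE p M Q (principalBlock M (Subgroup.centralizer (Q : Set G))) S
      (principalBlock M (Subgroup.centralizer (S : Set G))) :=
  subpairLE_principal_aux hM S hS _ Q hQS (le_refl _)

/-- Conjugation, from the centralizer of `Q` to the centralizer of the conjugate of `Q`. -/
def conjCentralizerMap {G : Type*} [Group G] (Q : Subgroup G) (g : G) :
    Subgroup.centralizer (Q : Set G) ≃*
      Subgroup.centralizer ((Q.map (MulAut.conj g).toMonoidHom : Subgroup G) : Set G) where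
  toFun c := ⟨g * (c : G) * g⁻¹, by
    rw [Subgroup.mem_centralizer_iff]
    intro x hx
    obtain ⟨q, hq, rfl⟩ := Subgroup.mem_map.mp hx
    have h2 := Subgroup.mem_centralizer_iff.mp c.2 q hq
    show (MulAut.conj g) q * (g * (c : G) * g⁻¹) = g * (c : G) * g⁻¹ * (MulAut.conj g) q
    rw [MulAut.conj_apply]
    calc g * q * g⁻¹ * (g * (c : G) * g⁻¹) = g * (q * (c : G)) * g⁻¹ := by group
      _ = g * ((c : G) * q) * g⁻¹ := by rw [h2]
      _ = g * (c : G) * g⁻¹ * (g * q * g⁻¹) := by group⟩
  invFun c := ⟨g⁻¹ * (c : G) * g, by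
    rw [Subgroup.mem_centralizer_iff]
    intro q hq
    have h1 : g * q * g⁻¹ ∈ (Q.map (MulAut.conj g).toMonoidHom : Subgroup G) :=
      Subgroup.mem_map.mpr ⟨q, hq, by
        show (MulAut.conj g) q = g * q * g⁻¹
        rw [MulAut.conj_apply]⟩
    have h2 := Subgroup.mem_centralizer_iff.mp c.2 _ h1
    calc q * (g⁻¹ * (c : G) * g) = g⁻¹ * ((g * q * g⁻¹) * (c : G)) * g := by group
      _ = g⁻¹ * ((c : G) * (g * q * g⁻¹)) * g := by rw [h2]
      _ = g⁻¹ * (c : G) * g * q := by group⟩
  left_inv c := by
    apply Subtype.ext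
    show g⁻¹ * (g * (c : G) * g⁻¹) * g = c
    group
  right_inv c := by
    apply Subtype.ext
    show g * (g⁻¹ * (c : G) * g) * g⁻¹ = c
    group
  map_mul' a b := by
    apply Subtype.ext
    show g * ((a : G) * (b : G)) * g⁻¹ = g * (a : G) * g⁻¹ * (g * (b : G) * g⁻¹)
    group

theorem conjCentralizerMap_apply {G : Type*} [Group G] (Q : Subgroup G) (g : G)
    (c : Subgroup.centralizer (Q : Set G)) :
    ((conjCentralizerMap Q g c :
      Subgroup.centralizer ((Q.map (MulAut.conj g).toMonoidHom : Subgroup G) : Set G)) : G)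
      = g * (c : G) * g⁻¹ := rfl

/-- The conjugate of a principal block is the principal block. -/
theorem conjBlock_principal {M : Ideal AlgInt} {G : Type*} [Group G] [Finite G]
    (Q : Subgroup G) (g : G) :
    conjBlock Q g (principalBlock M (Subgroup.centralizer (Q : Set G)))
      = principalBlock M
        (Subgroup.centralizer ((Q.map (MulAut.conj g).toMonoidHom : Subgroup G) : Set G)) := by
  classical
  have : Fintype G := Fintype.ofFinite G
  ext ξ'
  constructor
  · rintro ⟨ξ, hξ, h⟩
    have hfun : (ξ' : Subgroup.centralizer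
        ((Q.map (MulAut.conj g).toMonoidHom : Subgroup G) : Set G) → ℂ)
        = (ξ : Subgroup.centralizer (Q : Set G) → ℂ) ∘ (conjCentralizerMap Q g).symm := by
      funext c'
      rw [Function.comp_apply]
      apply h
      have e := conjCentralizerMap_apply Q g ((conjCentralizerMap Q g).symm c')
      rw [MulEquiv.apply_symm_apply] at e
      exact e
    have h1 : SameBlock M (fun _ : Subgroup.centralizer (Q : Set G) => (1 : ℂ))
        (ξ : Subgroup.centralizer (Q : Set G) → ℂ) := hξ
    have h2 := sameBlock_comp_mulEquiv (conjCentralizerMap Q g).symm h1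
    show SameBlock M (fun _ => (1 : ℂ)) (ξ' : Subgroup.centralizer
        ((Q.map (MulAut.conj g).toMonoidHom : Subgroup G) : Set G) → ℂ)
    rw [hfun]
    exact h2
  · intro hξ'
    have h1 : SameBlock M (fun _ : Subgroup.centralizer
        ((Q.map (MulAut.conj g).toMonoidHom : Subgroup G) : Set G) => (1 : ℂ))
        (ξ' : Subgroup.centralizer
        ((Q.map (MulAut.conj g).toMonoidHom : Subgroup G) : Set G) → ℂ) := hξ'
    have : Fintype (Subgroup.centralizer (Q : Set G)) := Fintype.ofFinite _
    have : Fintype (Subgroup.centralizer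
        ((Q.map (MulAut.conj g).toMonoidHom : Subgroup G) : Set G)) := Fintype.ofFinite _
    refine ⟨⟨(ξ' : Subgroup.centralizer
        ((Q.map (MulAut.conj g).toMonoidHom : Subgroup G) : Set G) → ℂ) ∘ (conjCentralizerMap Q g),
      Helper6.isIrrCharacter_comp_surjective (conjCentralizerMap Q g).toMonoidHom
        (conjCentralizerMap Q g).surjective ξ'.2⟩, ?_, ?_⟩
    · exact sameBlock_comp_mulEquiv (conjCentralizerMap Q g) h1
    · intro c c' hcc'
      show (ξ' : Subgroup.centralizer
        ((Q.map (MulAut.conj g).toMonoidHom : Subgroup G) : Set G) → ℂ) c'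
        = (ξ' : Subgroup.centralizer
        ((Q.map (MulAut.conj g).toMonoidHom : Subgroup G) : Set G) → ℂ) (conjCentralizerMap Q g c)
      have e : c' = conjCentralizerMap Q g c :=
        Subtype.ext (by rw [hcc', conjCentralizerMap_apply])
      rw [e]

end Cfsg.Agent.Helper25
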