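import Cfsg.Agent.Helper6.DetTrace
import Cfsg.Agent.Helper25.BlockBase
import Mathlib

/-!
A faithful irreducible character of degree less than `2p` in the principal `p`-block of a
perfect group forces the centralizer of a Sylow `p`-subgroup to be a `p`-group.
-/

set_option autoImplicit false

namespace Cfsg.Agent.Helper25

open Cfsg Finset

/-- A `p`-regular element centralizing a Sylow `p`-subgroup of a perfect group is trivial when
the principal block has a faithful irreducible character of degree `< 2p`. -/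
theorem cent_sylow_regular_eq_one {G : Type*} [Group G] [Finite G] (p : ℕ) [Fact p.Prime]
    (M : Ideal AlgInt) (hM : IsPModular p M) (hperf : commutator G = ⊤) (P : Sylow p G)
    (χ : IrrCharacter G) (hχ : χ ∈ principalBlock M G)
    (hfaith : ∀ g : G, (χ : G → ℂ) g = (χ : G → ℂ) 1 → g = 1)
    (hdeg : charDegree (χ : G → ℂ) < 2 * p)
    (x : G) (hx : x ∈ Subgroup.centralizer ((P : Subgroup G) : Set G))
    (hxp : ¬ p ∣ orderOf x) : x = 1 := by
  classical
  have hp : p.Prime := Fact.out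
  have hMp : M.IsPrime := IsPModular.isPrime hM
  have hMtop : M ≠ ⊤ := hM.2.1.ne_top
  obtain ⟨n, ρ, -, hρ⟩ := χ.2
  obtain ⟨A, hAdef⟩ : ∃ A : Module.End ℂ (Fin n → ℂ), A = ρ x := ⟨_, rfl⟩
  obtain ⟨m, hmdef⟩ : ∃ m : ℕ, m = orderOf x := ⟨_, rfl⟩
  rw [← hmdef] at hxp
  have hm : 0 < m := by rw [hmdef]; exact orderOf_pos x
  have hA : A ^ m = 1 := by
    rw [hAdef, ← map_pow, hmdef, pow_orderOf_eq_one, map_one]
  obtain ⟨ζ, hζ⟩ : ∃ ζ : ℂ, IsPrimitiveRoot ζ m := ⟨_, Complex.isPrimitiveRoot_exp m hm.ne'⟩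
  have hζ0 : ζ ≠ 0 := hζ.ne_zero hm.ne'
  have hζm : ζ ^ m = 1 := hζ.pow_eq_one
  have htr : ∀ l : ℕ, LinearMap.trace ℂ (Fin n → ℂ) (A ^ l) = (χ : G → ℂ) (x ^ l) := by
    intro l
    rw [hAdef, ← map_pow]
    exact congrFun hρ (x ^ l)
  obtain ⟨r, hrdef⟩ : ∃ r : ℕ → ℕ, ∀ j,
      r j = Module.finrank ℂ (LinearMap.range (Helper6.dftIdem A m ζ j)) := ⟨_, fun _ => rfl⟩
  have hidem : ∀ j, IsIdempotentElem (Helper6.dftIdem A m ζ j) :=
    fun j => Helper6.dftIdem_isIdempotent A m hm hA ζ hζ0 hζm j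
  have htre : ∀ j, LinearMap.trace ℂ (Fin n → ℂ) (Helper6.dftIdem A m ζ j) = (r j : ℂ) := by
    intro j
    rw [hrdef j]
    exact (LinearMap.IsIdempotentElem.isProj_range _ (hidem j)).trace
  have hm0 : (m : ℂ) ≠ 0 := by exact_mod_cast hm.ne'
  have hr : ∀ j, (m : ℂ) * (r j : ℂ)
      = ∑ l ∈ range m, ((ζ ^ j)⁻¹) ^ l * (χ : G → ℂ) (x ^ l) := by
    intro j
    have h1 := Helper6.trace_dftIdem A m hm hA ζ hζ0 hζm j
    rw [hrdef j, h1, ← mul_assoc, mul_inv_cancel₀ hm0, one_mul]
    exact Finset.sum_congr rfl (fun l _ => by rw [htr l])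
  have hsum1 : ∑ j ∈ range m, Helper6.dftIdem A m ζ j = 1 := Helper6.sum_dftIdem A m hm ζ hζ
  have hdeg1 : (χ : G → ℂ) 1 = ((∑ j ∈ range m, r j : ℕ) : ℂ) := by
    have h0 := htr 0
    rw [pow_zero, pow_zero] at h0
    rw [← h0, ← hsum1, map_sum, Nat.cast_sum]
    exact Finset.sum_congr rfl (fun j _ => htre j)
  have hdeg2 : ∑ j ∈ range m, r j < 2 * p := by
    have hcd : charDegree (χ : G → ℂ) = ∑ j ∈ range m, r j := by
      unfold charDegree
      rw [hdeg1, Complex.natCast_re, Nat.floor_natCast]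
    rw [← hcd]
    exact hdeg
  have hcong : ∀ g : G, g ∈ Subgroup.centralizer ((P : Subgroup G) : Set G) →
      MemLocalIdeal M ((χ : G → ℂ) 1 - (χ : G → ℂ) g) := by
    intro g hg
    have hχ1 : (χ : G → ℂ) 1 ≠ 0 := irr_one_ne_zero χ.2
    have hsame : SameBlock M (fun _ : G => (1 : ℂ)) (χ : G → ℂ) := hχ
    have h := hsame g
    unfold centralChar at h
    have hPle : (P : Subgroup G) ≤ Subgroup.centralizer ({g} : Set G) := by
      intro y hy
      rw [Subgroup.mem_centralizer_iff]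
      intro z hz
      rw [Set.mem_singleton_iff] at hz
      rw [hz]
      exact (Subgroup.mem_centralizer_iff.mp hg y hy).symm
    have hidx : ¬ p ∣ (Subgroup.centralizer ({g} : Set G)).index := by
      intro hdvd
      exact P.not_dvd_index (dvd_trans hdvd (Subgroup.index_dvd_of_le hPle))
    have h2 : MemLocalIdeal M ((χ : G → ℂ) 1 *
        (((Subgroup.centralizer ({g} : Set G)).index : ℂ) * 1 / 1
          - ((Subgroup.centralizer ({g} : Set G)).index : ℂ) * (χ : G → ℂ) g
            / (χ : G → ℂ) 1)) := by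
      apply MemLocalIdeal.mul_left hMp _ h
      rw [hdeg1]
      exact memLocalRing_natCast hMtop _
    have h3 : (χ : G → ℂ) 1 *
        (((Subgroup.centralizer ({g} : Set G)).index : ℂ) * 1 / 1
          - ((Subgroup.centralizer ({g} : Set G)).index : ℂ) * (χ : G → ℂ) g
            / (χ : G → ℂ) 1)
        = ((Subgroup.centralizer ({g} : Set G)).index : ℂ)
          * ((χ : G → ℂ) 1 - (χ : G → ℂ) g) := by
      field_simp
    rw [h3] at h2
    rcases MemLocalIdeal.of_mul hMp (memLocalRing_natCast hMtop _) h2 with h4 | h4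
    · exact absurd ((memLocalIdeal_natCast_iff hM _).mp h4) hidx
    · exact h4
  have hkey : ∀ j, MemLocalIdeal M ((m : ℂ) * (r j : ℂ)
      - (χ : G → ℂ) 1 * ∑ l ∈ range m, ((ζ ^ j)⁻¹) ^ l) := by
    intro j
    rw [hr j, Finset.mul_sum, ← Finset.sum_sub_distrib]
    apply memLocalIdeal_sum hMp
    intro l _
    have h1 : ((ζ ^ j)⁻¹) ^ l * (χ : G → ℂ) (x ^ l) - (χ : G → ℂ) 1 * ((ζ ^ j)⁻¹) ^ l
        = ((ζ ^ j)⁻¹) ^ l * (-((χ : G → ℂ) 1 - (χ : G → ℂ) (x ^ l))) := by ring
    show MemLocalIdeal M (((ζ ^ j)⁻¹) ^ l * (χ : G → ℂ) (x ^ l)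
      - (χ : G → ℂ) 1 * ((ζ ^ j)⁻¹) ^ l)
    rw [h1]
    apply MemLocalIdeal.mul_left hMp _ (MemLocalIdeal.neg (hcong _ (Subgroup.pow_mem _ hx l)))
    apply memLocalRing_of_isIntegral hMtop
    apply IsIntegral.of_pow hm
    have e1 : (ζ ^ j) ^ m = 1 := by rw [← pow_mul, mul_comm, pow_mul, hζm, one_pow]
    have e2 : ((ζ ^ j)⁻¹) ^ m = 1 := by rw [inv_pow, e1, inv_one]
    have e3 : (((ζ ^ j)⁻¹) ^ l) ^ m = 1 := by rw [← pow_mul, mul_comm, pow_mul, e2, one_pow]
    rw [e3]
    exact isIntegral_one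
  have hgeom : ∀ j, j ≠ 0 → j < m → ∑ l ∈ range m, ((ζ ^ j)⁻¹) ^ l = 0 := by
    intro j hj0 hjm
    have h1 : ζ ^ j ≠ 1 := hζ.pow_ne_one_of_pos_of_lt hj0 hjm
    have h2 : (ζ ^ j)⁻¹ ≠ 1 := by
      intro h
      apply h1
      rw [← inv_inv (ζ ^ j), h, inv_one]
    have e1 : (ζ ^ j) ^ m = 1 := by rw [← pow_mul, mul_comm, pow_mul, hζm, one_pow]
    have e2 : ((ζ ^ j)⁻¹) ^ m = 1 := by rw [inv_pow, e1, inv_one]
    rw [geom_sum_eq h2, e2, sub_self, zero_div]
  have hdvd : ∀ j, j ≠ 0 → j < m → p ∣ r j := by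
    intro j hj0 hjm
    have h1 := hkey j
    rw [hgeom j hj0 hjm, mul_zero, sub_zero] at h1
    have h2 : MemLocalIdeal M (((m * r j : ℕ)) : ℂ) := by
      rw [Nat.cast_mul]
      exact h1
    have h3 : p ∣ m * r j := (memLocalIdeal_natCast_iff hM _).mp h2
    rcases (Nat.Prime.dvd_mul hp).mp h3 with h4 | h4
    · exact absurd h4 hxp
    · exact h4
  by_cases hall : ∀ j ∈ range m, j ≠ 0 → r j = 0
  · have he0 : ∀ j ∈ range m, j ≠ 0 → Helper6.dftIdem A m ζ j = 0 := by
      intro j hj hj0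
      have h1 : Module.finrank ℂ (LinearMap.range (Helper6.dftIdem A m ζ j)) = 0 := by
        rw [← hrdef j]
        exact hall j hj hj0
      rw [Submodule.finrank_eq_zero] at h1
      exact LinearMap.range_eq_bot.mp h1
    have h0 : Helper6.dftIdem A m ζ 0 = 1 := by
      rw [← hsum1]
      symm
      apply Finset.sum_eq_single 0
      · intro j hj hj0
        exact he0 j hj hj0
      · intro h
        exact absurd (Finset.mem_range.mpr hm) h
    have hA1 : A = 1 := by
      have h1 := Helper6.mul_dftIdem A m hA ζ hζ0 hζm 0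
      rw [h0, mul_one, pow_zero, one_smul] at h1
      exact h1
    apply hfaith
    have h1 := htr 1
    rw [pow_one, pow_one, hA1] at h1
    have h0' := htr 0
    rw [pow_zero, pow_zero] at h0'
    rw [← h1, ← h0']
  · push_neg at hall
    obtain ⟨j0, hj0m, hj00, hrj0⟩ := hall
    have hj0lt : j0 < m := Finset.mem_range.mp hj0m
    have hpj0 : p ∣ r j0 := hdvd j0 hj00 hj0lt
    have hle1 : r j0 ≤ ∑ j ∈ range m, r j :=
      Finset.single_le_sum (f := r) (fun _ _ => Nat.zero_le _) hj0m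
    have hrj0p : r j0 = p := by
      obtain ⟨c, hc⟩ := hpj0
      have hc2 : c < 2 := by
        by_contra hcon
        push_neg at hcon
        have h5 : p * 2 ≤ p * c := Nat.mul_le_mul_left p hcon
        omega
      have hc0 : c ≠ 0 := by
        intro h0
        rw [h0, mul_zero] at hc
        exact hrj0 hc
      have hc1 : c = 1 := by omega
      rw [hc, hc1, mul_one]
    have hother : ∀ j ∈ range m, j ≠ 0 → j ≠ j0 → r j = 0 := by
      intro j hj hjne0 hjne
      by_contra hne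
      have hpj : p ∣ r j := hdvd j hjne0 (Finset.mem_range.mp hj)
      have hrj : p ≤ r j := Nat.le_of_dvd (Nat.pos_of_ne_zero hne) hpj
      have hsub : ({j0, j} : Finset ℕ) ⊆ range m := by
        intro y hy
        rcases Finset.mem_insert.mp hy with h | h
        · rw [h]; exact hj0m
        · rw [Finset.mem_singleton.mp h]; exact hj
      have h2 := Finset.sum_le_sum_of_subset (f := r) hsub
      rw [Finset.sum_pair (Ne.symm hjne)] at h2
      omega
    have hdet : LinearMap.det A = 1 := by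
      have h1 : x ∈ (((LinearMap.det : Module.End ℂ (Fin n → ℂ) →* ℂ).comp ρ).toHomUnits).ker :=
        Abelianization.commutator_subset_ker _ (by rw [hperf]; exact Subgroup.mem_top x)
      have h2 := congrArg Units.val (MonoidHom.mem_ker.mp h1)
      rw [MonoidHom.coe_toHomUnits] at h2
      rw [hAdef]
      exact h2
    have hprod : LinearMap.det A = ∏ j ∈ range m, (ζ ^ j) ^ r j := by
      rw [Helper6.det_eq_prod_dft A m hm hA ζ hζ]
      exact Finset.prod_congr rfl (fun j _ => by rw [hrdef j])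
    rw [hdet] at hprod
    have hprod2 : ∏ j ∈ range m, (ζ ^ j) ^ r j = (ζ ^ j0) ^ r j0 := by
      apply Finset.prod_eq_single j0
      · intro j hj hjne
        by_cases hj0' : j = 0
        · rw [hj0', pow_zero, one_pow]
        · rw [hother j hj hj0' hjne, pow_zero]
      · intro h
        exact absurd hj0m h
    rw [hprod2, hrj0p, ← pow_mul] at hprod
    have hmdvd : m ∣ j0 * p := hζ.dvd_of_pow_eq_one _ hprod.symm
    have hcop : Nat.Coprime m p := ((Nat.Prime.coprime_iff_not_dvd hp).mpr hxp).symm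
    have hmj0 : m ∣ j0 := hcop.dvd_of_dvd_mul_right hmdvd
    have hle := Nat.le_of_dvd (Nat.pos_of_ne_zero hj00) hmj0
    omega

/-- The centralizer of a Sylow `p`-subgroup of a perfect group is a `p`-group when the
principal block has a faithful irreducible character of degree `< 2p`. -/
theorem cent_sylow_isPGroup {G : Type*} [Group G] [Finite G] (p : ℕ) [Fact p.Prime]
    (M : Ideal AlgInt) (hM : IsPModular p M) (hperf : commutator G = ⊤) (P : Sylow p G)
    (χ : IrrCharacter G) (hχ : χ ∈ principalBlock M G)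
    (hfaith : ∀ g : G, (χ : G → ℂ) g = (χ : G → ℂ) 1 → g = 1)
    (hdeg : charDegree (χ : G → ℂ) < 2 * p) :
    IsPGroup p ↥(Subgroup.centralizer ((P : Subgroup G) : Set G)) := by
  have hp : p.Prime := Fact.out
  intro y
  have ho : orderOf (y : G) ≠ 0 := (orderOf_pos (y : G)).ne'
  obtain ⟨k, m', hm', hkm⟩ := Nat.exists_eq_pow_mul_and_not_dvd ho p hp.ne_one
  refine ⟨k, ?_⟩
  have hx1 : ((y : G) ^ p ^ k) = 1 := by
    apply cent_sylow_regular_eq_one p M hM hperf P χ hχ hfaith hdeg _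
      (Subgroup.pow_mem _ y.2 _)
    intro hdvd
    apply hm'
    have h1 : ((y : G) ^ p ^ k) ^ m' = 1 := by
      rw [← pow_mul, ← hkm, pow_orderOf_eq_one]
    exact dvd_trans hdvd (orderOf_dvd_of_pow_eq_one h1)
  apply Subtype.ext
  rw [Subgroup.coe_pow]
  exact hx1

end Cfsg.Agent.Helper25
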