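import Cfsg.Agent.Helper25.CentralPPart
import Cfsg.Agent.Helper25.HeightZero
import Cfsg.Agent.Helper25.BlockMinMax
import Cfsg.Agent.Helper6.PRegular

set_option autoImplicit false
set_option linter.unusedSectionVars false

/-!
# Fusion of the centre of a defect group under block induction (helper25)
-/

namespace Cfsg.Agent.Helper25

open Cfsg
open scoped ComplexConjugate

/-- If `b` (defect group `D`) induces `B` (defect group `P`), every element of `Z(P)` is
conjugate to an element of `Z(D)`. -/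
theorem center_fusion {G : Type*} [Group G] [Finite G] {p : ℕ} [Fact p.Prime]
    {M : Ideal AlgInt} (hpM : IsPModular p M) (H : Subgroup G) (b : Set (IrrCharacter H))
    (B : Set (IrrCharacter G)) (hind : IsInducedBlock M H b B) (D : Subgroup H)
    (hD : IsDefectGroup p M b D) (P : Subgroup G) (hP : IsDefectGroup p M B P) (x : G)
    (hx : x ∈ P) (hxc : ∀ w ∈ P, x * w = w * x) :
    ∃ g : G, g * x * g⁻¹ ∈ D.map H.subtype ∧
      ∀ w ∈ D.map H.subtype, (g * x * g⁻¹) * w = w * (g * x * g⁻¹) := by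
  classical
  have : Fintype G := Fintype.ofFinite G
  have := Helper24.finite_irrCharacter (G := G)
  have : Fintype (IrrCharacter G) := Fintype.ofFinite _
  have : Fintype H := Fintype.ofFinite H
  have hM := hpM.2.1.isPrime
  have hp : p.Prime := Fact.out
  have hB := hind.2.1
  obtain ⟨u, hu, S, hPS⟩ := id hP
  have hPp : IsPGroup p P := by
    rw [hPS]
    exact S.isPGroup'.map _
  have hPu : ∀ w ∈ P, w * u = u * w := by
    intro w hw
    rw [hPS] at hw
    obtain ⟨s, _, rfl⟩ := hw
    exact Subgroup.mem_centralizer_singleton_iff.1 s.2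
  have hcomm : Commute x u := hPu x hx
  obtain ⟨χ, hχ, h0⟩ := exists_height_zero p (block_nonempty hM hB)
  have h1 := height_zero_not_mem hpM hB χ hχ h0 u hu
  obtain ⟨k, hk⟩ : ∃ k : ℕ, orderOf x = p ^ k := by
    obtain ⟨k, hk⟩ := hPp ⟨x, hx⟩
    have hk' : x ^ p ^ k = 1 := congrArg Subtype.val hk
    obtain ⟨j, _, hj⟩ := (Nat.dvd_prime_pow hp).1 (orderOf_dvd_of_pow_eq_one hk')
    exact ⟨j, hj⟩
  have h2 := Helper6.PRegular.char_ppart_congr hpM (Helper24.isCharacter_of_irr χ.2) x u hcomm k hk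
  have h3 : ¬ MemLocalIdeal M ((χ : G → ℂ) (x * u)) := by
    intro h
    apply h1
    have h4 := MemLocalIdeal.sub hM h h2
    rw [sub_sub_cancel] at h4
    exact h4
  have hPle : P ≤ Subgroup.centralizer ({x * u} : Set G) := by
    intro w hw
    rw [Subgroup.mem_centralizer_singleton_iff]
    rw [← mul_assoc, ← hxc w hw, mul_assoc, hPu w hw, mul_assoc]
  have hcardP : Nat.card P = p ^ (Nat.card (Subgroup.centralizer ({u} : Set G))).factorization p := by
    rw [hPS, Nat.card_congr (Subgroup.equivMapOfInjective _ _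
      (Subgroup.centralizer ({u} : Set G)).subtype_injective).symm.toEquiv]
    exact S.card_eq_multiplicity
  have hle : (Subgroup.centralizer ({x * u} : Set G)).index.factorization p
      ≤ (charDegree (χ : G → ℂ)).factorization p := by
    rw [← defectClass_idx_val hpM hB χ hχ h0 u hu]
    have e1 := factorization_card_eq (p := p) u
    have e2 := factorization_card_eq (p := p) (x * u)
    have hdvd : Nat.card P ∣ Nat.card (Subgroup.centralizer ({x * u} : Set G)) :=
      Subgroup.card_dvd_of_le hPle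
    rw [hcardP] at hdvd
    have hpos : Nat.card (Subgroup.centralizer ({x * u} : Set G)) ≠ 0 := Nat.card_pos.ne'
    have h5 := (hp.pow_dvd_iff_le_factorization hpos).1 hdvd
    omega
  have h6 : ¬ MemLocalIdeal M (centralChar (χ : G → ℂ) (x * u)) := fun h =>
    h3 (char_mem_of_centralChar_mem hpM χ (x * u) hle h)
  obtain ⟨ξ, hξ⟩ := block_nonempty hM hind.1
  have h7 : ¬ MemLocalIdeal M (inducedCentralChar H (ξ : H → ℂ) (x * u)) := by
    intro h
    apply h6
    have h8 := MemLocalIdeal.sub hM h (hind.2.2 ξ hξ χ hχ (x * u))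
    rw [sub_sub_cancel] at h8
    exact h8
  obtain ⟨h, hconj, hh⟩ := exists_conj_centralChar_of_induced hM H ξ (x * u) h7
  obtain ⟨x', hx'conj, hx'C, hx'⟩ :=
    exists_conj_central_ppart hpM b hind.1 D hD h ⟨ξ, hξ, hh⟩
  have hpp : IsPPart p (x * u) x :=
    (isPPart_mul_iff x u).2 ⟨hcomm, ⟨k, hk⟩, defectClass_pRegular hpM hB u hu⟩
  have hconj2 : IsConj (x * u) (x' : G) :=
    hconj.trans (H.subtype.map_isConj hx'conj)
  obtain ⟨c, hc⟩ := isConj_iff.1 hconj2
  have hpp2 := isPPart_conj hpp c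
  rw [hc] at hpp2
  obtain ⟨z', hz'⟩ := exists_isPPart p x'
  have hz'G := isPPart_coe H hz'
  have hzeq : c * x * c⁻¹ = (z' : G) := isPPart_unique hpp2 hz'G
  obtain ⟨hz'D, hz'c⟩ := hx' z' hz'
  refine ⟨c, ?_, ?_⟩
  · rw [hzeq]
    exact ⟨z', hz'D, rfl⟩
  · rintro w ⟨d, hd, rfl⟩
    rw [hzeq]
    exact congrArg Subtype.val (hz'c d hd)

end Cfsg.Agent.Helper25
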