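import Cfsg.Agent.Helper25.NilLocal
import Cfsg.Agent.S4657

set_option autoImplicit false
set_option linter.unusedSectionVars false
open Cfsg Cfsg.FusionSystem

namespace Cfsg.Agent.Helper25

section CycInert

universe u
variable {G : Type u} [Group G] [Fintype G] {p : ℕ} {M : Ideal AlgInt}

theorem maximal_of_induced_defect [Fact p.Prime] (hpM : IsPModular p M) (B : Set (IrrCharacter G))
    (P : Subgroup G) (hPD : IsDefectGroup p M B P) (c : Set (IrrCharacter (Subgroup.centralizer (P : Set G))))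
    (hc : IsInducedBlock M (Subgroup.centralizer (P : Set G)) c B) : IsMaximalBrauerPair p M B P c := by
  classical
  have hMp := hpM.2.1.isPrime
  have hB : IsPBlock M B := hc.2.1
  have hcard := card_defectGroup hpM hB P hPD
  have hPp : IsPGroup p P := IsPGroup.of_card hcard
  have hPc : IsBrauerPair p M P c := ⟨hPp, hc.1⟩
  obtain ⟨B', hB', -⟩ := Cfsg.Agent.S4657.result p M hpM P c hPc
  have hind := pair_induces hpM B' P c hB'
  have hBB : B' = B := isInducedBlock_unique hMp _ c B' B hind hc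
  rw [hBB] at hB'
  exact maximal_of_card hpM B P c hB' hcard

theorem pow_prime_pow_modEq_one (p d k : ℕ) (h : k ≡ 1 [MOD p]) :
    k ^ p ^ d ≡ 1 [MOD p ^ (d + 1)] := by
  have h1 : ((p : ℕ) : ℤ) ∣ (k : ℤ) - 1 := by
    have h0 := (Nat.modEq_iff_dvd.1 h.symm)
    simpa using h0
  have h2 := dvd_sub_pow_of_dvd_sub h1 d
  rw [one_pow] at h2
  apply Nat.ModEq.symm
  rw [Nat.modEq_iff_dvd]
  push_cast
  exact h2

theorem cyclic_conj_pow (P : Subgroup G) (hcyc : IsCyclic P) (g : G)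
    (hg : g ∈ (Subgroup.normalizer (P : Set G))) : ∃ k : ℕ, ∀ y ∈ P, g * y * g⁻¹ = y ^ k := by
  have := hcyc
  obtain ⟨⟨y₀, hy₀P⟩, hgen⟩ := IsCyclic.exists_generator (α := P)
  have h1 : g * y₀ * g⁻¹ ∈ P := (Subgroup.mem_normalizer_iff.1 hg y₀).1 hy₀P
  have h2 := hgen ⟨g * y₀ * g⁻¹, h1⟩
  rw [← mem_powers_iff_mem_zpowers] at h2
  obtain ⟨k, hk⟩ := (Submonoid.mem_powers_iff _ _).1 h2
  have hk' : y₀ ^ k = g * y₀ * g⁻¹ := by
    have h3 := congrArg Subtype.val hk
    simpa using h3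
  refine ⟨k, fun y hy => ?_⟩
  obtain ⟨j, hj⟩ := Subgroup.mem_zpowers_iff.1 (hgen ⟨y, hy⟩)
  have hj' : y₀ ^ j = y := by
    have h3 := congrArg Subtype.val hj
    simpa using h3
  rw [← hj', ← conj_zpow, ← hk', ← zpow_natCast, ← zpow_natCast, ← zpow_mul, ← zpow_mul, mul_comm]

theorem cyclic_inertial [Fact p.Prime] (hpM : IsPModular p M) (B : Set (IrrCharacter G))
    (P : Subgroup G) (hPD : IsDefectGroup p M B P) (hP1 : P ≠ ⊥) (hcyc : IsCyclic P)
    (c : Set (IrrCharacter (Subgroup.centralizer (P : Set G)))) (hc : IsInducedBlock M (Subgroup.centralizer (P : Set G)) c B) (T : Subgroup G)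
    (hT : ∀ g : G, g ∈ T ↔ (g ∈ (Subgroup.normalizer (P : Set G)) ∧ StabilizesBlock (Subgroup.centralizer (P : Set G)) c g))
    [hn : ((Subgroup.centralizer (P : Set G)).subgroupOf T).Normal] :
    IsCyclic (T ⧸ (Subgroup.centralizer (P : Set G)).subgroupOf T) ∧ (Subgroup.centralizer (P : Set G)).relIndex T ∣ p - 1 ∧
      ∀ g ∈ T, ∀ x ∈ P, x ≠ 1 → g * x * g⁻¹ = x → g ∈ (Subgroup.centralizer (P : Set G)) := by
  classical
  have hp : p.Prime := Fact.out
  have hMp := hpM.2.1.isPrime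
  have hB : IsPBlock M B := hc.2.1
  have hmax := maximal_of_induced_defect hpM B P hPD c hc
  have hcard := card_defectGroup hpM hB P hPD
  have := hcyc
  obtain ⟨⟨y₀, hy₀P⟩, hgen⟩ := IsCyclic.exists_generator (α := P)
  have hab : ∀ x ∈ P, ∀ y ∈ P, x * y = y * x := by
    intro x hx y hy
    obtain ⟨i, hi⟩ := Subgroup.mem_zpowers_iff.1 (hgen ⟨x, hx⟩)
    obtain ⟨j, hj⟩ := Subgroup.mem_zpowers_iff.1 (hgen ⟨y, hy⟩)
    have h1 : (⟨x, hx⟩ : P) * ⟨y, hy⟩ = ⟨y, hy⟩ * ⟨x, hx⟩ := by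
      rw [← hi, ← hj, ← zpow_add, ← zpow_add, add_comm]
    exact congrArg Subtype.val h1
  have hndvd := abelian_inertial_index hpM B P c hmax hab T hT
  have hCT : (Subgroup.centralizer (P : Set G)) ≤ T := cent_le_stab P c T hT
  have hTN : T ≤ (Subgroup.normalizer (P : Set G)) := fun y hy => ((hT y).1 hy).1
  obtain ⟨d, hd⟩ : ∃ d, blockDefect p B = d + 1 := by
    refine Nat.exists_eq_succ_of_ne_zero ?_
    intro h0
    rw [h0, pow_zero] at hcard
    exact hP1 ((Subgroup.card_eq_one).1 hcard)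
  rw [hd] at hcard
  have hkey : ∀ g ∈ T, ∀ k : ℕ, (∀ y ∈ P, g * y * g⁻¹ = y ^ k) → k ≡ 1 [MOD p] → g ∈ (Subgroup.centralizer (P : Set G)) := by
    intro g hgT k hk hk1
    have hK := pow_prime_pow_modEq_one p d k hk1
    have hpow : ∀ n : ℕ, ∀ y ∈ P, g ^ n * y * (g ^ n)⁻¹ = y ^ (k ^ n) := by
      intro n
      induction n with
      | zero => intro y _; simp
      | succ n ih =>
        intro y hy
        have e1 : g ^ (n + 1) * y * (g ^ (n + 1))⁻¹ = g * (g ^ n * y * (g ^ n)⁻¹) * g⁻¹ := by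
          rw [pow_succ']; group
        rw [e1, ih y hy, hk _ (P.pow_mem hy _), ← pow_mul, ← pow_succ]
    have h1 : g ^ p ^ d ∈ (Subgroup.centralizer (P : Set G)) := by
      rw [Subgroup.mem_centralizer_iff]
      intro y hy
      have h2 := hpow (p ^ d) y hy
      have h3 : y ^ (k ^ p ^ d) = y := by
        have h4 : k ^ p ^ d ≡ 1 [MOD orderOf y] := by
          refine hK.of_dvd ?_
          rw [← hcard]
          exact Subgroup.orderOf_dvd_natCard P hy
        have h5 := (pow_eq_pow_iff_modEq (x := y)).2 h4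
        rwa [pow_one] at h5
      rw [h3] at h2
      calc y * g ^ p ^ d = (g ^ p ^ d * y * (g ^ p ^ d)⁻¹) * g ^ p ^ d := by rw [h2]
        _ = g ^ p ^ d * y := by group
    have h3 : g ^ (Subgroup.centralizer (P : Set G)).relIndex T ∈ (Subgroup.centralizer (P : Set G)) :=
      Subgroup.pow_index_mem ((Subgroup.centralizer (P : Set G)).subgroupOf T) (⟨g, hgT⟩ : T)
    have hcop : Nat.Coprime (p ^ d) ((Subgroup.centralizer (P : Set G)).relIndex T) :=
      Nat.Coprime.pow_left _ ((Nat.Prime.coprime_iff_not_dvd hp).2 hndvd)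
    obtain ⟨s, t, hst⟩ := Nat.isCoprime_iff_coprime.2 hcop
    have hx1 : g = (g ^ (p ^ d)) ^ s * (g ^ (Subgroup.centralizer (P : Set G)).relIndex T) ^ t := by
      rw [← zpow_natCast g (p ^ d), ← zpow_natCast g ((Subgroup.centralizer (P : Set G)).relIndex T), ← zpow_mul', ← zpow_mul',
        ← zpow_add, hst, zpow_one]
    rw [hx1]
    exact Subgroup.mul_mem _ (Subgroup.zpow_mem _ h1 s) (Subgroup.zpow_mem _ h3 t)
  have hexp : ∀ g : T, ∃ k : ℕ, ∀ y ∈ P, (g : G) * y * (g : G)⁻¹ = y ^ k :=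
    fun g => cyclic_conj_pow P hcyc g (hTN g.2)
  choose κ hκ using hexp
  have hord : orderOf y₀ = p ^ (d + 1) := by
    rw [← hcard, ← orderOf_eq_card_of_forall_mem_zpowers hgen]
    exact (Subgroup.orderOf_mk y₀ hy₀P).symm
  have hmodp : ∀ a b : ℕ, y₀ ^ a = y₀ ^ b → a ≡ b [MOD p] := by
    intro a b h
    have h1 := (pow_eq_pow_iff_modEq (x := y₀)).1 h
    rw [hord] at h1
    exact h1.of_dvd (dvd_pow_self p (Nat.succ_ne_zero d))
  obtain ⟨ψ, hψ⟩ : ∃ ψ : T →* ZMod p, ∀ g : T, ψ g = ((κ g : ℕ) : ZMod p) := by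
    refine ⟨{ toFun := fun g => ((κ g : ℕ) : ZMod p), map_one' := ?_, map_mul' := ?_ }, fun g => rfl⟩
    · have h := hκ 1 y₀ hy₀P
      have h' : y₀ ^ κ 1 = y₀ ^ 1 := by
        rw [← h]
        simp
      have h2 := hmodp _ _ h'
      show ((κ 1 : ℕ) : ZMod p) = 1
      rw [← Nat.cast_one]
      exact (ZMod.natCast_eq_natCast_iff _ _ _).2 h2
    · intro g h
      have h1 := hκ (g * h) y₀ hy₀P
      have h2 := hκ h y₀ hy₀P
      have h3 := hκ g (y₀ ^ κ h) (P.pow_mem hy₀P _)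
      have h' : y₀ ^ κ (g * h) = y₀ ^ (κ g * κ h) := by
        rw [← h1, mul_comm (κ g), pow_mul, ← h3, ← h2]
        simp [mul_assoc]
      have h4 := hmodp _ _ h'
      show ((κ (g * h) : ℕ) : ZMod p) = ((κ g : ℕ) : ZMod p) * ((κ h : ℕ) : ZMod p)
      rw [← Nat.cast_mul]
      exact (ZMod.natCast_eq_natCast_iff _ _ _).2 h4
  obtain ⟨Ψ, hΨ⟩ : ∃ Ψ : T →* (ZMod p)ˣ, ∀ g : T, ((Ψ g : (ZMod p)ˣ) : ZMod p) = ψ g :=
    ⟨ψ.toHomUnits, fun g => rfl⟩
  have hker : ∀ g : T, Ψ g = 1 → (g : G) ∈ (Subgroup.centralizer (P : Set G)) := by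
    intro g h
    have h1 : ψ g = 1 := by
      rw [← hΨ, h]
      rfl
    have h2 : κ g ≡ 1 [MOD p] := by
      have h3 : ((κ g : ℕ) : ZMod p) = ((1 : ℕ) : ZMod p) := by
        rw [Nat.cast_one, ← hψ]
        exact h1
      exact (ZMod.natCast_eq_natCast_iff _ _ _).1 h3
    exact hkey g g.2 (κ g) (hκ g) h2
  have hker' : ∀ g : T, (g : G) ∈ (Subgroup.centralizer (P : Set G)) → Ψ g = 1 := by
    intro g h
    apply Units.ext
    rw [hΨ, hψ]
    have h1 := hκ g y₀ hy₀P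
    have h' : y₀ ^ κ g = y₀ ^ 1 := by
      rw [← h1, pow_one]
      have h2 := (Subgroup.mem_centralizer_iff.1 h) y₀ hy₀P
      calc (g : G) * y₀ * (g : G)⁻¹ = y₀ * (g : G) * (g : G)⁻¹ := by rw [h2]
        _ = y₀ := by group
    have h4 := hmodp _ _ h'
    show ((κ g : ℕ) : ZMod p) = 1
    rw [← Nat.cast_one]
    exact (ZMod.natCast_eq_natCast_iff _ _ _).2 h4
  obtain ⟨φ, hφ⟩ : ∃ φ : T ⧸ (Subgroup.centralizer (P : Set G)).subgroupOf T →* (ZMod p)ˣ,
      ∀ g : T, φ (QuotientGroup.mk g) = Ψ g :=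
    ⟨QuotientGroup.lift ((Subgroup.centralizer (P : Set G)).subgroupOf T) Ψ (fun g hg => hker' g hg), fun g => rfl⟩
  have hinj : Function.Injective φ := by
    rw [injective_iff_map_eq_one]
    intro q
    induction q using QuotientGroup.induction_on with
    | H g =>
      intro h
      rw [hφ] at h
      exact (QuotientGroup.eq_one_iff g).2 (hker g h)
  refine ⟨isCyclic_of_injective φ hinj, ?_, ?_⟩
  · have h1 := Subgroup.card_dvd_of_injective φ hinj
    have h2 : Nat.card (ZMod p)ˣ = p - 1 := by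
      rw [Nat.card_eq_fintype_card, ZMod.card_units p]
    rw [h2] at h1
    have h3 : (Subgroup.centralizer (P : Set G)).relIndex T = Nat.card (T ⧸ (Subgroup.centralizer (P : Set G)).subgroupOf T) := Subgroup.index_eq_card _
    rw [h3]
    exact h1
  · intro g hgT x hxP hx1 hgx
    refine hkey g hgT (κ ⟨g, hgT⟩) (hκ ⟨g, hgT⟩) ?_
    have h1 : x ^ κ ⟨g, hgT⟩ = x ^ 1 := by
      rw [pow_one, ← hκ ⟨g, hgT⟩ x hxP]
      exact hgx
    have h2 := (pow_eq_pow_iff_modEq (x := x)).1 h1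
    refine h2.of_dvd ?_
    have h3 : orderOf x ∣ p ^ (d + 1) := by
      rw [← hcard]
      exact Subgroup.orderOf_dvd_natCard P hxP
    obtain ⟨i, -, hi⟩ := (Nat.dvd_prime_pow hp).1 h3
    rw [hi]
    have hi0 : i ≠ 0 := by
      rintro rfl
      rw [pow_zero, orderOf_eq_one_iff] at hi
      exact hx1 hi
    exact dvd_pow_self p hi0

end CycInert

end Cfsg.Agent.Helper25
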