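import Cfsg.Agent.Helper25.CentralPPart
import Cfsg.Agent.Helper25.HeightZero3
import Cfsg.Agent.Helper25.BlockThird
import Cfsg.Agent.Helper25.BlockOrth2
import Cfsg.Agent.Helper6.PowCongr

set_option autoImplicit false
set_option linter.unusedSectionVars false

/-!
# Characters vanishing on the elements of order `p` have defect zero (helper25)
-/

namespace Cfsg.Agent.Helper25

open Cfsg
open scoped ComplexConjugate

/-- The elements of order dividing `p` in the centre of a subgroup `Q`. -/
def omegaZ {K : Type*} [Group K] (Q : Subgroup K) (p : ℕ) : Subgroup K where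
  carrier := {h | h ∈ Q ∧ (∀ w ∈ Q, h * w = w * h) ∧ h ^ p = 1}
  one_mem' := ⟨Q.one_mem, fun w _ => by rw [one_mul, mul_one], one_pow p⟩
  mul_mem' := by
    rintro a b ⟨ha, hac, hap⟩ ⟨hb, hbc, hbp⟩
    refine ⟨Q.mul_mem ha hb, fun w hw => ?_, ?_⟩
    · rw [mul_assoc, hbc w hw, ← mul_assoc, hac w hw, mul_assoc]
    · rw [(show Commute a b from hac b hb).mul_pow, hap, hbp, one_mul]
  inv_mem' := by
    rintro a ⟨ha, hac, hap⟩
    refine ⟨Q.inv_mem ha, fun w hw => ?_, by rw [inv_pow, hap, inv_one]⟩
    have h1 := hac w hw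
    calc a⁻¹ * w = a⁻¹ * (w * a) * a⁻¹ := by group
      _ = a⁻¹ * (a * w) * a⁻¹ := by rw [h1]
      _ = w * a⁻¹ := by group

theorem mem_omegaZ {K : Type*} [Group K] (Q : Subgroup K) (p : ℕ) (h : K) :
    h ∈ omegaZ Q p ↔ h ∈ Q ∧ (∀ w ∈ Q, h * w = w * h) ∧ h ^ p = 1 := Iff.rfl

theorem omegaZ_le {K : Type*} [Group K] (Q : Subgroup K) (p : ℕ) : omegaZ Q p ≤ Q :=
  fun _ h => h.1

theorem omegaZ_normal {K : Type*} [Group K] (Q : Subgroup K) [hQ : Q.Normal] (p : ℕ) :
    (omegaZ Q p).Normal := by
  refine ⟨fun h hh k => ?_⟩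
  obtain ⟨h1, h2, h3⟩ := hh
  refine ⟨hQ.conj_mem h h1 k, fun w hw => ?_, ?_⟩
  · have hw' : k⁻¹ * w * k ∈ Q := by
      have := hQ.conj_mem w hw k⁻¹
      rwa [inv_inv] at this
    have h4 := h2 _ hw'
    calc k * h * k⁻¹ * w = k * (h * (k⁻¹ * w * k)) * k⁻¹ := by group
      _ = k * ((k⁻¹ * w * k) * h) * k⁻¹ := by rw [h4]
      _ = w * (k * h * k⁻¹) := by group
  · rw [conj_pow, h3, mul_one, mul_inv_cancel]

theorem dvd_card_omegaZ {K : Type*} [Group K] [Finite K] {p : ℕ} [Fact p.Prime] (Q : Subgroup K)
    (hQ : IsPGroup p Q) (hne : Nat.card Q ≠ 1) : p ∣ Nat.card (omegaZ Q p) := by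
  have hp : p.Prime := Fact.out
  have hnt : Nontrivial Q := by
    rw [← Finite.one_lt_card_iff_nontrivial]
    have : 0 < Nat.card Q := Nat.card_pos
    omega
  have hcnt := hQ.center_nontrivial
  have hZp : IsPGroup p (Subgroup.center Q) := hQ.to_subgroup _
  have hdvd : p ∣ Nat.card (Subgroup.center Q) := by
    rcases hZp.card_eq_or_dvd with h | h
    · exfalso
      have := Finite.one_lt_card_iff_nontrivial.2 hcnt
      omega
    · exact h
  obtain ⟨z, hz⟩ := exists_prime_orderOf_dvd_card' p hdvd
  have hzK : orderOf (((z : Q) : K)) = p := by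
    rw [Subgroup.orderOf_coe, Subgroup.orderOf_coe]
    exact hz
  have hmem : (((z : Q) : K)) ∈ omegaZ Q p := by
    refine ⟨(z : Q).2, fun w hw => ?_, ?_⟩
    · have h1 := Subgroup.mem_center_iff.1 z.2 ⟨w, hw⟩
      have h2 := congrArg Subtype.val h1
      exact h2.symm
    · rw [← hzK]
      exact pow_orderOf_eq_one _
  have hΩp : IsPGroup p (omegaZ Q p) := hQ.to_le (omegaZ_le Q p)
  rcases hΩp.card_eq_or_dvd with h | h
  · exfalso
    rw [← Subgroup.eq_bot_iff_card] at h
    rw [h, Subgroup.mem_bot] at hmem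
    rw [hmem, orderOf_one] at hzK
    exact hp.one_lt.ne hzK
  · exact h

/-- An irreducible character vanishing on all elements of order `p` has `p`-defect zero. -/
theorem defect_zero_of_vanish_order_p {G : Type*} [Group G] [Finite G] {p : ℕ} [Fact p.Prime]
    {M : Ideal AlgInt} (hpM : IsPModular p M) (χ : IrrCharacter G)
    (hvan : ∀ g : G, orderOf g = p → (χ : G → ℂ) g = 0) :
    (charDegree (χ : G → ℂ)).factorization p = (Nat.card G).factorization p := by
  classical
  have : Fintype G := Fintype.ofFinite G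
  have := Helper24.finite_irrCharacter (G := G)
  have : Fintype (IrrCharacter G) := Fintype.ofFinite _
  have hM := hpM.2.1.isPrime
  have hp : p.Prime := Fact.out
  obtain ⟨B, hBdef⟩ : ∃ B, B = blockOf M (χ : G → ℂ) := ⟨_, rfl⟩
  have hB : IsPBlock M B := ⟨χ, hBdef⟩
  have hχB : χ ∈ B := hBdef ▸ mem_blockOf_self hM.ne_top χ
  obtain ⟨u, hu⟩ := exists_defectClass hM hB
  obtain ⟨S⟩ : Nonempty (Sylow p (Subgroup.centralizer ({u} : Set G))) := inferInstance
  obtain ⟨D, hDdef⟩ : ∃ D : Subgroup G, D = (S : Subgroup _).map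
      (Subgroup.centralizer ({u} : Set G)).subtype := ⟨_, rfl⟩
  have hD : IsDefectGroup p M B D := ⟨u, hu, S, hDdef⟩
  have hDbot : Nat.card D = 1 := by
    by_contra hne
    obtain ⟨L, hL⟩ : ∃ L : Subgroup G, L = Subgroup.normalizer (D : Set G) := ⟨_, rfl⟩
    have hDL : D ≤ L := hL ▸ Subgroup.le_normalizer
    have hCL : Subgroup.centralizer (D : Set G) ≤ L := hL ▸ Subgroup.centralizer_le_normalizer _
    have hLN : L ≤ Subgroup.normalizer (D : Set G) := hL.le
    have : Fintype L := Fintype.ofFinite L
    have := Helper24.finite_irrCharacter (G := L)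
    have : Fintype (IrrCharacter L) := Fintype.ofFinite _
    obtain ⟨b, hDb, hind⟩ := exists_induced_defect hpM D L hDL hCL hLN B hB hD
    have hDp : IsPGroup p D := by
      rw [hDdef]
      exact S.isPGroup'.map _
    have hnormal : (D.subgroupOf L).Normal := by
      refine ⟨fun n hn k => ?_⟩
      rw [Subgroup.mem_subgroupOf] at hn ⊢
      have hk := hLN k.2
      rw [Subgroup.mem_normalizer_iff] at hk
      exact (hk (n : G)).1 hn
    have hDLp : IsPGroup p (D.subgroupOf L) := hDp.comap_subtype
    obtain ⟨θ, hθ, hker⟩ := exists_mem_block_ker hpM (D.subgroupOf L) hDLp hind.1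
    have hχ1 : (χ : G → ℂ) 1 ≠ 0 := Helper24.irr_one_ne_zero χ.2
    have hθ1 : (θ : L → ℂ) 1 ≠ 0 := Helper24.irr_one_ne_zero θ.2
    obtain ⟨F, hFdef⟩ : ∃ F : G → ℂ, F = fun g => if g ^ p = 1 then 1 else 0 := ⟨_, rfl⟩
    have hF : IsClassFunction G F := by
      intro g k
      rw [hFdef]
      have h1 : (k * g * k⁻¹) ^ p = 1 ↔ g ^ p = 1 := by
        rw [conj_pow]
        exact conj_eq_one_iff
      simp only [h1]
    have hFR : ∀ g, MemLocalRing M (F g) := by
      intro g
      rw [hFdef]
      simp only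
      split_ifs
      · exact MemLocalRing.one hM.ne_top
      · exact MemLocalRing.zero hM.ne_top
    have h_i : ∑ g : G, F g * ((χ : G → ℂ) g / (χ : G → ℂ) 1) = 1 := by
      rw [Finset.sum_eq_single (1 : G)]
      · rw [hFdef]
        simp only [one_pow, if_true, one_mul]
        exact div_self hχ1
      · intro g _ hg1
        by_cases hgp : g ^ p = 1
        · have h1 : orderOf g = p := orderOf_eq_prime hgp hg1
          rw [hvan g h1, zero_div, mul_zero]
        · rw [hFdef]
          simp only [hgp, if_false, zero_mul]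
      · intro h
        exact absurd (Finset.mem_univ _) h
    have h_iii : MemLocalIdeal M (∑ g : G, F g * (inducedCentralChar L (θ : L → ℂ) g
        / ((Subgroup.centralizer ({g} : Set G)).index : ℂ))
        - ∑ g : G, F g * ((χ : G → ℂ) g / (χ : G → ℂ) 1)) := by
      rw [← Finset.sum_sub_distrib]
      have hcl : IsClassFunction G (fun g => F g * (inducedCentralChar L (θ : L → ℂ) g
          / ((Subgroup.centralizer ({g} : Set G)).index : ℂ))
          - F g * ((χ : G → ℂ) g / (χ : G → ℂ) 1)) := by
        intro g k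
        simp only
        rw [hF g k, inducedCentralChar_conj, index_centralizer_conj,
          (Helper2.IsIrrCharacter.isClassFunction χ.2) g k]
      refine sum_class_mem (localIdeal M hM) _ hcl fun g => ?_
      have hidx : ((Subgroup.centralizer ({g} : Set G)).index : ℂ) ≠ 0 :=
        Nat.cast_ne_zero.2 Subgroup.index_ne_zero_of_finite
      have h1 : ((Subgroup.centralizer ({g} : Set G)).index : ℂ) *
          (F g * (inducedCentralChar L (θ : L → ℂ) g
            / ((Subgroup.centralizer ({g} : Set G)).index : ℂ))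
          - F g * ((χ : G → ℂ) g / (χ : G → ℂ) 1))
          = F g * (inducedCentralChar L (θ : L → ℂ) g - centralChar (χ : G → ℂ) g) := by
        unfold centralChar
        field_simp
      rw [h1]
      exact MemLocalIdeal.mul_left hM (hFR g) (hind.2.2 θ hθ χ hχB g)
    have h_ii := sum_class_induced L (θ : L → ℂ) F hF
    obtain ⟨Ω, hΩ⟩ : ∃ Ω : Subgroup L, Ω = omegaZ (D.subgroupOf L) p := ⟨_, rfl⟩
    have hΩn : Ω.Normal := hΩ ▸ omegaZ_normal (D.subgroupOf L) p
    have hsplit : ∑ h : L, F (h : G) * ((θ : L → ℂ) h / (θ : L → ℂ) 1)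
        = ∑ h : L, (if h ∈ Ω then (1 : ℂ) else 0)
          + ∑ h : L, (if h ∈ Ω then 0 else F (h : G) * ((θ : L → ℂ) h / (θ : L → ℂ) 1)) := by
      rw [← Finset.sum_add_distrib]
      refine Finset.sum_congr rfl fun h _ => ?_
      by_cases hh : h ∈ Ω
      · rw [if_pos hh, if_pos hh, add_zero]
        rw [hΩ] at hh
        obtain ⟨h1, _, h3⟩ := hh
        have h4 : ((h : G)) ^ p = 1 := by
          have := congrArg Subtype.val h3
          simpa using this
        rw [hFdef]
        simp only [h4, if_true, one_mul]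
        rw [hker h h1]
        exact div_self hθ1
      · rw [if_neg hh, if_neg hh, zero_add]
    have hcount : ∑ h : L, (if h ∈ Ω then (1 : ℂ) else 0) = (Nat.card Ω : ℂ) := by
      rw [Finset.sum_boole, Nat.card_eq_fintype_card, Fintype.card_subtype]
    have hdvd : p ∣ Nat.card Ω := by
      rw [hΩ]
      refine dvd_card_omegaZ (D.subgroupOf L) hDLp ?_
      rw [Nat.card_congr (Subgroup.subgroupOfEquivOfLe hDL).toEquiv]
      exact hne
    have hS2 : MemLocalIdeal M (∑ h : L, (if h ∈ Ω then 0
        else F (h : G) * ((θ : L → ℂ) h / (θ : L → ℂ) 1))) := by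
      have hcl : IsClassFunction L (fun h : L => if h ∈ Ω then 0
          else F (h : G) * ((θ : L → ℂ) h / (θ : L → ℂ) 1)) := by
        intro h k
        simp only
        have h1 : k * h * k⁻¹ ∈ Ω ↔ h ∈ Ω := by
          constructor
          · intro hm
            have := hΩn.conj_mem _ hm k⁻¹
            rw [inv_inv] at this
            have e : k⁻¹ * (k * h * k⁻¹) * k = h := by group
            rwa [e] at this
          · intro hm
            exact hΩn.conj_mem _ hm k
        have h2 : F ((k * h * k⁻¹ : L) : G) = F (h : G) := by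
          have := hF (h : G) (k : G)
          rw [← this]
          rfl
        rw [h2, (Helper2.IsIrrCharacter.isClassFunction θ.2) h k]
        simp only [h1]
      refine sum_class_mem (localIdeal M hM) _ hcl fun h => ?_
      by_cases hh : h ∈ Ω
      · simp only [if_pos hh, mul_zero]
        exact MemLocalIdeal.zero hM.ne_top
      · simp only [if_neg hh]
        by_cases hhp : (h : G) ^ p = 1
        · have hidx : ((Subgroup.centralizer ({h} : Set L)).index : ℂ) ≠ 0 :=
            Nat.cast_ne_zero.2 Subgroup.index_ne_zero_of_finite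
          have h1 : ((Subgroup.centralizer ({h} : Set L)).index : ℂ) *
              (F (h : G) * ((θ : L → ℂ) h / (θ : L → ℂ) 1)) = centralChar (θ : L → ℂ) h := by
            rw [hFdef]
            simp only [hhp, if_true, one_mul]
            unfold centralChar
            field_simp
          rw [h1]
          by_contra hcon
          apply hh
          obtain ⟨x', hconj, _, hx'⟩ :=
            exists_conj_central_ppart hpM b hind.1 (D.subgroupOf L) hDb h ⟨θ, hθ, hcon⟩
          obtain ⟨c, hc⟩ := isConj_iff.1 hconj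
          have hhpL : h ^ p = 1 := Subtype.ext (by simpa using hhp)
          have hx'p : x' ^ p = 1 := by
            rw [← hc, conj_pow, hhpL, mul_one, mul_inv_cancel]
          have hord : ∃ k : ℕ, orderOf x' = p ^ k := by
            rcases (Nat.dvd_prime hp).1 (orderOf_dvd_of_pow_eq_one hx'p) with h1 | h1
            · exact ⟨0, by rw [h1, pow_zero]⟩
            · exact ⟨1, by rw [h1, pow_one]⟩
          have hpp : IsPPart p x' x' := by
            refine ⟨1, mul_one _, Commute.one_right _, hord, ?_⟩
            rw [orderOf_one]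
            exact hp.one_lt.ne' ∘ Nat.dvd_one.1
          obtain ⟨hx'D, hx'c⟩ := hx' x' hpp
          have hx'Ω : x' ∈ Ω := by
            rw [hΩ]
            exact ⟨hx'D, hx'c, hx'p⟩
          have := hΩn.conj_mem _ hx'Ω c⁻¹
          rw [inv_inv, ← hc] at this
          have e : c⁻¹ * (c * h * c⁻¹) * c = h := by group
          rwa [e] at this
        · rw [hFdef]
          simp only [hhp, if_false, zero_mul, mul_zero]
          exact MemLocalIdeal.zero hM.ne_top
    have hcardJ : MemLocalIdeal M ((Nat.card Ω : ℕ) : ℂ) :=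
      (memLocalIdeal_natCast_iff hpM _).2 hdvd
    rw [h_ii, hsplit, hcount, h_i] at h_iii
    have h5 := MemLocalIdeal.sub hM (MemLocalIdeal.add hM hcardJ hS2) h_iii
    rw [sub_sub_cancel] at h5
    exact not_memLocalIdeal_one h5
  have hcard := card_defectGroup hpM hB D hD
  rw [hDbot] at hcard
  have hd0 : blockDefect p B = 0 := by
    by_contra h
    have h1 : p ∣ 1 := by
      rw [hcard]
      exact dvd_pow_self p h
    exact hp.one_lt.ne' (Nat.dvd_one.1 h1)
  unfold blockDefect at hd0
  have hle : sInf ((fun ψ : IrrCharacter G => (charDegree (ψ : G → ℂ)).factorization p) '' B)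
      ≤ (charDegree (χ : G → ℂ)).factorization p := Nat.sInf_le ⟨χ, hχB, rfl⟩
  have hdvd := Helper2.irr_degree_dvd_card χ.2
  have hG0 : Nat.card G ≠ 0 := Nat.card_pos.ne'
  have hd0' : charDegree (χ : G → ℂ) ≠ 0 := fun h => hG0 (by rw [h] at hdvd; exact Nat.eq_zero_of_zero_dvd hdvd)
  have hle2 : (charDegree (χ : G → ℂ)).factorization p ≤ (Nat.card G).factorization p :=
    ((Nat.factorization_le_iff_dvd hd0' hG0).2 hdvd) p
  omega

end Cfsg.Agent.Helper25
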