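import Cfsg.Agent.Helper25.AbelLocal
import Cfsg.Agent.Helper25.BlockSection
import Cfsg.Agent.Helper25.VanishOrderP
import Cfsg.Agent.S0936

set_option autoImplicit false
open Cfsg

namespace Cfsg.Agent.Helper25

section DefClass

universe u
variable {G : Type u} [Group G] [Fintype G] {p : ℕ} {M : Ideal AlgInt}

omit [Fintype G] in
theorem defClass_transport (r : ℕ) {H K : Subgroup G} (h : H = K)
    (hH : ∀ B' : Set (IrrCharacter ↥H), IsPBlock M B' → B' ≠ principalBlock M ↥H →
      blockDefect p B' < r) :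
    ∀ B' : Set (IrrCharacter ↥K), IsPBlock M B' → B' ≠ principalBlock M ↥K →
      blockDefect p B' < r := by
  subst h
  exact hH

/-- Every block has a Brauer pair on the trivial subgroup. -/
theorem exists_bot_pair [Fact p.Prime] (hpM : IsPModular p M) (B : Set (IrrCharacter G))
    (hB : IsPBlock M B) :
    ∃ e₀ : Set (IrrCharacter (Subgroup.centralizer ((⊥ : Subgroup G) : Set G))),
      IsBrauerPairOf p M B ⊥ e₀ := by
  classical
  have hMp := hpM.2.1.isPrime
  have hCtop : Subgroup.centralizer ((⊥ : Subgroup G) : Set G) = ⊤ := by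
    ext x
    simp only [Subgroup.mem_top, iff_true]
    rw [Subgroup.mem_centralizer_iff]
    intro z hz
    have hz1 : z = 1 := Subgroup.mem_bot.1 hz
    rw [hz1, one_mul, mul_one]
  have : Fintype (Subgroup.centralizer ((⊥ : Subgroup G) : Set G)) := Fintype.ofFinite _
  have := Helper24.finite_irrCharacter (G := (Subgroup.centralizer ((⊥ : Subgroup G) : Set G)))
  have : Fintype (IrrCharacter (Subgroup.centralizer ((⊥ : Subgroup G) : Set G))) :=
    Fintype.ofFinite _
  obtain ⟨ι, hι⟩ : ∃ ι : Subgroup.centralizer ((⊥ : Subgroup G) : Set G) ≃* G,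
      ∀ c, ι c = (c : G) :=
    ⟨(MulEquiv.subgroupCongr hCtop).trans Subgroup.topEquiv, fun c => rfl⟩
  obtain ⟨he₀, hcoef⟩ := irrCongr_preimage_props hMp ι B hB
  refine ⟨{ψ | (irrCongr ι).symm ψ ∈ B}, ⟨IsPGroup.of_bot, he₀⟩, hB, fun ξ hξ => ?_⟩
  have h1 : brauerOmega ⊥ (blockCoeff B)
      (ξ : Subgroup.centralizer ((⊥ : Subgroup G) : Set G) → ℂ) = 1 := by
    rw [brauerOmega_eq_sum]
    have h2 : ∀ x : Subgroup.centralizer ((⊥ : Subgroup G) : Set G),
        blockCoeff B (x : G) * ((ξ : Subgroup.centralizer ((⊥ : Subgroup G) : Set G) → ℂ) x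
            / (ξ : Subgroup.centralizer ((⊥ : Subgroup G) : Set G) → ℂ) 1)
          = coeffT (fun χ : IrrCharacter (Subgroup.centralizer ((⊥ : Subgroup G) : Set G)) =>
              if χ ∈ {ψ | (irrCongr ι).symm ψ ∈ B} then (1 : ℂ) else 0) x
            * (ξ : Subgroup.centralizer ((⊥ : Subgroup G) : Set G) → ℂ) x
            / (ξ : Subgroup.centralizer ((⊥ : Subgroup G) : Set G) → ℂ) 1 := by
      intro x
      rw [← hι x, ← hcoef x, blockCoeff_eq_coeffT, mul_div_assoc]
    rw [Finset.sum_congr rfl (fun x _ => h2 x), ← Finset.sum_div, sum_coeffT_mul, if_pos hξ,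
      mul_one]
    exact div_self (irr_one_ne_zero' ξ)
  rw [h1, sub_self]
  exact MemLocalIdeal.zero hMp.ne_top

theorem defClass_down [Fact p.Prime] (hpM : IsPModular p M) (r : ℕ)
    (hG : ∀ B' : Set (IrrCharacter G), IsPBlock M B' → B' ≠ principalBlock M G →
      blockDefect p B' < r)
    (y : G) (hy : ∃ k : ℕ, orderOf y = p ^ k)
    (b : Set (IrrCharacter ↥(Subgroup.centralizer ({y} : Set G)))) (hb : IsPBlock M b)
    (hne : b ≠ principalBlock M ↥(Subgroup.centralizer ({y} : Set G))) :
    blockDefect p b < r := by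
  classical
  have hMp := hpM.2.1.isPrime
  have hp : p.Prime := Fact.out
  have : Fintype (Subgroup.centralizer ({y} : Set G)) := Fintype.ofFinite _
  obtain ⟨B, hind⟩ := inducedBlockDefined_centralizer_elt hpM y hy b hb
  have hB : IsPBlock M B := hind.2.1
  have hBne : B ≠ principalBlock M G := by
    intro h
    rw [h] at hind
    exact hne ((Cfsg.Agent.S0936.result p M hpM _ b ⟨_, hind⟩).1 hind)
  have hlt := hG B hB hBne
  obtain ⟨g, hg⟩ := exists_defectClass hMp hb
  obtain ⟨P⟩ : Nonempty (Sylow p (Subgroup.centralizer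
      ({g} : Set (Subgroup.centralizer ({y} : Set G))))) := inferInstance
  have hD : IsDefectGroup p M b ((P : Subgroup (Subgroup.centralizer
      ({g} : Set (Subgroup.centralizer ({y} : Set G))))).map
        (Subgroup.centralizer ({g} : Set (Subgroup.centralizer ({y} : Set G)))).subtype) :=
    ⟨g, hg, P, rfl⟩
  obtain ⟨E, hE, hle⟩ := induced_defectGroup_le hpM _ hb hB hind _ hD
  have hc1 := card_defectGroup hpM hb _ hD
  have hc2 := card_defectGroup hpM hB E hE
  have hc4 := Subgroup.card_le_of_le hle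
  rw [Subgroup.card_map_of_injective (Subgroup.subtype_injective _), hc1, hc2] at hc4
  have h5 := (Nat.pow_le_pow_iff_right hp.one_lt).1 hc4
  omega

theorem defClass_up [Fact p.Prime] (hpM : IsPModular p M) (r : ℕ) (hr : 0 < r)
    (hloc : ∀ y : G, orderOf y = p →
      ∀ B' : Set (IrrCharacter ↥(Subgroup.centralizer ({y} : Set G))), IsPBlock M B' →
        B' ≠ principalBlock M ↥(Subgroup.centralizer ({y} : Set G)) → blockDefect p B' < r)
    (B : Set (IrrCharacter G)) (hB : IsPBlock M B) (hne : B ≠ principalBlock M G) :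
    blockDefect p B < r := by
  classical
  have hMp := hpM.2.1.isPrime
  have hp : p.Prime := Fact.out
  by_contra hcon
  obtain ⟨e₀, he₀⟩ := exists_bot_pair hpM B hB
  obtain ⟨D, hD, -, g₀, hDg⟩ := pair_le_defect hpM B ⊥ e₀ he₀
  have hDp : IsPGroup p D := hDg.1.1
  have hcD := card_defectGroup hpM hB D hD
  have hDne : Nat.card D ≠ 1 := by
    rw [hcD]
    intro h
    have h2 : blockDefect p B = 0 := by
      by_contra h0
      have := Nat.one_lt_pow h0 hp.one_lt
      omega
    omega
  have hdvd := dvd_card_omegaZ D hDp hDne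
  obtain ⟨y, hyΩ, hy1⟩ : ∃ y : G, y ∈ omegaZ D p ∧ y ≠ 1 := by
    by_contra hno
    have hbot : omegaZ D p = ⊥ := by
      rw [eq_bot_iff]
      intro z hz
      by_contra hz1
      exact hno ⟨z, hz, fun h => hz1 (Subgroup.mem_bot.2 h)⟩
    rw [hbot, Subgroup.card_bot] at hdvd
    exact hp.one_lt.ne' (Nat.dvd_one.1 hdvd)
  obtain ⟨hyD, hycen, hyp⟩ := (mem_omegaZ D p y).1 hyΩ
  have hord : orderOf y = p := orderOf_eq_prime hyp hy1
  have hQD : Subgroup.zpowers y ≤ D := (Subgroup.zpowers_le).2 hyD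
  obtain ⟨f, hf, hle⟩ := subpair_exists hpM D g₀ hDg.1 _ (Subgroup.zpowers y) hQD rfl
  have hQf : IsBrauerPairOf p M B (Subgroup.zpowers y) f :=
    subpairLE_brauerPairOf hpM B hle hDg
  have hind := pair_induces hpM B _ f hQf
  have hfne : f ≠ principalBlock M
      ↥(Subgroup.centralizer ((Subgroup.zpowers y : Subgroup G) : Set G)) := by
    intro h
    have h1 := (Cfsg.Agent.S0936.result p M hpM _ f ⟨_, hind⟩).2 h
    exact hne (isInducedBlock_unique hMp _ f _ _ hind h1)
  have hcc := (card_cent_le hpM D (Subgroup.zpowers y) g₀ f hDg.1 hQD hle).1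
  have hinf : D ⊓ Subgroup.centralizer ((Subgroup.zpowers y : Subgroup G) : Set G) = D := by
    apply inf_eq_left.2
    intro w hw
    rw [← centralizer_singleton_eq_zpowers, Subgroup.mem_centralizer_iff]
    intro z hz
    rw [Set.mem_singleton_iff.1 hz]
    exact hycen w hw
  rw [hinf, hcD] at hcc
  have h5 := (Nat.pow_le_pow_iff_right hp.one_lt).1 hcc
  have h6 := defClass_transport (p := p) (M := M) r (centralizer_singleton_eq_zpowers y)
    (hloc y hord) f hf hfne
  omega

end DefClass

end Cfsg.Agent.Helper25
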