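import Cfsg.Agent.Helper25.DefClass

set_option autoImplicit false
open Cfsg

namespace Cfsg.Agent.Helper25

section IndNest

universe u
variable {G : Type u} [Group G] [Fintype G] {p : ℕ} {M : Ideal AlgInt}

/-- A conjugate of a Brauer pair of `B` is a Brauer pair of `B`. -/
theorem brauerPairOf_conj [Fact p.Prime] (hpM : IsPModular p M) (B : Set (IrrCharacter G))
    (Q : Subgroup G) (f : Set (IrrCharacter (Subgroup.centralizer (Q : Set G))))
    (h : IsBrauerPairOf p M B Q f) (x : G) :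
    IsBrauerPairOf p M B (Q.map (MulAut.conj x).toMonoidHom) (conjBlock Q x f) := by
  have hMp := hpM.2.1.isPrime
  refine ⟨⟨h.1.1.map _, isPBlock_conjBlock hMp Q x h.1.2⟩, h.2.1, fun ξ' hξ' => ?_⟩
  rw [brauerOmega_conj Q x (blockCoeff B) (blockCoeff B) (fun c => blockCoeff_conj B c x)]
  exact h.2.2 _ ((mem_conjBlock_iff Q x f ξ').1 hξ')

/-- For a maximal Brauer pair `(Q, e)`, the centre of `Q` is a defect group of `e`. -/
theorem maximal_center_defect [Fact p.Prime] (hpM : IsPModular p M) (B : Set (IrrCharacter G))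
    (Q : Subgroup G) (e : Set (IrrCharacter (Subgroup.centralizer (Q : Set G))))
    (hmax : IsMaximalBrauerPair p M B Q e) :
    IsDefectGroup p M e ((Q ⊓ Subgroup.centralizer (Q : Set G)).subgroupOf
      (Subgroup.centralizer (Q : Set G))) := by
  obtain ⟨F, hF⟩ := exists_blockFusion hpM B Q e hmax
  have hcen : F.IsCentric Q := by
    refine ⟨le_rfl, fun Q' hconj => ?_⟩
    obtain ⟨φ, hφ, rfl⟩ := hconj
    have h1 : φ.range ≤ Q := by
      rintro _ ⟨x, rfl⟩
      exact (F.le_of_mem hφ).2 x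
    have h2 : Nat.card Q = Nat.card φ.range :=
      Nat.card_congr (MonoidHom.ofInjective (F.injective_of_mem hφ)).toEquiv
    have h3 : φ.range = Q := Subgroup.eq_of_le_of_card_ge h1 (le_of_eq h2)
    rw [h3]
    exact inf_le_left
  exact (centric_iff hpM B Q e hmax F hF Q e le_rfl Relation.ReflTransGen.refl).1 hcen

/-- Every defect group carries a maximal Brauer pair. -/
theorem exists_pair_on_defect [Fact p.Prime] (hpM : IsPModular p M) (B : Set (IrrCharacter G))
    (hB : IsPBlock M B) (D : Subgroup G) (hD : IsDefectGroup p M B D) :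
    ∃ e : Set (IrrCharacter (Subgroup.centralizer (D : Set G))),
      IsMaximalBrauerPair p M B D e := by
  obtain ⟨e₀, he₀⟩ := exists_bot_pair hpM B hB
  obtain ⟨P₁, hP₁, -, e₁, hpair⟩ := pair_le_defect hpM B ⊥ e₀ he₀
  obtain ⟨y, hy⟩ := defectGroup_le_conj hpM hB hP₁ hD
  have hc1 := card_defectGroup hpM hB D hD
  have hc2 := card_defectGroup hpM hB P₁ hP₁
  have heq : D = P₁.map (MulAut.conj y).toMonoidHom := by
    apply Subgroup.eq_of_le_of_card_ge hy
    rw [Subgroup.card_map_of_injective (MulEquiv.injective _), hc1, hc2]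
  subst heq
  exact ⟨conjBlock P₁ y e₁,
    maximal_of_card hpM B _ _ (brauerPairOf_conj hpM B P₁ e₁ hpair y) hc1⟩

theorem induced_nested_core [Fact p.Prime] (hpM : IsPModular p M) (H : Subgroup G)
    (b : Set (IrrCharacter ↥H)) (hb : IsPBlock M b) (D₀ : Subgroup ↥H)
    (hD₀ : IsDefectGroup p M b D₀)
    (hC : Subgroup.centralizer ((D₀.map H.subtype : Subgroup G) : Set G) ≤ H) :
    ∃ B : Set (IrrCharacter G), IsInducedBlock M H b B ∧
      ∃ D : Subgroup G, IsDefectGroup p M B D ∧ D₀.map H.subtype ≤ D ∧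
        D ⊓ Subgroup.centralizer ((D₀.map H.subtype : Subgroup G) : Set G)
          ≤ D₀.map H.subtype := by
  classical
  have hMp := hpM.2.1.isPrime
  have hp : p.Prime := Fact.out
  have : Fintype ↥H := Fintype.ofFinite _
  have : Fintype (Subgroup.centralizer (D₀ : Set ↥H)) := Fintype.ofFinite _
  have : Fintype (Subgroup.centralizer ((D₀.map H.subtype : Subgroup G) : Set G)) :=
    Fintype.ofFinite _
  have := Helper24.finite_irrCharacter (G := G)
  have : Fintype (IrrCharacter G) := Fintype.ofFinite _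
  have := Helper24.finite_irrCharacter (G := (Subgroup.centralizer (D₀ : Set ↥H)))
  have : Fintype (IrrCharacter (Subgroup.centralizer (D₀ : Set ↥H))) := Fintype.ofFinite _
  obtain ⟨g₀, hmax₀⟩ := exists_pair_on_defect hpM b hb D₀ hD₀
  have hg₀ : IsPBlock M g₀ := hmax₀.1.1.2
  have hD₀p : IsPGroup p D₀ := hmax₀.1.1.1
  have hC' : ∀ h : H, h ∈ Subgroup.centralizer (D₀ : Set ↥H) ↔
      (h : G) ∈ Subgroup.centralizer ((D₀.map H.subtype : Subgroup G) : Set G) := by
    intro h
    rw [Subgroup.mem_centralizer_iff, Subgroup.mem_centralizer_iff]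
    constructor
    · intro hh u hu
      obtain ⟨d, hd, rfl⟩ := Subgroup.mem_map.1 (SetLike.mem_coe.1 hu)
      exact congrArg Subtype.val (hh d hd)
    · intro hh d hd
      apply Subtype.ext
      exact hh (d : G) (Subgroup.mem_map_of_mem H.subtype hd)
  obtain ⟨ι, hι⟩ := exists_centIso (D₀.map H.subtype) H hC
    (Subgroup.centralizer (D₀ : Set ↥H)) hC'
  obtain ⟨e, hedef⟩ : ∃ e : Set (IrrCharacter
      (Subgroup.centralizer ((D₀.map H.subtype : Subgroup G) : Set G))),
      e = {ξ | irrCongr ι ξ ∈ g₀} := ⟨_, rfl⟩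
  have hemem : ∀ ψ : IrrCharacter
      (Subgroup.centralizer ((D₀.map H.subtype : Subgroup G) : Set G)),
      irrCongr ι ψ ∈ g₀ ↔ ψ ∈ e := by
    intro ψ
    rw [hedef]
    rfl
  have he : IsPBlock M e := (isPBlock_irrCongr_iff hMp ι g₀ e hemem).1 hg₀
  have hdef : blockDefect p g₀ = blockDefect p e := blockDefect_irrCongr ι g₀ e hemem
  have hPp : IsPGroup p (D₀.map H.subtype : Subgroup G) := hD₀p.map _
  obtain ⟨B, hBP, -⟩ := Cfsg.Agent.S4657.result p M hpM (D₀.map H.subtype) e ⟨hPp, he⟩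
  obtain ⟨θ, hθ⟩ := block_nonempty hMp he
  have hθ' : irrCongr ι θ ∈ g₀ := (hemem θ).2 hθ
  have hind₀ : IsInducedBlock M (Subgroup.centralizer (D₀ : Set ↥H))
      (blockOf M ((irrCongr ι θ : IrrCharacter (Subgroup.centralizer (D₀ : Set ↥H))) :
        (Subgroup.centralizer (D₀ : Set ↥H)) → ℂ)) b := by
    rw [← block_eq_blockOf_of_mem hMp hg₀ hθ']
    exact pair_induces hpM b D₀ g₀ hmax₀.1
  have hBind : IsInducedBlock M H b B :=
    isInducedBlock_trans hMp H (Subgroup.centralizer ((D₀.map H.subtype : Subgroup G) : Set G))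
      (Subgroup.centralizer (D₀ : Set ↥H)) ι hι e B
      (pair_induces hpM B (D₀.map H.subtype) e hBP) θ hθ b hind₀
  refine ⟨B, hBind, ?_⟩
  obtain ⟨D, g', hmaxD, hle⟩ := exists_maximal_above B (Nat.card G) (D₀.map H.subtype)
    (D₀.map H.subtype) e e hBP Relation.ReflTransGen.refl (Nat.sub_le _ _)
  have : Fintype (Subgroup.normalizer (D : Set G)) := Fintype.ofFinite _
  have hDdef : IsDefectGroup p M B D :=
    maximal_pair_defect hpM (Subgroup.normalizer (D : Set G)) D rfl B g' hmaxD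
  have hPD : D₀.map H.subtype ≤ D := subpairLE_le hle
  have hcc := (card_cent_le hpM D (D₀.map H.subtype) g' e hmaxD.1.1 hPD hle).1
  -- the centre of `D₀`
  have hZd := maximal_center_defect hpM b D₀ g₀ hmax₀
  have hZc := card_defectGroup hpM hg₀ _ hZd
  have hZc2 : Nat.card ↥(D₀ ⊓ Subgroup.centralizer (D₀ : Set ↥H)) = p ^ blockDefect p g₀ := by
    rw [← hZc]
    exact (Nat.card_congr (Subgroup.subgroupOfEquivOfLe
      (inf_le_right : D₀ ⊓ Subgroup.centralizer (D₀ : Set ↥H)
        ≤ Subgroup.centralizer (D₀ : Set ↥H))).toEquiv).symm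
  have hZmap : (D₀ ⊓ Subgroup.centralizer (D₀ : Set ↥H)).map H.subtype
      = D₀.map H.subtype ⊓ Subgroup.centralizer ((D₀.map H.subtype : Subgroup G) : Set G) := by
    ext z
    constructor
    · rintro ⟨w, ⟨hw1, hw2⟩, rfl⟩
      exact ⟨Subgroup.mem_map_of_mem H.subtype hw1, (hC' w).1 hw2⟩
    · rintro ⟨hz1, hz2⟩
      obtain ⟨w, hw, rfl⟩ := Subgroup.mem_map.1 hz1
      exact ⟨w, ⟨hw, (hC' w).2 hz2⟩, rfl⟩
  have hZc3 : Nat.card ↥(D₀.map H.subtype
      ⊓ Subgroup.centralizer ((D₀.map H.subtype : Subgroup G) : Set G)) = p ^ blockDefect p e := by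
    rw [← hZmap, Subgroup.card_map_of_injective (Subgroup.subtype_injective H), hZc2, hdef]
  have heq : D₀.map H.subtype ⊓ Subgroup.centralizer ((D₀.map H.subtype : Subgroup G) : Set G)
      = D ⊓ Subgroup.centralizer ((D₀.map H.subtype : Subgroup G) : Set G) := by
    apply Subgroup.eq_of_le_of_card_ge (inf_le_inf_right _ hPD)
    rw [hZc3]
    exact hcc
  refine ⟨D, hDdef, hPD, ?_⟩
  rw [← heq]
  exact inf_le_left

theorem induced_nested [Fact p.Prime] (hpM : IsPModular p M) (H : Subgroup G)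
    (b : Set (IrrCharacter ↥H)) (hb : IsPBlock M b) (D₀ : Subgroup ↥H)
    (hD₀ : IsDefectGroup p M b D₀)
    (hC : Subgroup.centralizer ((D₀.map H.subtype : Subgroup G) : Set G) ≤ H) :
    InducedBlockDefined M H b ∧ ∀ B : Set (IrrCharacter G), IsInducedBlock M H b B →
      (∃ D : Subgroup G, IsDefectGroup p M B D ∧
        (Subgroup.center ↥D).map D.subtype
          ≤ ((Subgroup.center ↥D₀).map D₀.subtype).map H.subtype ∧
        ((Subgroup.center ↥D₀).map D₀.subtype).map H.subtype ≤ D₀.map H.subtype ∧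
        D₀.map H.subtype ≤ D) ∧
      (∀ D : Subgroup G, IsDefectGroup p M B D → IsMulCommutative ↥D →
        IsDefectGroup p M B (D₀.map H.subtype)) := by
  classical
  have hMp := hpM.2.1.isPrime
  obtain ⟨B, hBind, D, hD, hPD, hK⟩ := induced_nested_core hpM H b hb D₀ hD₀ hC
  have hB : IsPBlock M B := hBind.2.1
  refine ⟨⟨B, hBind⟩, fun B' hB' => ?_⟩
  obtain rfl : B = B' := isInducedBlock_unique hMp H b B B' hBind hB'
  have hmemP : ∀ z : G, z ∈ D → (∀ u ∈ D, u * z = z * u) → z ∈ D₀.map H.subtype := by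
    intro z hz hcomm
    apply hK
    refine Subgroup.mem_inf.2 ⟨hz, ?_⟩
    rw [Subgroup.mem_centralizer_iff]
    intro u hu
    exact hcomm u (hPD (SetLike.mem_coe.1 hu))
  refine ⟨⟨D, hD, ?_, Subgroup.map_mono (Subgroup.map_subtype_le _), hPD⟩, ?_⟩
  · intro z hz
    obtain ⟨z', hzc, rfl⟩ := Subgroup.mem_map.1 hz
    have hzc' := Subgroup.mem_center_iff.1 hzc
    have hcomm : ∀ u ∈ D, u * (z' : G) = (z' : G) * u := fun u hu =>
      congrArg Subtype.val (hzc' ⟨u, hu⟩)
    obtain ⟨w, hw, hwz⟩ := Subgroup.mem_map.1 (hmemP (z' : G) z'.2 hcomm)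
    refine Subgroup.mem_map.2 ⟨w, Subgroup.mem_map.2 ⟨⟨w, hw⟩, ?_, rfl⟩, hwz⟩
    rw [Subgroup.mem_center_iff]
    intro d
    apply Subtype.ext
    apply Subtype.ext
    have h1 := hcomm ((d : H) : G) (hPD (Subgroup.mem_map_of_mem H.subtype d.2))
    have hwz' : (w : G) = (z' : G) := hwz
    show ((d : H) : G) * (w : G) = (w : G) * ((d : H) : G)
    rw [hwz']
    exact h1
  · intro D' hD' hab
    obtain ⟨y, hy⟩ := defectGroup_le_conj hpM hB hD' hD
    have hDab : ∀ a ∈ D, ∀ c ∈ D, c * a = a * c := by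
      intro a ha c hc
      obtain ⟨a', ha', rfl⟩ := Subgroup.mem_map.1 (hy ha)
      obtain ⟨c', hc', rfl⟩ := Subgroup.mem_map.1 (hy hc)
      have h1 : (⟨c', hc'⟩ : D') * ⟨a', ha'⟩ = ⟨a', ha'⟩ * ⟨c', hc'⟩ :=
        hab.is_comm.comm _ _
      have h2 : c' * a' = a' * c' := congrArg Subtype.val h1
      rw [← map_mul, ← map_mul, h2]
    have hDP : D ≤ D₀.map H.subtype := fun z hz => hmemP z hz (fun u hu => hDab z hz u hu)
    have hDeq : D₀.map H.subtype = D := le_antisymm hPD hDP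
    rw [hDeq]
    exact hD

end IndNest

end Cfsg.Agent.Helper25
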