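import Cfsg.Agent.S0925
import Cfsg.Agent.Helper25.FongPrincipal
import Cfsg.Agent.Helper25.TwoClass
import Cfsg.Agent.Helper25.SectionSum
import Cfsg.Agent.Helper25.BlockOrthGen
import Cfsg.Agent.Helper6.KleinFour
import Cfsg.Agent.Helper10.CharSign
import Cfsg.Agent.Helper10.VirtualChar
import Mathlib

/-!
Columns of the principal 2-block paired with a generalized character of a 2-subgroup that
vanishes off a set of elements not inverted by any conjugate of a given involution.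
-/

set_option autoImplicit false

namespace Cfsg.Agent.Helper25

open Cfsg

/-- Sign counting: three weighted vanishing sums force at least two negative weights. -/
theorem sign_count_neg {ι : Type*} [Fintype ι] (S : ι → Prop) [DecidablePred S]
    (a d τ : ι → ℝ) (i0 : ι) (hi0 : S i0) (hd : ∀ i, 0 < d i)
    (h1 : ∑ i, (if S i then a i * τ i ^ 2 / d i else 0) = 0)
    (h2 : ∑ i, (if S i then a i * d i else 0) = 0)
    (h3 : ∑ i, (if S i then a i * τ i else 0) = 0)
    (ha0 : a i0 ≠ 0) (hτ0 : τ i0 = d i0) (hne : ∀ i, S i → i ≠ i0 → τ i ≠ d i) :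
    2 ≤ Nat.card {i // S i ∧ a i < 0} := by
  by_contra hlt
  have hle : Nat.card {i // S i ∧ a i < 0} ≤ 1 := by omega
  have hsub : Subsingleton {i // S i ∧ a i < 0} := Finite.card_le_one_iff_subsingleton.mp hle
  have huniq : ∀ i j, S i → a i < 0 → S j → a j < 0 → i = j := by
    intro i j hi hai hj haj
    have h := hsub.elim ⟨i, hi, hai⟩ ⟨j, hj, haj⟩
    exact congrArg Subtype.val h
  have hexneg : ∃ ψ, S ψ ∧ a ψ < 0 := by
    by_contra hcon
    push_neg at hcon
    have hnn : ∀ i ∈ Finset.univ, 0 ≤ (if S i then a i * d i else 0) := by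
      intro i _
      split_ifs with hi
      · exact mul_nonneg (hcon i hi) (hd i).le
      · exact le_refl 0
    have h := (Finset.sum_eq_zero_iff_of_nonneg hnn).mp h2 i0 (Finset.mem_univ _)
    rw [if_pos hi0] at h
    rcases mul_eq_zero.mp h with h | h
    · exact ha0 h
    · exact (hd i0).ne' h
  obtain ⟨ψ, hψS, hψneg⟩ := hexneg
  have hnonneg : ∀ i, S i → i ≠ ψ → 0 ≤ a i := by
    intro i hi hiψ
    by_contra hcon
    push_neg at hcon
    exact hiψ (huniq i ψ hi hcon hψS hψneg)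
  obtain ⟨c, hc⟩ : ∃ c : ℝ, c = τ ψ / d ψ := ⟨_, rfl⟩
  have hcψ : τ ψ - c * d ψ = 0 := by
    rw [hc, div_mul_cancel₀ _ (hd ψ).ne', sub_self]
  have hsumT : ∑ i, (if S i then a i * (τ i - c * d i) ^ 2 / d i else 0) = 0 := by
    have hterm : ∀ i, (if S i then a i * (τ i - c * d i) ^ 2 / d i else 0)
        = (if S i then a i * τ i ^ 2 / d i else 0) - 2 * c * (if S i then a i * τ i else 0)
          + c ^ 2 * (if S i then a i * d i else 0) := by
      intro i
      have hdi := (hd i).ne'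
      split_ifs
      · field_simp
        ring
      · ring
    rw [Finset.sum_congr rfl (fun i _ => hterm i), Finset.sum_add_distrib,
      Finset.sum_sub_distrib, ← Finset.mul_sum, ← Finset.mul_sum, h1, h2, h3]
    ring
  have hTnn : ∀ i ∈ Finset.univ,
      0 ≤ (if S i then a i * (τ i - c * d i) ^ 2 / d i else 0) := by
    intro i _
    split_ifs with hi
    · by_cases hiψ : i = ψ
      · rw [hiψ, hcψ]
        simp
      · exact div_nonneg (mul_nonneg (hnonneg i hi hiψ) (sq_nonneg _)) (hd i).le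
    · exact le_refl 0
  have hzero := (Finset.sum_eq_zero_iff_of_nonneg hTnn).mp hsumT
  have hpos_eq : ∀ i, S i → 0 < a i → τ i = c * d i := by
    intro i hi hai
    have h := hzero i (Finset.mem_univ _)
    rw [if_pos hi] at h
    have hdi := (hd i).ne'
    have h' : a i * (τ i - c * d i) ^ 2 = 0 := by
      rcases div_eq_zero_iff.mp h with h | h
      · exact h
      · exact absurd h hdi
    rcases mul_eq_zero.mp h' with h | h
    · exact absurd h hai.ne'
    · have h'' := (pow_eq_zero_iff (two_ne_zero)).mp h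
      linarith
  by_cases hψ0 : ψ = i0
  · have hc1 : c = 1 := by
      rw [hc, hψ0, hτ0]
      exact div_self (hd i0).ne'
    have hexpos : ∃ i, S i ∧ 0 < a i := by
      by_contra hcon
      push_neg at hcon
      have hnp : ∀ i ∈ Finset.univ, 0 ≤ -(if S i then a i * d i else 0) := by
        intro i _
        split_ifs with hi
        · have h := mul_nonpos_of_nonpos_of_nonneg (hcon i hi) (hd i).le
          linarith
        · simp
      have hs : ∑ i, -(if S i then a i * d i else 0) = 0 := by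
        rw [Finset.sum_neg_distrib, h2, neg_zero]
      have h := (Finset.sum_eq_zero_iff_of_nonneg hnp).mp hs ψ (Finset.mem_univ _)
      rw [if_pos hψS] at h
      have h4 : a ψ * d ψ < 0 := mul_neg_of_neg_of_pos hψneg (hd ψ)
      linarith
    obtain ⟨i, hi, hai⟩ := hexpos
    have hiψ : i ≠ i0 := by
      intro h
      rw [h, ← hψ0] at hai
      linarith
    have h := hpos_eq i hi hai
    rw [hc1, one_mul] at h
    exact hne i hi hiψ h
  · have ha0pos : 0 < a i0 := lt_of_le_of_ne (hnonneg i0 hi0 (Ne.symm hψ0)) (Ne.symm ha0)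
    have h5 := hpos_eq i0 hi0 ha0pos
    rw [hτ0] at h5
    have hc1 : c = 1 := by
      have h6 : c * d i0 = 1 * d i0 := by linarith
      exact mul_right_cancel₀ (hd i0).ne' h6
    have h7 : τ ψ / d ψ = 1 := by
      rw [← hc]
      exact hc1
    exact hne ψ hψS hψ0 ((div_eq_one_iff_eq (hd ψ).ne').mp h7)

/-- Sign counting, both signs. -/
theorem sign_count_both {ι : Type*} [Fintype ι] (S : ι → Prop) [DecidablePred S]
    (a d τ : ι → ℝ) (i0 : ι) (hi0 : S i0) (hd : ∀ i, 0 < d i)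
    (h1 : ∑ i, (if S i then a i * τ i ^ 2 / d i else 0) = 0)
    (h2 : ∑ i, (if S i then a i * d i else 0) = 0)
    (h3 : ∑ i, (if S i then a i * τ i else 0) = 0)
    (ha0 : a i0 ≠ 0) (hτ0 : τ i0 = d i0) (hne : ∀ i, S i → i ≠ i0 → τ i ≠ d i) :
    2 ≤ Nat.card {i // S i ∧ 0 < a i} ∧ 2 ≤ Nat.card {i // S i ∧ a i < 0} := by
  refine ⟨?_, sign_count_neg S a d τ i0 hi0 hd h1 h2 h3 ha0 hτ0 hne⟩
  have e1 : ∑ i, (if S i then (-a i) * τ i ^ 2 / d i else 0) = 0 := by
    have h : ∀ i, (if S i then (-a i) * τ i ^ 2 / d i else 0)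
        = -(if S i then a i * τ i ^ 2 / d i else 0) := by
      intro i
      split_ifs <;> ring
    rw [Finset.sum_congr rfl (fun i _ => h i), Finset.sum_neg_distrib, h1, neg_zero]
  have e2 : ∑ i, (if S i then (-a i) * d i else 0) = 0 := by
    have h : ∀ i, (if S i then (-a i) * d i else 0) = -(if S i then a i * d i else 0) := by
      intro i
      split_ifs <;> ring
    rw [Finset.sum_congr rfl (fun i _ => h i), Finset.sum_neg_distrib, h2, neg_zero]
  have e3 : ∑ i, (if S i then (-a i) * τ i else 0) = 0 := by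
    have h : ∀ i, (if S i then (-a i) * τ i else 0) = -(if S i then a i * τ i else 0) := by
      intro i
      split_ifs <;> ring
    rw [Finset.sum_congr rfl (fun i _ => h i), Finset.sum_neg_distrib, h3, neg_zero]
  have hneg := sign_count_neg S (fun i => -a i) d τ i0 hi0 hd e1 e2 e3 (neg_ne_zero.mpr ha0)
    hτ0 hne
  have he : Nat.card {i // S i ∧ 0 < a i} = Nat.card {i // S i ∧ -a i < 0} :=
    Nat.card_congr (Equiv.subtypeEquivRight (fun i => by rw [neg_lt_zero]))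
  rw [he]
  exact hneg

/-- The inverse of an element has the inverse `p`-part. -/
theorem isPPart_inv_invol {G : Type*} [Group G] {p : ℕ} {g z : G} (h : IsPPart p g z) :
    IsPPart p g⁻¹ z⁻¹ := by
  obtain ⟨c, hzc, hcomm, ⟨k, hk⟩, hc⟩ := h
  refine ⟨c⁻¹, ?_, hcomm.inv_inv, ⟨k, ?_⟩, ?_⟩
  · rw [(hcomm.inv_inv).eq, ← mul_inv_rev, hzc]
  · rw [orderOf_inv]
    exact hk
  · rw [orderOf_inv]
    exact hc

/-- Block orthogonality against an element inverted by a conjugate of `t`. -/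
theorem invol_core {G : Type*} [Group G] [Fintype G] [Fintype (IrrCharacter G)]
    (M : Ideal AlgInt) [DecidablePred (fun χ : IrrCharacter G => χ ∈ principalBlock M G)]
    (hM : IsPModular 2 M) (P : Subgroup G) (hP : IsPGroup 2 P)
    (U : Set G) (t : G)
    (hinv : ∀ u ∈ U, ∀ g : G, (g * t * g⁻¹) * u * (g * t * g⁻¹)⁻¹ ≠ u⁻¹)
    (y : P) (hy : ((y : G))⁻¹ ∈ U) (h : G)
    (hh : ∃ g : G, (g * t * g⁻¹) * h * (g * t * g⁻¹)⁻¹ = h⁻¹) :
    ∑ χ : IrrCharacter G, (if χ ∈ principalBlock M G then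
      (χ : G → ℂ) (y : G) * (χ : G → ℂ) h else 0) = 0 := by
  classical
  have hB0 : IsPBlock M (principalBlock M G) := ⟨oneIrr G, rfl⟩
  have hy2 : IsPPart 2 (y : G) (y : G) := by
    obtain ⟨k, hk⟩ := hP y
    have h1 : orderOf (y : G) ∣ 2 ^ k := by
      apply orderOf_dvd_of_pow_eq_one
      simpa using congrArg Subtype.val hk
    obtain ⟨j, -, hj⟩ := (Nat.dvd_prime_pow Nat.prime_two).mp h1
    refine ⟨1, mul_one _, Commute.one_right _, ⟨j, hj⟩, ?_⟩
    rw [orderOf_one]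
    norm_num
  obtain ⟨u, hu⟩ := exists_isPPart 2 h⁻¹
  have hnc : ¬ IsConj (y : G) u := by
    intro hc
    obtain ⟨c, hc⟩ := isConj_iff.mp hc
    obtain ⟨g, hg⟩ := hh
    have h1 := isPPart_conj hu (g * t * g⁻¹)
    have h2 : (g * t * g⁻¹) * h⁻¹ * (g * t * g⁻¹)⁻¹ = h := by
      have e0 : (g * t * g⁻¹) * h⁻¹ * (g * t * g⁻¹)⁻¹
          = ((g * t * g⁻¹) * h * (g * t * g⁻¹)⁻¹)⁻¹ := by group
      rw [e0, hg, inv_inv]
    rw [h2] at h1
    have h3 : IsPPart 2 h u⁻¹ := by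
      have h3' := isPPart_inv_invol hu
      rw [inv_inv] at h3'
      exact h3'
    have h4 : (g * t * g⁻¹) * u * (g * t * g⁻¹)⁻¹ = u⁻¹ := isPPart_unique h1 h3
    rw [← hc] at h4
    apply hinv ((y : G))⁻¹ hy (c⁻¹ * g)
    have e : (c⁻¹ * g * t * (c⁻¹ * g)⁻¹) * ((y : G))⁻¹ * (c⁻¹ * g * t * (c⁻¹ * g)⁻¹)⁻¹
        = c⁻¹ * ((g * t * g⁻¹) * (c * (y : G) * c⁻¹) * (g * t * g⁻¹)⁻¹)⁻¹ * c := by group
    refine e.trans ?_
    rw [h4]
    group
  have h5 := (Cfsg.Agent.S0925.result 2 M hM).2 (y : G) h⁻¹ (y : G) u hy2 hu hnc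
    (principalBlock M G) hB0
  rw [finsum_mem_eq_sum_ite, inv_inv] at h5
  exact h5

/-- Swapping the sums over the block and over the 2-subgroup. -/
theorem invol_swap {G : Type*} [Group G] [Fintype G] [Fintype (IrrCharacter G)]
    (M : Ideal AlgInt) [DecidablePred (fun χ : IrrCharacter G => χ ∈ principalBlock M G)]
    (P : Subgroup G) [Fintype P] (U : Set G) (θ : P → ℂ)
    (hθU : ∀ y : P, (y : G) ∉ U → θ y = 0) (c : IrrCharacter G → ℂ)
    (hc : ∀ y : P, ((y : G))⁻¹ ∈ U → ∑ χ : IrrCharacter G,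
      (if χ ∈ principalBlock M G then (χ : G → ℂ) (y : G) * c χ else 0) = 0) :
    ∑ χ : IrrCharacter G, (if χ ∈ principalBlock M G then
      ((Nat.card P : ℂ)⁻¹ * ∑ y : P, (χ : G → ℂ) (y : G) * θ y⁻¹) * c χ else 0) = 0 := by
  classical
  have h1 : ∀ χ : IrrCharacter G, (if χ ∈ principalBlock M G then
      ((Nat.card P : ℂ)⁻¹ * ∑ y : P, (χ : G → ℂ) (y : G) * θ y⁻¹) * c χ else 0)
      = (Nat.card P : ℂ)⁻¹ * ∑ y : P, θ y⁻¹ *
        (if χ ∈ principalBlock M G then (χ : G → ℂ) (y : G) * c χ else 0) := by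
    intro χ
    by_cases hχ : χ ∈ principalBlock M G
    · simp only [if_pos hχ]
      rw [mul_assoc, Finset.sum_mul]
      congr 1
      exact Finset.sum_congr rfl (fun y _ => by ring)
    · simp only [if_neg hχ]
      simp
  rw [Finset.sum_congr rfl (fun χ _ => h1 χ), ← Finset.mul_sum, Finset.sum_comm]
  have h2 : ∀ y : P, ∑ χ : IrrCharacter G, θ y⁻¹ *
      (if χ ∈ principalBlock M G then (χ : G → ℂ) (y : G) * c χ else 0) = 0 := by
    intro y
    rw [← Finset.mul_sum]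
    by_cases hyU : ((y : G))⁻¹ ∈ U
    · rw [hc y hyU, mul_zero]
    · have h3 : θ y⁻¹ = 0 := hθU y⁻¹ (by rw [Subgroup.coe_inv]; exact hyU)
      rw [h3, zero_mul]
  rw [Finset.sum_congr rfl (fun y _ => h2 y), Finset.sum_const_zero, mul_zero]

/-- Main statement with the coefficients abstracted. -/
theorem invol_main_aux {G : Type*} [Group G] [Finite G] (M : Ideal AlgInt)
    (hM : IsPModular 2 M) (P : Subgroup G) (hP : IsPGroup 2 P) (U : Set G) (t : G)
    (ht : orderOf t = 2)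
    (hinv : ∀ u ∈ U, ∀ g : G, (g * t * g⁻¹) * u * (g * t * g⁻¹)⁻¹ ≠ u⁻¹)
    (θ : ↥P → ℂ) (hθ : IsGeneralizedCharacter ↥P θ)
    (hθU : ∀ y : ↥P, (y : G) ∉ U → θ y = 0)
    (aC : IrrCharacter G → ℂ)
    (haC : ∀ χ : IrrCharacter G,
      aC χ = (Nat.card ↥P : ℂ)⁻¹ * ∑ᶠ y : ↥P, (χ : G → ℂ) (y : G) * θ y⁻¹) :
    (∑ᶠ χ ∈ principalBlock M G, aC χ * (χ : G → ℂ) t ^ 2 / (χ : G → ℂ) 1 = 0) ∧
    (∑ᶠ χ ∈ principalBlock M G, aC χ * (χ : G → ℂ) 1 = 0) ∧
    (∑ᶠ χ ∈ principalBlock M G, aC χ * (χ : G → ℂ) t = 0) ∧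
    ((Nat.card ↥P : ℂ)⁻¹ * ∑ᶠ y : ↥P, θ y ≠ 0 →
      (2 ≤ Nat.card {χ : IrrCharacter G // χ ∈ principalBlock M G ∧ 0 < (aC χ).re} ∧
        2 ≤ Nat.card {χ : IrrCharacter G // χ ∈ principalBlock M G ∧ (aC χ).re < 0}) ∨
      ∃ K : Subgroup G, K.Normal ∧ K ≠ ⊤ ∧ pPrimeCore 2 G ≤ K ∧ t ∈ K) := by
  classical
  have : Fintype G := Fintype.ofFinite G
  have hfin : Finite (IrrCharacter G) := Helper24.finite_irrCharacter
  have : Fintype (IrrCharacter G) := Fintype.ofFinite _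
  have : Fintype P := Fintype.ofFinite P
  have hMtop : M ≠ ⊤ := hM.2.1.ne_top
  have haC' : ∀ χ : IrrCharacter G,
      aC χ = (Nat.card ↥P : ℂ)⁻¹ * ∑ y : ↥P, (χ : G → ℂ) (y : G) * θ y⁻¹ := by
    intro χ
    rw [haC χ, finsum_eq_sum_of_fintype]
  have ht2 : t * t = 1 := by rw [← pow_two, ← ht, pow_orderOf_eq_one]
  have htinv : t⁻¹ = t := inv_eq_of_mul_eq_one_left ht2
  have key : ∀ c : IrrCharacter G → ℂ,
      (∀ y : P, ((y : G))⁻¹ ∈ U → ∑ χ : IrrCharacter G,
        (if χ ∈ principalBlock M G then (χ : G → ℂ) (y : G) * c χ else 0) = 0) →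
      ∑ χ : IrrCharacter G, (if χ ∈ principalBlock M G then aC χ * c χ else 0) = 0 := by
    intro c hc
    refine Eq.trans (Finset.sum_congr rfl (fun χ _ => ?_)) (invol_swap M P U θ hθU c hc)
    rw [haC' χ]
  have h2 : ∑ χ : IrrCharacter G,
      (if χ ∈ principalBlock M G then aC χ * (χ : G → ℂ) 1 else 0) = 0 :=
    key (fun χ => (χ : G → ℂ) 1)
      (fun y hy => invol_core M hM P hP U t hinv y hy 1 ⟨1, by group⟩)
  have h3 : ∑ χ : IrrCharacter G,
      (if χ ∈ principalBlock M G then aC χ * (χ : G → ℂ) t else 0) = 0 :=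
    key (fun χ => (χ : G → ℂ) t) (fun y hy => invol_core M hM P hP U t hinv y hy t
      ⟨1, by
        have e : (1 * t * 1⁻¹) * t * (1 * t * 1⁻¹)⁻¹ = t := by group
        rw [e, htinv]⟩)
  have hinner : ∀ y : P, ((y : G))⁻¹ ∈ U → ∑ χ : IrrCharacter G,
      (if χ ∈ principalBlock M G then
        (χ : G → ℂ) (y : G) * ((χ : G → ℂ) t ^ 2 / (χ : G → ℂ) 1) else 0) = 0 := by
    intro y hy
    have hidx : ((Subgroup.centralizer ({t} : Set G)).index : ℂ) ≠ 0 := by
      exact_mod_cast Subgroup.index_ne_zero_of_finite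
    have hexp : ∀ χ : IrrCharacter G, (χ : G → ℂ) t ^ 2 / (χ : G → ℂ) 1
        = ((Subgroup.centralizer ({t} : Set G)).index : ℂ)⁻¹ *
          ∑ z : G, (if IsConj z t then (χ : G → ℂ) (z * t) else 0) := by
      intro χ
      have hs : ∑ z : G, coeffT (fun χ : IrrCharacter G => centralChar (χ : G → ℂ) t) z
          * (χ : G → ℂ) (z * t) = centralChar (χ : G → ℂ) t * (χ : G → ℂ) t :=
        sum_coeffT_mul_shift (fun χ : IrrCharacter G => centralChar (χ : G → ℂ) t) χ t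
      have hs2 : ∑ z : G, coeffT (fun χ : IrrCharacter G => centralChar (χ : G → ℂ) t) z
          * (χ : G → ℂ) (z * t)
          = ∑ z : G, (if IsConj z t then (χ : G → ℂ) (z * t) else 0) := by
        refine Finset.sum_congr rfl (fun z _ => ?_)
        rw [coeffT_central t z]
        split_ifs <;> simp
      rw [hs2] at hs
      rw [hs]
      have hcc : centralChar (χ : G → ℂ) t
          = ((Subgroup.centralizer ({t} : Set G)).index : ℂ) * (χ : G → ℂ) t
            / (χ : G → ℂ) 1 := rfl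
      rw [hcc]
      have e : ((Subgroup.centralizer ({t} : Set G)).index : ℂ)⁻¹ *
          (((Subgroup.centralizer ({t} : Set G)).index : ℂ) * (χ : G → ℂ) t
            / (χ : G → ℂ) 1 * (χ : G → ℂ) t)
          = (((Subgroup.centralizer ({t} : Set G)).index : ℂ)⁻¹ *
            ((Subgroup.centralizer ({t} : Set G)).index : ℂ)) *
            ((χ : G → ℂ) t ^ 2 / (χ : G → ℂ) 1) := by ring
      rw [e, inv_mul_cancel₀ hidx, one_mul]
    have hterm : ∀ χ : IrrCharacter G, (if χ ∈ principalBlock M G then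
        (χ : G → ℂ) (y : G) * ((χ : G → ℂ) t ^ 2 / (χ : G → ℂ) 1) else 0)
        = ((Subgroup.centralizer ({t} : Set G)).index : ℂ)⁻¹ * ∑ z : G,
          (if IsConj z t then (if χ ∈ principalBlock M G then
            (χ : G → ℂ) (y : G) * (χ : G → ℂ) (z * t) else 0) else 0) := by
      intro χ
      by_cases hχ : χ ∈ principalBlock M G
      · simp only [if_pos hχ]
        rw [hexp χ, mul_left_comm, Finset.mul_sum]
        congr 1
        exact Finset.sum_congr rfl (fun z _ => by rw [mul_ite, mul_zero])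
      · simp only [if_neg hχ]
        simp
    refine Eq.trans (Finset.sum_congr rfl (fun χ _ => hterm χ)) ?_
    rw [← Finset.mul_sum, Finset.sum_comm]
    have hz : ∀ z : G, ∑ χ : IrrCharacter G, (if IsConj z t then
        (if χ ∈ principalBlock M G then
          (χ : G → ℂ) (y : G) * (χ : G → ℂ) (z * t) else 0) else 0) = 0 := by
      intro z
      by_cases hzt : IsConj z t
      · simp only [if_pos hzt]
        apply invol_core M hM P hP U t hinv y hy (z * t)
        obtain ⟨c, hc⟩ := isConj_iff.mp hzt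
        have hzc : c⁻¹ * t * c⁻¹⁻¹ = z := by
          rw [← hc]
          group
        have hz2 : z * z = 1 := by
          rw [← hzc]
          have e : c⁻¹ * t * c⁻¹⁻¹ * (c⁻¹ * t * c⁻¹⁻¹) = c⁻¹ * (t * t) * c := by group
          rw [e, ht2]
          group
        refine ⟨c⁻¹, ?_⟩
        rw [hzc, mul_inv_rev, htinv, ← mul_assoc z z t, hz2, one_mul]
      · simp only [if_neg hzt]
        exact Finset.sum_const_zero
    rw [Finset.sum_congr rfl (fun z _ => hz z), Finset.sum_const_zero, mul_zero]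
  have h1 : ∑ χ : IrrCharacter G, (if χ ∈ principalBlock M G then
      aC χ * ((χ : G → ℂ) t ^ 2 / (χ : G → ℂ) 1) else 0) = 0 :=
    key (fun χ => (χ : G → ℂ) t ^ 2 / (χ : G → ℂ) 1) hinner
  have hB1 : ∑ᶠ χ ∈ principalBlock M G, aC χ * (χ : G → ℂ) t ^ 2 / (χ : G → ℂ) 1 = 0 := by
    rw [finsum_mem_eq_sum_ite]
    refine Eq.trans (Finset.sum_congr rfl (fun χ _ => ?_)) h1
    rw [mul_div_assoc]
  have hB2 : ∑ᶠ χ ∈ principalBlock M G, aC χ * (χ : G → ℂ) 1 = 0 := by
    rw [finsum_mem_eq_sum_ite]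
    exact h2
  have hB3 : ∑ᶠ χ ∈ principalBlock M G, aC χ * (χ : G → ℂ) t = 0 := by
    rw [finsum_mem_eq_sum_ite]
    exact h3
  refine ⟨hB1, hB2, hB3, ?_⟩
  intro hne
  by_cases hK : ∃ K : Subgroup G, K.Normal ∧ K ≠ ⊤ ∧ pPrimeCore 2 G ≤ K ∧ t ∈ K
  · exact Or.inr hK
  · left
    have hstar : ∀ χ : IrrCharacter G, χ ∈ principalBlock M G → χ ≠ oneIrr G →
        (χ : G → ℂ) t ≠ (χ : G → ℂ) 1 := by
      intro χ hχ hχ1 hχt
      apply hK
      refine ⟨irrKer (χ : G → ℂ) χ.2, ⟨?_⟩, ?_, ?_, ?_⟩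
      · intro n hn g
        rw [mem_irrKer] at hn ⊢
        rw [← hn, char_mul_comm χ (g * n) g⁻¹, ← mul_assoc, inv_mul_cancel, one_mul]
      · intro htop
        have hall : ∀ g : G, (χ : G → ℂ) g = (χ : G → ℂ) 1 := by
          intro g
          rw [← mem_irrKer (χ : G → ℂ) χ.2 g, htop]
          exact Subgroup.mem_top g
        have hro := row_orth χ (oneIrr G)
        rw [if_neg hχ1] at hro
        have hterm : ∀ g : G, (χ : G → ℂ) g * (starRingEnd ℂ) ((oneIrr G : G → ℂ) g)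
            = (χ : G → ℂ) 1 := by
          intro g
          rw [hall g, oneIrr_apply, map_one, mul_one]
        rw [Finset.sum_congr rfl (fun g _ => hterm g), Finset.sum_const, Finset.card_univ,
          nsmul_eq_mul] at hro
        rcases mul_eq_zero.mp hro with h | h
        · have hcard : (0 : ℕ) < Fintype.card G := Fintype.card_pos
          have hcard' : (Fintype.card G : ℂ) ≠ 0 := by exact_mod_cast hcard.ne'
          exact hcard' h
        · exact irr_one_ne_zero χ.2 h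
      · intro n hn
        rw [mem_irrKer]
        exact principalBlock_ker hM χ hχ n hn
      · rw [mem_irrKer]
        exact hχt
    have hint : ∀ χ : IrrCharacter G, ∃ n : ℤ, aC χ = (n : ℂ) := by
      intro χ
      have hθinv : ∀ y : P, θ y⁻¹ = (starRingEnd ℂ) (θ y) := by
        intro y
        obtain ⟨θ1, θ2, h1c, h2c, hθeq⟩ := hθ
        rw [hθeq]
        simp only [Pi.sub_apply, map_sub]
        rw [Helper24.char_inv h1c y, Helper24.char_inv h2c y]
      have hres : IsGeneralizedCharacter P (fun y : P => (χ : G → ℂ) (y : G)) :=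
        Helper10.isGeneralizedCharacter_of_char
          (Helper24.isCharacter_restrict P (Helper24.isCharacter_of_irr χ.2))
      obtain ⟨n, hn⟩ := Helper10.gen_inner_int hres hθ
      refine ⟨n, ?_⟩
      rw [← hn, haC' χ]
      unfold classInner
      congr 1
      exact Finset.sum_congr rfl (fun y _ => by rw [hθinv y])
    have hre : ∀ χ : IrrCharacter G, (((aC χ).re : ℝ) : ℂ) = aC χ := by
      intro χ
      obtain ⟨n, hn⟩ := hint χ
      rw [hn]
      simp
    have hdex : ∀ χ : IrrCharacter G, ∃ d : ℝ, 0 < d ∧ (χ : G → ℂ) 1 = (d : ℂ) :=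
      fun χ => Helper10.irr_one_eq χ.2
    have hτex : ∀ χ : IrrCharacter G, ∃ k : ℤ, (χ : G → ℂ) t = (k : ℂ) :=
      fun χ => Helper6.char_involution_int (Helper24.isCharacter_of_irr χ.2) t ht2
    choose d hdpos hd using hdex
    choose k hk using hτex
    have hone : oneIrr G ∈ principalBlock M G := mem_blockOf_self hMtop (oneIrr G)
    have R : ∀ (c : IrrCharacter G → ℂ) (r : IrrCharacter G → ℝ),
        (∀ χ, c χ = ((r χ : ℝ) : ℂ)) →
        ∑ χ : IrrCharacter G, (if χ ∈ principalBlock M G then aC χ * c χ else 0) = 0 →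
        ∑ χ : IrrCharacter G,
          (if χ ∈ principalBlock M G then (aC χ).re * r χ else 0) = 0 := by
      intro c r hcr hsum
      have h : ((∑ χ : IrrCharacter G,
          (if χ ∈ principalBlock M G then (aC χ).re * r χ else 0) : ℝ) : ℂ) = 0 := by
        rw [Complex.ofReal_sum]
        refine Eq.trans (Finset.sum_congr rfl (fun χ _ => ?_)) hsum
        split_ifs
        · rw [Complex.ofReal_mul, hre χ, hcr χ]
        · exact Complex.ofReal_zero
      exact Complex.ofReal_eq_zero.mp h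
    have hcr1 : ∀ χ : IrrCharacter G, (χ : G → ℂ) t ^ 2 / (χ : G → ℂ) 1
        = (((k χ : ℝ) ^ 2 / d χ : ℝ) : ℂ) := by
      intro χ
      rw [Complex.ofReal_div, Complex.ofReal_pow, Complex.ofReal_intCast, hk χ, hd χ]
    have hcr3 : ∀ χ : IrrCharacter G, (χ : G → ℂ) t = (((k χ : ℝ)) : ℂ) := by
      intro χ
      rw [Complex.ofReal_intCast]
      exact hk χ
    have R1' := R (fun χ => (χ : G → ℂ) t ^ 2 / (χ : G → ℂ) 1)
      (fun χ => (k χ : ℝ) ^ 2 / d χ) hcr1 h1
    have R1 : ∑ χ : IrrCharacter G, (if χ ∈ principalBlock M G then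
        (aC χ).re * (k χ : ℝ) ^ 2 / d χ else 0) = 0 := by
      refine Eq.trans (Finset.sum_congr rfl (fun χ _ => ?_)) R1'
      rw [mul_div_assoc]
    have R2 : ∑ χ : IrrCharacter G, (if χ ∈ principalBlock M G then
        (aC χ).re * d χ else 0) = 0 := R (fun χ => (χ : G → ℂ) 1) d hd h2
    have R3 : ∑ χ : IrrCharacter G, (if χ ∈ principalBlock M G then
        (aC χ).re * (k χ : ℝ) else 0) = 0 :=
      R (fun χ => (χ : G → ℂ) t) (fun χ => (k χ : ℝ)) hcr3 h3
    have hτ0 : (k (oneIrr G) : ℝ) = d (oneIrr G) := by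
      have h : (((k (oneIrr G) : ℝ)) : ℂ) = ((d (oneIrr G) : ℝ) : ℂ) := by
        rw [Complex.ofReal_intCast, ← hk (oneIrr G), ← hd (oneIrr G), oneIrr_apply,
          oneIrr_apply]
      exact Complex.ofReal_injective h
    have ha0 : (aC (oneIrr G)).re ≠ 0 := by
      intro h0
      apply hne
      have h1' : aC (oneIrr G) = (Nat.card ↥P : ℂ)⁻¹ * ∑ᶠ y : ↥P, θ y := by
        rw [haC' (oneIrr G), finsum_eq_sum_of_fintype]
        congr 1
        calc ∑ y : P, (oneIrr G : G → ℂ) (y : G) * θ y⁻¹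
            = ∑ y : P, θ (Equiv.inv P y) :=
              Finset.sum_congr rfl (fun y _ => by
                rw [oneIrr_apply, one_mul, Equiv.inv_apply])
          _ = ∑ y : P, θ y := Equiv.sum_comp (Equiv.inv P) θ
      rw [← h1', ← hre (oneIrr G), h0, Complex.ofReal_zero]
    have hne' : ∀ χ : IrrCharacter G, χ ∈ principalBlock M G → χ ≠ oneIrr G →
        (k χ : ℝ) ≠ d χ := by
      intro χ hχ hχ1 h
      apply hstar χ hχ hχ1
      rw [hk χ, hd χ, ← h, Complex.ofReal_intCast]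
    exact sign_count_both (fun χ : IrrCharacter G => χ ∈ principalBlock M G)
      (fun χ => (aC χ).re) d (fun χ => (k χ : ℝ)) (oneIrr G) hone hdpos R1 R2 R3 ha0 hτ0
      hne'

/-- Columns of the principal 2-block against a generalized character supported on elements
not inverted by conjugates of an involution. -/
theorem invol_main {G : Type*} [Group G] [Finite G] (M : Ideal Cfsg.AlgInt) (hM : Cfsg.IsPModular 2 M) (P : Subgroup G) (hP : IsPGroup 2 P) (U : Set G) (hUP : U ⊆ (P : Set G)) (t : G) (ht : orderOf t = 2) (hinv : ∀ u ∈ U, ∀ g : G, (g * t * g⁻¹) * u * (g * t * g⁻¹)⁻¹ ≠ u⁻¹) (θ : ↥P → ℂ) (hθ : Cfsg.IsGeneralizedCharacter ↥P θ) (hθU : ∀ y : ↥P, (y : G) ∉ U → θ y = 0) : (∑ᶠ χ ∈ Cfsg.principalBlock M G, ((Nat.card ↥P : ℂ)⁻¹ * ∑ᶠ y : ↥P, (χ : G → ℂ) (y : G) * θ y⁻¹) * (χ : G → ℂ) t ^ 2 / (χ : G → ℂ) 1 = 0) ∧ (∑ᶠ χ ∈ Cfsg.principalBlock M G, ((Nat.card ↥P : ℂ)⁻¹ * ∑ᶠ y : ↥P, (χ : G → ℂ) (y : G) * θ y⁻¹) * (χ : G → ℂ) 1 = 0) ∧ (∑ᶠ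 χ ∈ Cfsg.principalBlock M G, ((Nat.card ↥P : ℂ)⁻¹ * ∑ᶠ y : ↥P, (χ : G → ℂ) (y : G) * θ y⁻¹) * (χ : G → ℂ) t = 0) ∧ ((Nat.card ↥P : ℂ)⁻¹ * ∑ᶠ y : ↥P, θ y ≠ 0 → (2 ≤ Nat.card {χ : Cfsg.IrrCharacter G // χ ∈ Cfsg.principalBlock M G ∧ 0 < (((Nat.card ↥P : ℂ)⁻¹ * ∑ᶠ y : ↥P, (χ : G → ℂ) (y : G) * θ y⁻¹)).re} ∧ 2 ≤ Nat.card {χ : Cfsg.IrrCharacter G // χ ∈ Cfsg.principalBlock M G ∧ (((Nat.card ↥P : ℂ)⁻¹ * ∑ᶠ y : ↥P, (χ : G → ℂ) (y : G) * θ y⁻¹)).re < 0}) ∨ ∃ K : Subgroup G, K.Normal ∧ K ≠ ⊤ ∧ Cfsg.pPrimeCore 2 G ≤ K ∧ t ∈ K) :=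
  invol_main_aux M hM P hP U t ht hinv θ hθ hθU
    (fun χ => (Nat.card ↥P : ℂ)⁻¹ * ∑ᶠ y : ↥P, (χ : G → ℂ) (y : G) * θ y⁻¹) (fun _ => rfl)

end Cfsg.Agent.Helper25
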