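import Cfsg.Agent.Helper25.RegWords
import Cfsg.Agent.Helper25.WordSums
import Cfsg.Agent.Helper25.BlockThird
import Cfsg.Agent.Helper25.BlockMinMax2
import Cfsg.Agent.Helper25.BlockIdem
import Cfsg.Agent.Helper25.BlockPPrime
import Cfsg.Agent.Helper25.HeightZero2
import Mathlib.Algebra.CharP.Lemmas
import Mathlib.FieldTheory.Finite.Basic

set_option autoImplicit false
set_option linter.unusedSectionVars false

/-!
# The coefficients of the principal block idempotent on `p`-regular elements (helper25)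
-/

namespace Cfsg.Agent.Helper25

open Cfsg
open scoped ComplexConjugate

section

variable {G : Type*} [Group G] [Fintype G] {M : Ideal AlgInt} {p : ℕ}

theorem memLocalIdeal_intCast_of_dvd (hpM : IsPModular p M) {z : ℤ} (h : (p : ℤ) ∣ z) :
    MemLocalIdeal M (z : ℂ) := by
  have hM := hpM.2.1.isPrime
  obtain ⟨c, hc⟩ := h
  rw [hc]
  push_cast
  exact MemLocalIdeal.mul_right hM ((memLocalIdeal_natCast_iff hpM p).2 dvd_rfl)
    (memLocalRing_of_isIntegral hM.ne_top (isIntegral_intCast_complex c))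

theorem memLocalIdeal_natCast_sub_of_modEq (hpM : IsPModular p M) {a b : ℕ}
    (h : a ≡ b [MOD p]) : MemLocalIdeal M ((a : ℂ) - (b : ℂ)) := by
  have h1 : (p : ℤ) ∣ (a : ℤ) - (b : ℤ) := (Nat.modEq_iff_dvd.1 h.symm)
  have h2 := memLocalIdeal_intCast_of_dvd hpM h1
  push_cast at h2
  exact h2

/-- Külshammer's formula for the coefficients of the principal block idempotent on the
`p`-regular elements. -/
theorem kulshammer_coeff [Fact p.Prime] (hpM : IsPModular p M) (g : G)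
    (hg : ¬ p ∣ orderOf g) :
    MemLocalIdeal M (blockCoeff (principalBlock M G) g
      - (Nat.card {xy : G × G // (∃ k : ℕ, orderOf xy.1 = p ^ k) ∧ ¬ p ∣ orderOf xy.2
          ∧ xy.1 * xy.2 = g} : ℂ) / (Nat.card {y : G // ¬ p ∣ orderOf y} : ℂ)) := by
  classical
  have hM := hpM.2.1.isPrime
  have hp := hpM.1
  have := Helper24.finite_irrCharacter (G := G)
  have : Fintype (IrrCharacter G) := Fintype.ofFinite _
  have hB : IsPBlock M (principalBlock M G) := by
    refine ⟨oneIrr G, ?_⟩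
    unfold principalBlock
    congr 1
  obtain ⟨R, hR⟩ : ∃ R : ℕ, R = Nat.card {y : G // ¬ p ∣ orderOf y} := ⟨_, rfl⟩
  obtain ⟨Nn, hNn⟩ : ∃ Nn : ℕ, Nn = Nat.card {xy : G × G // (∃ k : ℕ, orderOf xy.1 = p ^ k)
      ∧ ¬ p ∣ orderOf xy.2 ∧ xy.1 * xy.2 = g} := ⟨_, rfl⟩
  rw [← hR, ← hNn]
  have hRu : ¬ MemLocalIdeal M (R : ℂ) := by
    rw [hR]
    exact regCount_not_mem hpM
  obtain ⟨e, he⟩ : ∃ e : IrrCharacter G → ℂ,
      e = fun χ => if χ ∈ principalBlock M G then (1 : ℂ) else 0 := ⟨_, rfl⟩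
  have heS : e ∈ specRing G M hM := by
    rw [he]
    exact block_indicator_mem hM hB
  obtain ⟨Ψ, hΨ⟩ : ∃ Ψ : IrrCharacter G → ℂ, Ψ = fun χ : IrrCharacter G => ∑ h : G,
      (if p ∣ orderOf h then (0 : ℂ) else 1) * ((χ : G → ℂ) h / (χ : G → ℂ) 1) := ⟨_, rfl⟩
  have hcl : IsClassFunction G (fun h : G => if p ∣ orderOf h then (0 : ℂ) else 1) := by
    intro x k
    show (if p ∣ orderOf (k * x * k⁻¹) then (0 : ℂ) else 1) = if p ∣ orderOf x then 0 else 1
    rw [orderOf_conj']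
  have hΨc : ∀ x : G, coeffT Ψ x = if p ∣ orderOf x then (0 : ℂ) else 1 := by
    intro x
    rw [hΨ]
    exact coeffT_forward _ hcl x
  have hΨS : Ψ ∈ specRing G M hM := by
    rw [mem_specRing]
    intro x
    rw [hΨc]
    split_ifs
    · exact MemLocalRing.zero hM.ne_top
    · exact MemLocalRing.one hM.ne_top
  have hΨv : ∀ χ : IrrCharacter G, Ψ χ = ∑ h : G,
      (if p ∣ orderOf h then 0 else (χ : G → ℂ) h / (χ : G → ℂ) 1) := by
    intro χ
    rw [hΨ]
    refine Finset.sum_congr rfl fun h _ => ?_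
    split_ifs <;> ring
  have hRS : (fun _ : IrrCharacter G => (R : ℂ)) ∈ specRing G M hM :=
    natCast_mem (specRing G M hM) R
  obtain ⟨Θ, hΘ⟩ : ∃ Θ : IrrCharacter G → ℂ, Θ = Ψ + -((fun _ => (R : ℂ)) * e) := ⟨_, rfl⟩
  have hReS : (fun _ : IrrCharacter G => (R : ℂ)) * e ∈ specRing G M hM :=
    Subring.mul_mem _ hRS heS
  have hΘS : Θ ∈ specRing G M hM := by
    rw [hΘ]
    exact Subring.add_mem _ hΨS (Subring.neg_mem _ hReS)
  have hΘv : ∀ χ, MemLocalIdeal M (Θ χ) := by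
    intro χ
    rw [hΘ]
    show MemLocalIdeal M (Ψ χ + -((R : ℂ) * e χ))
    by_cases hχ : χ ∈ principalBlock M G
    · have h1 := regSum_sub_mem hpM χ hχ
      rw [hΨv, he]
      simp only [if_pos hχ, mul_one]
      rw [hR, ← sub_eq_add_neg]
      exact h1
    · have h1 := regSum_eq_zero hpM χ hχ
      have h2 := regSum_div (p := p) χ
      rw [hΨv, h2, h1, he]
      simp only [if_neg hχ]
      rw [zero_div, mul_zero, neg_zero, add_zero]
      exact MemLocalIdeal.zero hM.ne_top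
  have hΘJ := pow_mem_specJ hM hΘS hΘv
  obtain ⟨K, hK⟩ : ∃ K, K = Fintype.card (IrrCharacter G) := ⟨_, rfl⟩
  rw [← hK] at hΘJ
  obtain ⟨o, ho⟩ : ∃ o, o = orderOf g := ⟨_, rfl⟩
  have ho0 : 0 < o := by
    rw [ho]
    exact orderOf_pos g
  have hcop : Nat.Coprime p o := by
    rw [ho]
    exact (Nat.Prime.coprime_iff_not_dvd hp).2 hg
  obtain ⟨k, hk⟩ : ∃ k, k = Nat.totient o * (K + (Nat.card G).factorization p + 1) :=
    ⟨_, rfl⟩
  have hk1 : p ^ k ≡ 1 [MOD o] := by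
    rw [hk, pow_mul]
    have h1 := Nat.ModEq.pow_totient hcop
    have h2 := h1.pow (K + (Nat.card G).factorization p + 1)
    rw [one_pow] at h2
    exact h2
  have hφ : 0 < Nat.totient o := Nat.totient_pos.2 ho0
  have hkK : K + (Nat.card G).factorization p + 1 ≤ k := by
    rw [hk]
    exact Nat.le_mul_of_pos_left _ hφ
  have hnK : K ≤ p ^ k := by
    have h1 : k < p ^ k := Nat.lt_pow_self hp.one_lt
    omega
  have hpel : ∀ x : G, (∃ j : ℕ, orderOf x = p ^ j) → x ^ (p ^ k) = 1 := by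
    rintro x ⟨j, hj⟩
    have h1 : p ^ j ∣ Nat.card G := by
      rw [← hj]
      exact orderOf_dvd_natCard x
    have h2 : j ≤ (Nat.card G).factorization p :=
      (Nat.Prime.pow_dvd_iff_le_factorization hp Nat.card_pos.ne').1 h1
    have h3 : p ^ j ∣ p ^ k := pow_dvd_pow p (by omega)
    rw [← hj] at h3
    exact orderOf_dvd_iff_pow_eq_one.1 h3
  obtain ⟨M', hM'⟩ : ∃ M', p ^ k = M' + 1 :=
    ⟨p ^ k - 1, (Nat.succ_pred_eq_of_pos (pow_pos hp.pos k)).symm⟩
  have hgpow : g ^ (p ^ k) = g := by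
    have h1 : g ^ (p ^ k) = g ^ 1 := pow_eq_pow_iff_modEq.2 (by rw [← ho]; exact hk1)
    rw [h1, pow_one]
  obtain ⟨r, hr⟩ := exists_add_pow_prime_pow_eq hp (⟨Ψ, hΨS⟩ : specRing G M hM)
    (-(⟨(fun _ => (R : ℂ)) * e, hReS⟩ : specRing G M hM)) k
  have hr' := congrArg (Subtype.val) hr
  simp only [Subring.coe_add, Subring.coe_pow, Subring.coe_mul, Subring.coe_neg,
    Subring.coe_natCast] at hr'
  have hc1 : MemLocalIdeal M (coeffT (Θ ^ (p ^ k)) g) := by
    have h1 : Θ ^ (p ^ k) = Θ ^ (p ^ k - K) * Θ ^ K := by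
      rw [← pow_add]
      congr 1
      omega
    rw [h1]
    exact mem_specJ.1 (mul_mem_specJ hM (Subring.pow_mem _ hΘS _) hΘJ) g
  have hpow_e : (-((fun _ : IrrCharacter G => (R : ℂ)) * e)) ^ (p ^ k)
      = (fun _ => (((-(R : ℤ)) ^ (p ^ k) : ℤ) : ℂ)) * e := by
    funext χ
    show (-((R : ℂ) * e χ)) ^ (p ^ k) = (((-(R : ℤ)) ^ (p ^ k) : ℤ) : ℂ) * e χ
    rw [he]
    push_cast
    by_cases hχ : χ ∈ principalBlock M G
    · simp only [if_pos hχ, mul_one]
    · simp only [if_neg hχ, mul_zero, neg_zero]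
      rw [zero_pow (pow_pos hp.pos k).ne']
  have hsum : Θ ^ (p ^ k) = Ψ ^ (p ^ k) + (fun _ => (((-(R : ℤ)) ^ (p ^ k) : ℤ) : ℂ)) * e
      + (fun _ => (p : ℂ)) * (Ψ * (-((fun _ => (R : ℂ)) * e)) * (r : IrrCharacter G → ℂ)) := by
    rw [← hpow_e, hΘ, hr']
    have e1 : ((p : ℕ) : IrrCharacter G → ℂ) = fun _ => (p : ℂ) := rfl
    rw [e1, mul_assoc, mul_assoc, mul_assoc]
  have hrS : (Ψ * (-((fun _ => (R : ℂ)) * e)) * (r : IrrCharacter G → ℂ)) ∈ specRing G M hM :=
    Subring.mul_mem _ (Subring.mul_mem _ hΨS (Subring.neg_mem _ hReS)) r.2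
  have hcoef := congrArg (fun Φ : IrrCharacter G → ℂ => coeffT Φ g) hsum
  beta_reduce at hcoef
  have hbe : coeffT e g = blockCoeff (principalBlock M G) g := by
    rw [he]
    exact (blockCoeff_eq_coeffT _ g).symm
  rw [coeffT_add, coeffT_add, coeffT_const_mul, coeffT_const_mul, hbe] at hcoef
  -- the count
  have hcount : coeffT (Ψ ^ (p ^ k)) g
      = (Fintype.card {c : Fin (M' + 1) → G // (∀ i, ¬ p ∣ orderOf (c i))
        ∧ (List.ofFn fun i => g⁻¹ * c i).prod = 1} : ℂ) := by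
    have hw := sum_words_central Ψ g⁻¹ (M' + 1) (fun z => if z = 1 then (1 : ℂ) else 0)
    have hR1 : ∑ c : G, coeffT (Ψ ^ (M' + 1)) c
        * (if g⁻¹ ^ (M' + 1) * c = 1 then (1 : ℂ) else 0) = coeffT (Ψ ^ (M' + 1)) g := by
      refine (Finset.sum_eq_single g ?_ ?_).trans ?_
      · intro c _ hc
        rw [if_neg, mul_zero]
        intro h
        apply hc
        rw [← hM', inv_pow, hgpow] at h
        exact (inv_mul_eq_one.1 h).symm
      · intro h
        exact absurd (Finset.mem_univ _) h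
      · rw [if_pos, mul_one]
        rw [← hM', inv_pow, hgpow, inv_mul_cancel]
    have hL1 : ∑ c : Fin (M' + 1) → G, (∏ i, coeffT Ψ (c i))
        * (if (List.ofFn fun i => g⁻¹ * c i).prod = 1 then (1 : ℂ) else 0)
        = (Fintype.card {c : Fin (M' + 1) → G // (∀ i, ¬ p ∣ orderOf (c i))
          ∧ (List.ofFn fun i => g⁻¹ * c i).prod = 1} : ℂ) := by
      rw [Fintype.card_subtype, ← Finset.sum_boole]
      refine Finset.sum_congr rfl fun c _ => ?_
      by_cases h1 : ∀ i, ¬ p ∣ orderOf (c i)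
      · have h2 : ∏ i, coeffT Ψ (c i) = 1 := by
          apply Finset.prod_eq_one
          intro i _
          rw [hΨc, if_neg (h1 i)]
        rw [h2, one_mul]
        by_cases h3 : (List.ofFn fun i => g⁻¹ * c i).prod = 1
        · rw [if_pos h3, if_pos ⟨h1, h3⟩]
        · rw [if_neg h3, if_neg (fun h => h3 h.2)]
      · have h2 : ∏ i, coeffT Ψ (c i) = 0 := by
          push Not at h1
          obtain ⟨i, hi⟩ := h1
          apply Finset.prod_eq_zero (Finset.mem_univ i)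
          rw [hΨc, if_pos hi]
        rw [h2, zero_mul, if_neg (fun h => h1 h.1)]
    rw [hM', ← hR1, ← hw, hL1]
  have hcnt := regular_words_count p g k M' hM' hpel
  rw [← hNn] at hcnt
  have hJ1 := memLocalIdeal_natCast_sub_of_modEq hpM hcnt
  rw [← hcount] at hJ1
  have hfer : (p : ℤ) ∣ (-(R : ℤ)) ^ (p ^ k) + (R : ℤ) := by
    rw [← ZMod.intCast_zmod_eq_zero_iff_dvd]
    push_cast
    rw [ZMod.pow_card_pow]
    ring
  have hbc := blockCoeff_memLocalRing hM hB g
  have hJ2 := MemLocalIdeal.mul_right hM (memLocalIdeal_intCast_of_dvd hpM hfer) hbc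
  have hJ3 : MemLocalIdeal M ((p : ℂ) * coeffT (Ψ * (-((fun _ => (R : ℂ)) * e))
      * (r : IrrCharacter G → ℂ)) g) :=
    MemLocalIdeal.mul_right hM ((memLocalIdeal_natCast_iff hpM p).2 dvd_rfl)
      (mem_specRing.1 hrS g)
  rw [hcoef] at hc1
  have hJ4 : MemLocalIdeal M ((Nn : ℂ) - (R : ℂ) * blockCoeff (principalBlock M G) g) := by
    have h1 := MemLocalIdeal.sub hM (MemLocalIdeal.sub hM (MemLocalIdeal.sub hM hc1 hJ1) hJ2) hJ3
    have e2 : coeffT (Ψ ^ p ^ k) g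
          + (((-(R : ℤ)) ^ (p ^ k) : ℤ) : ℂ) * blockCoeff (principalBlock M G) g
          + (p : ℂ) * coeffT (Ψ * (-((fun _ => (R : ℂ)) * e)) * (r : IrrCharacter G → ℂ)) g
          - (coeffT (Ψ ^ p ^ k) g - (Nn : ℂ))
          - ((((-(R : ℤ)) ^ (p ^ k) + (R : ℤ) : ℤ) : ℂ)) * blockCoeff (principalBlock M G) g
          - (p : ℂ) * coeffT (Ψ * (-((fun _ => (R : ℂ)) * e)) * (r : IrrCharacter G → ℂ)) g
        = (Nn : ℂ) - (R : ℂ) * blockCoeff (principalBlock M G) g := by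
      push_cast
      ring
    rw [e2] at h1
    exact h1
  have hRinv := MemLocalRing.inv (memLocalRing_natCast hM.ne_top R) hRu
  have hR0 : (R : ℂ) ≠ 0 := ne_zero_of_not_memLocalIdeal hM.ne_top hRu
  have e3 : blockCoeff (principalBlock M G) g - (Nn : ℂ) / (R : ℂ)
      = -(((Nn : ℂ) - (R : ℂ) * blockCoeff (principalBlock M G) g) * (R : ℂ)⁻¹) := by
    field_simp
    ring
  rw [e3]
  exact MemLocalIdeal.neg (MemLocalIdeal.mul_right hM hJ4 hRinv)

end

end Cfsg.Agent.Helper25
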