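import Cfsg.Agent.Helper6.BrauerFeit
import Cfsg.Agent.Helper25.BlockPPrime
import Cfsg.Agent.Helper25.Bessel
import Cfsg.Agent.Helper2.CharCount
import Cfsg.Agent.Helper25.BlockBase
import Mathlib

/-!
Landau's theorem (the order of a finite group is bounded in terms of its class number),
via a bound on the denominators of unit fractions with a prescribed sum, and the
consequence for groups with a single p-block.
-/

set_option autoImplicit false
universe u

namespace Cfsg.Agent.Helper25

open Cfsg

/-- Unit fractions: if `k` unit fractions `1 / f i` sum to a positive rational `c / D`,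
then all the `f i` are bounded in terms of `k` and `D`. -/
theorem unit_frac_bound (k : ℕ) : ∀ D : ℕ, ∃ N : ℕ, ∀ (ι : Type u) (t : Finset ι) (f : ι → ℕ),
    t.card = k → (∀ i ∈ t, 0 < f i) → ∀ c : ℕ, 0 < c →
    (∑ i ∈ t, (1 : ℚ) / (f i : ℚ) = (c : ℚ) / (D : ℚ)) → ∀ i ∈ t, f i ≤ N := by
  induction k with
  | zero =>
    intro D
    refine ⟨0, ?_⟩
    intro ι t f ht _ c _ _ i hi
    rw [Finset.card_eq_zero] at ht
    rw [ht] at hi
    exact absurd hi (Finset.notMem_empty i)
  | succ k ih =>
    intro D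
    choose N' hN' using ih
    refine ⟨(k + 1) * D + ∑ m ∈ Finset.range ((k + 1) * D + 1), N' (D * m), ?_⟩
    intro ι t f ht hpos c hc hsum i hi
    classical
    have hne : t.Nonempty := by
      rw [← Finset.card_pos, ht]; exact Nat.succ_pos k
    have hsumpos : (0 : ℚ) < ∑ i ∈ t, (1 : ℚ) / (f i : ℚ) := by
      apply Finset.sum_pos _ hne
      intro j hj
      have hfj0 : (0 : ℚ) < (f j : ℚ) := by exact_mod_cast hpos j hj
      positivity
    have hD : 0 < D := by
      rcases Nat.eq_zero_or_pos D with h0 | h0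
      · rw [hsum, h0] at hsumpos
        simp at hsumpos
      · exact h0
    have hDq : (0 : ℚ) < (D : ℚ) := by exact_mod_cast hD
    have hex : ∃ j ∈ t, f j ≤ (k + 1) * D := by
      by_contra hcon
      push_neg at hcon
      have hle : ∑ i ∈ t, (1 : ℚ) / (f i : ℚ)
          ≤ ∑ _i ∈ t, (1 : ℚ) / (((k + 1) * D + 1 : ℕ) : ℚ) := by
        apply Finset.sum_le_sum
        intro j hj
        have h1 : (k + 1) * D + 1 ≤ f j := hcon j hj
        have h2 : (((k + 1) * D + 1 : ℕ) : ℚ) ≤ (f j : ℚ) := by exact_mod_cast h1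
        have h3 : (0 : ℚ) < (((k + 1) * D + 1 : ℕ) : ℚ) := by positivity
        exact one_div_le_one_div_of_le h3 h2
      rw [Finset.sum_const, ht, hsum, nsmul_eq_mul] at hle
      have hc1 : (1 : ℚ) ≤ (c : ℚ) := by exact_mod_cast hc
      have h4 : (1 : ℚ) / (D : ℚ) ≤ (c : ℚ) / (D : ℚ) := by
        rw [div_le_div_iff₀ hDq hDq]
        nlinarith
      have h5 : ((k + 1 : ℕ) : ℚ) * ((1 : ℚ) / (((k + 1) * D + 1 : ℕ) : ℚ)) < (1 : ℚ) / (D : ℚ) := by
        rw [mul_one_div, div_lt_div_iff₀ (by positivity) hDq, one_mul]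
        push_cast
        linarith
      linarith
    obtain ⟨j, hj, hjle⟩ := hex
    by_cases hij : i = j
    · rw [hij]
      exact le_trans hjle (Nat.le_add_right _ _)
    · have hi' : i ∈ t.erase j := Finset.mem_erase.mpr ⟨hij, hi⟩
      have hfj : (0 : ℚ) < (f j : ℚ) := by exact_mod_cast hpos j hj
      have hsplit : (1 : ℚ) / (f j : ℚ) + ∑ i ∈ t.erase j, (1 : ℚ) / (f i : ℚ)
          = (c : ℚ) / (D : ℚ) :=
        (Finset.add_sum_erase t (fun i => (1 : ℚ) / (f i : ℚ)) hj).trans hsum
      have hpos' : (0 : ℚ) < ∑ i ∈ t.erase j, (1 : ℚ) / (f i : ℚ) := by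
        apply Finset.sum_pos _ ⟨i, hi'⟩
        intro l hl
        have hfl0 : (0 : ℚ) < (f l : ℚ) := by
          exact_mod_cast hpos l (Finset.mem_of_mem_erase hl)
        positivity
      have hlt : D < c * f j := by
        by_contra hcon
        push_neg at hcon
        have hcq : ((c * f j : ℕ) : ℚ) ≤ ((D : ℕ) : ℚ) := by exact_mod_cast hcon
        rw [Nat.cast_mul] at hcq
        have hdiv : (c : ℚ) / (D : ℚ) ≤ (1 : ℚ) / (f j : ℚ) := by
          rw [div_le_div_iff₀ hDq hfj, one_mul]
          exact hcq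
        linarith
      have hcard : (t.erase j).card = k := by
        rw [Finset.card_erase_of_mem hj, ht, Nat.add_sub_cancel]
      have hsum' : ∑ i ∈ t.erase j, (1 : ℚ) / (f i : ℚ)
          = ((c * f j - D : ℕ) : ℚ) / ((D * f j : ℕ) : ℚ) := by
        have h6 : ∑ i ∈ t.erase j, (1 : ℚ) / (f i : ℚ)
            = (c : ℚ) / (D : ℚ) - (1 : ℚ) / (f j : ℚ) := by linarith
        rw [h6, Nat.cast_sub hlt.le, Nat.cast_mul, Nat.cast_mul,
          div_sub_div _ _ hDq.ne' hfj.ne', mul_one]
      have hres := hN' (D * f j) ι (t.erase j) f hcard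
        (fun l hl => hpos l (Finset.mem_of_mem_erase hl)) (c * f j - D)
        (Nat.sub_pos_of_lt hlt) hsum' i hi'
      have hmem : f j ∈ Finset.range ((k + 1) * D + 1) :=
        Finset.mem_range.mpr (Nat.lt_succ_of_le hjle)
      have hsingle : N' (D * f j) ≤ ∑ m ∈ Finset.range ((k + 1) * D + 1), N' (D * m) :=
        Finset.single_le_sum (f := fun m => N' (D * m)) (fun _ _ => Nat.zero_le _) hmem
      exact le_trans hres (le_trans hsingle (Nat.le_add_left _ _))

/-- Landau: the order of a finite group is bounded in terms of its class number. -/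
theorem landau_bound (k : ℕ) : ∃ N : ℕ, ∀ (G : Type u) [Group G] [Finite G],
    Nat.card (ConjClasses G) = k → Nat.card G ≤ N := by
  obtain ⟨N, hN⟩ := unit_frac_bound.{u} k 1
  refine ⟨N, ?_⟩
  intro G _ _ hk
  classical
  have : Fintype (ConjClasses G) := Fintype.ofFinite _
  have hG : 0 < Nat.card G := Nat.card_pos
  obtain ⟨f, hf, hf1⟩ : ∃ f : ConjClasses G → ℕ,
      (∀ c, f c * c.carrier.ncard = Nat.card G) ∧ f (ConjClasses.mk 1) = Nat.card G := by
    refine ⟨fun c => Nat.card G / c.carrier.ncard, ?_, ?_⟩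
    · intro c
      obtain ⟨g, rfl⟩ := ConjClasses.mk_surjective c
      exact Nat.div_mul_cancel (Dvd.intro_left _ (card_centralizer_mul_card_class g))
    · have hc1 : (ConjClasses.mk (1 : G)).carrier = {1} := by
        ext x
        rw [ConjClasses.mem_carrier_iff_mk_eq, ConjClasses.mk_eq_mk_iff_isConj,
          isConj_one_left, Set.mem_singleton_iff]
      show Nat.card G / (ConjClasses.mk (1 : G)).carrier.ncard = Nat.card G
      rw [hc1, Set.ncard_singleton, Nat.div_one]
  have hfpos : ∀ c, 0 < f c := by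
    intro c
    rcases Nat.eq_zero_or_pos (f c) with h0 | h0
    · have := hf c
      rw [h0, zero_mul] at this
      omega
    · exact h0
  have h4 : (0 : ℚ) < (Nat.card G : ℚ) := by exact_mod_cast hG
  have hsum : ∑ c : ConjClasses G, (1 : ℚ) / (f c : ℚ) = ((1 : ℕ) : ℚ) / ((1 : ℕ) : ℚ) := by
    have h1 : ∀ c : ConjClasses G,
        (1 : ℚ) / (f c : ℚ) = (c.carrier.ncard : ℚ) / (Nat.card G : ℚ) := by
      intro c
      have h2 : ((f c : ℕ) : ℚ) * (c.carrier.ncard : ℚ) = (Nat.card G : ℚ) := by
        exact_mod_cast hf c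
      have h3 : (0 : ℚ) < (f c : ℚ) := by exact_mod_cast hfpos c
      rw [div_eq_div_iff h3.ne' h4.ne', one_mul, ← h2, mul_comm]
    have h5 : ∑ c : ConjClasses G, c.carrier.ncard = Nat.card G := by
      rw [← finsum_eq_sum_of_fintype]
      exact Group.sum_card_conj_classes_eq_card G
    rw [Finset.sum_congr rfl (fun c _ => h1 c), ← Finset.sum_div, ← Nat.cast_sum, h5,
      div_self h4.ne', Nat.cast_one, div_one]
  have hres := hN (ConjClasses G) Finset.univ f
    (by rw [Finset.card_univ, ← Nat.card_eq_fintype_card]; exact hk)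
    (fun c _ => hfpos c) 1 Nat.one_pos hsum (ConjClasses.mk 1) (Finset.mem_univ _)
  rw [← hf1]
  exact hres

/-- Groups with a single `p`-block and Sylow `p`-subgroups of order `p ^ a` have bounded
order. -/
theorem single_block_bound (p : ℕ) [Fact p.Prime] (a : ℕ) : ∃ N : ℕ,
    ∀ (G : Type u) [Group G] [Finite G] (M : Ideal AlgInt), IsPModular p M →
      (Nat.card G).factorization p = a →
      (∀ B : Set (IrrCharacter G), IsPBlock M B → B = principalBlock M G) →
      Nat.card G ≤ N := by
  choose N hN using landau_bound.{u}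
  refine ⟨∑ k ∈ Finset.range (p ^ (2 * a) + 2), N k, ?_⟩
  intro G _ _ M hM ha hB
  classical
  have : Fintype G := Fintype.ofFinite G
  have hk : Nat.card (ConjClasses G) < p ^ (2 * a) + 2 := by
    rw [← Helper2.card_irrCharacter]
    have huniv : principalBlock M G = Set.univ := by
      ext χ
      simp only [Set.mem_univ, iff_true]
      have h1 := hB (blockOf M (χ : G → ℂ)) ⟨χ, rfl⟩
      rw [← h1]
      exact mem_blockOf_self hM.2.1.ne_top χ
    have hP : IsPBlock M (principalBlock M G) := by
      rw [← hB _ ⟨oneIrr G, rfl⟩]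
      exact ⟨oneIrr G, rfl⟩
    have h4 := Helper6.bf_main hM (principalBlock M G) hP
    have hd : blockDefect p (principalBlock M G) ≤ a := by
      rw [← ha]
      exact Nat.sub_le _ _
    have hcard : Nat.card (principalBlock M G) = Nat.card (IrrCharacter G) := by
      rw [huniv]
      exact Nat.card_congr (Equiv.Set.univ _)
    have hpow : p ^ (2 * blockDefect p (principalBlock M G)) ≤ p ^ (2 * a) :=
      Nat.pow_le_pow_right (Fact.out : p.Prime).pos (by omega)
    rw [hcard] at h4
    omega
  calc Nat.card G ≤ N (Nat.card (ConjClasses G)) := hN _ G rfl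
    _ ≤ ∑ k ∈ Finset.range (p ^ (2 * a) + 2), N k :=
        Finset.single_le_sum (f := N) (fun _ _ => Nat.zero_le _) (Finset.mem_range.mpr hk)

end Cfsg.Agent.Helper25
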