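import Cfsg.Agent.Helper25.BlockSection
import Cfsg.Agent.Helper25.SectionSum
import Cfsg.Agent.Helper25.GaloisConj2
import Cfsg.Agent.Helper25.DefectConj
import Cfsg.Agent.Helper24.CharValues

set_option autoImplicit false
set_option linter.unusedSectionVars false

/-!
# Intersections of `p`-blocks and `q`-blocks in groups without elements of order `pq` (helper25)
-/

namespace Cfsg.Agent.Helper25

open Cfsg
open scoped ComplexConjugate

section

variable {G : Type*} [Group G] [Fintype G]

theorem pq_local (p q : ℕ) [Fact p.Prime] [Fact q.Prime] (hpq : p ≠ q) (Mp Mq : Ideal AlgInt)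
    (hMp : IsPModular p Mp) (hMq : IsPModular q Mq) (hno : ∀ g : G, orderOf g ≠ p * q)
    (Bp : Set (IrrCharacter G)) (hBp : IsPBlock Mp Bp) (Bq : Set (IrrCharacter G))
    (hBq : IsPBlock Mq Bq) (y : G) (hy : p ∣ orderOf y) :
    MemLocalRing Mq ((∑ᶠ χ ∈ Bp ∩ Bq, (charDegree (χ : G → ℂ) : ℂ) * (χ : G → ℂ) y)
      / (q : ℂ) ^ (Nat.card G).factorization q) := by
  classical
  have := Helper24.finite_irrCharacter (G := G)
  have : Fintype (IrrCharacter G) := Fintype.ofFinite _
  have hpp : p.Prime := Fact.out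
  have hqq : q.Prime := Fact.out
  have hMqp := hMq.2.1.isPrime
  obtain ⟨z, w, hzw, hcomm, hz, hw⟩ := exists_isPPart p y
  have hz1 : z ≠ 1 := by
    rintro rfl
    rw [one_mul] at hzw
    exact hw (hzw ▸ hy)
  have : Fintype (Subgroup.centralizer ({z} : Set G)) := Fintype.ofFinite _
  have := Helper24.finite_irrCharacter (G := Subgroup.centralizer ({z} : Set G))
  have : Fintype (IrrCharacter (Subgroup.centralizer ({z} : Set G))) := Fintype.ofFinite _
  have hqC : ¬ q ∣ Nat.card (Subgroup.centralizer ({z} : Set G)) := by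
    intro hq
    obtain ⟨t, ht⟩ := exists_prime_orderOf_dvd_card' q hq
    obtain ⟨k, hk⟩ := hz
    have hk0 : k ≠ 0 := by
      rintro rfl
      rw [pow_zero, orderOf_eq_one_iff] at hk
      exact hz1 hk
    have hpz : p ∣ orderOf z := hk ▸ dvd_pow_self p hk0
    have hz0 : orderOf (z ^ (orderOf z / p)) = p :=
      orderOf_pow_orderOf_div (orderOf_pos z).ne' hpz
    have htc : Commute (z ^ (orderOf z / p)) (t : G) := by
      have h1 := Subgroup.mem_centralizer_iff.mp t.2 z (Set.mem_singleton z)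
      exact (show Commute z (t : G) from h1).pow_left _
    have hord : orderOf (z ^ (orderOf z / p) * (t : G)) = p * q := by
      rw [htc.orderOf_mul_eq_mul_orderOf_of_coprime
        (by rw [hz0, Subgroup.orderOf_coe, ht]; exact (Nat.coprime_primes hpp hqq).mpr hpq),
        hz0, Subgroup.orderOf_coe, ht]
    exact hno _ hord
  obtain ⟨ϑ, hϑdef⟩ : ∃ ϑ : G → ℂ, ϑ = fun g => ∑ χ : IrrCharacter G,
      (if χ ∈ Bq then (charDegree (χ : G → ℂ) : ℂ) else 0) * (χ : G → ℂ) g := ⟨_, rfl⟩
  have hϑcl : IsClassFunction G ϑ := by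
    intro g x
    rw [hϑdef]
    simp only []
    refine Finset.sum_congr rfl fun χ _ => ?_
    rw [(Helper2.IsIrrCharacter.isClassFunction χ.2) g x]
  have hinner : ∀ χ₀ : IrrCharacter G, classInner ϑ (χ₀ : G → ℂ)
      = if χ₀ ∈ Bq then (charDegree (χ₀ : G → ℂ) : ℂ) else 0 := by
    intro χ₀
    unfold classInner
    rw [hϑdef]
    simp only [Finset.sum_mul]
    rw [Finset.sum_comm]
    simp only [mul_assoc, ← Finset.mul_sum, row_orth]
    rw [Finset.sum_eq_single χ₀]
    · rw [if_pos rfl, ← mul_assoc, mul_comm, ← mul_assoc,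
        mul_inv_cancel₀ (card_ne_zero_complex (G := G)), one_mul]
    · intro χ _ hne
      rw [if_neg hne, mul_zero]
    · intro h
      exact absurd (Finset.mem_univ _) h
  have hϑval : ∀ g : G, ϑ g = (Nat.card G : ℂ) * blockCoeff Bq g⁻¹ := by
    intro g
    rw [hϑdef]
    unfold blockCoeff
    rw [finsum_mem_eq_sum_ite, ← mul_assoc, mul_inv_cancel₀ (card_ne_zero_complex (G := G)),
      one_mul]
    refine Finset.sum_congr rfl fun χ _ => ?_
    rw [char_conj_eq_inv, inv_inv, Helper24.charDegree_spec (Helper24.isCharacter_of_irr χ.2)]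
    split_ifs <;> simp
  have hϑloc : ∀ g : G, MemLocalRing Mq (ϑ g / (q : ℂ) ^ (Nat.card G).factorization q) := by
    intro g
    rw [hϑval, mul_div_right_comm]
    refine MemLocalRing.mul hMqp ?_ (blockCoeff_memLocalRing hMqp hBq _)
    have h1 := natCast_div_memLocalRing hMq (a := Nat.card G)
      (b := q ^ (Nat.card G).factorization q) (pow_ne_zero _ hqq.ne_zero)
      (by simp [Nat.factorization_pow, hqq.factorization_self])
    simpa using h1
  have hwC : w ∈ Subgroup.centralizer ({z} : Set G) := by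
    rw [Subgroup.mem_centralizer_iff]
    intro h hh
    rw [Set.mem_singleton_iff] at hh
    rw [hh]
    exact hcomm.eq
  have hw' : ¬ p ∣ orderOf (⟨w, hwC⟩ : Subgroup.centralizer ({z} : Set G)) := by
    rwa [Subgroup.orderOf_mk]
  have hform := block_part_formula hMp z hz ϑ hϑcl Bp hBp
    {ψ | IsInducedBlock Mp (Subgroup.centralizer ({z} : Set G))
      (blockOf Mp (ψ : Subgroup.centralizer ({z} : Set G) → ℂ)) Bp} (fun ψ => Iff.rfl)
    ⟨w, hwC⟩ hw'
  have hLHS : ∑ᶠ χ ∈ Bp ∩ Bq, (charDegree (χ : G → ℂ) : ℂ) * (χ : G → ℂ) y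
      = ∑ᶠ χ ∈ Bp, classInner ϑ (χ : G → ℂ) * (χ : G → ℂ) (z * w) := by
    rw [finsum_mem_eq_sum_ite, finsum_mem_eq_sum_ite, hzw]
    refine Finset.sum_congr rfl fun χ _ => ?_
    rw [hinner]
    by_cases h1 : χ ∈ Bp <;> by_cases h2 : χ ∈ Bq <;> simp [h1, h2, Set.mem_inter_iff]
  rw [hLHS, hform, mul_div_assoc, Finset.sum_div]
  refine MemLocalRing.mul hMqp ?_ (memLocalRing_sum hMqp _ _ fun c _ => ?_)
  · have h1 := natCast_div_memLocalRing hMq (a := 1)
      (b := Nat.card (Subgroup.centralizer ({z} : Set G))) Nat.card_pos.ne'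
      (by rw [Nat.factorization_eq_zero_of_not_dvd hqC]; exact Nat.zero_le _)
    simpa [one_div] using h1
  · rw [mul_div_right_comm]
    refine MemLocalRing.mul hMqp (hϑloc _) ?_
    apply memLocalRing_of_isIntegral hMqp.ne_top
    rw [finsum_mem_eq_sum_ite]
    refine IsIntegral.sum _ fun ψ _ => ?_
    split_ifs
    · rw [char_conj_eq_inv]
      exact (Helper2.IsCharacter.isIntegral (Helper24.isCharacter_of_irr ψ.2) _).mul
        (Helper2.IsCharacter.isIntegral (Helper24.isCharacter_of_irr ψ.2) _)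
    · exact isIntegral_zero

end

end Cfsg.Agent.Helper25
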