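import Mathlib
import Cfsg.Prelude.Def_RootSubgroups
import Cfsg.Agent.Helper25.RankOne

set_option autoImplicit false

namespace Cfsg.Agent.Helper25

open Cfsg

variable {G : Type*} [Group G] {A B : Subgroup G}

/-- A subgroup normalised by `A ⊔ B` whose elements normalise `A` and `B` commutes with `A ⊔ B`. -/
theorem rankOne_central_of_normalizes (h : IsRankOnePair A B) {N : Subgroup G}
    (hN : ∀ n ∈ N, ∀ x ∈ A ⊔ B, x * n * x⁻¹ ∈ N)
    (hA : ∀ n ∈ N, conjBy A n = A) (hB : ∀ n ∈ N, conjBy B n = B) :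
    ∀ n ∈ N, ∀ x ∈ A ⊔ B, n * x = x * n := by
  intro n hn x hx
  refine sup_induction' (p := fun x => n * x = x * n) ?_ ?_ ?_ hx
  · intro a ha
    have hk1 : n * a * n⁻¹ * a⁻¹ ∈ A := by
      have : n * a * n⁻¹ ∈ conjBy A n := conj_mem_conjBy ha
      rw [hA n hn] at this
      exact A.mul_mem this (A.inv_mem ha)
    have hk2 : n * a * n⁻¹ * a⁻¹ ∈ N := by
      have := N.mul_mem hn (hN n⁻¹ (N.inv_mem hn) a (Subgroup.mem_sup_left ha))
      simpa [mul_assoc] using this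
    have hk := rankOne_eq_one_of_conjBy_eq h hk1 (hB _ hk2)
    have : n * a = (n * a * n⁻¹ * a⁻¹) * (a * n) := by group
    rw [this, hk, one_mul]
  · intro b hb
    have hk1 : n * b * n⁻¹ * b⁻¹ ∈ B := by
      have : n * b * n⁻¹ ∈ conjBy B n := conj_mem_conjBy hb
      rw [hB n hn] at this
      exact B.mul_mem this (B.inv_mem hb)
    have hk2 : n * b * n⁻¹ * b⁻¹ ∈ N := by
      have := N.mul_mem hn (hN n⁻¹ (N.inv_mem hn) b (Subgroup.mem_sup_right hb))
      simpa [mul_assoc] using this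
    have hk := rankOne_eq_one_of_conjBy_eq (RankOnePair_symm h) hk1 (hA _ hk2)
    have : n * b = (n * b * n⁻¹ * b⁻¹) * (b * n) := by group
    rw [this, hk, one_mul]
  · intro x y hx hy
    rw [← mul_assoc, hx, mul_assoc, hy, mul_assoc]

/-- If a subgroup `N` normalised by `A ⊔ B` normalises `A`, it normalises every unipotent subgroup. -/
theorem rankOne_normalizes_unipotent {N : Subgroup G}
    (hN : ∀ n ∈ N, ∀ x ∈ A ⊔ B, x * n * x⁻¹ ∈ N)
    (hA : ∀ n ∈ N, conjBy A n = A) {C : Subgroup G} (hC : C ∈ unipotentSubgroups A B) :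
    ∀ n ∈ N, conjBy C n = C := by
  intro n hn
  obtain ⟨x, hx, rfl⟩ := hC
  have h1 : x⁻¹ * n * x ∈ N := by
    have := hN n hn x⁻¹ (inv_mem hx)
    simpa using this
  have h2 : n * x = x * (x⁻¹ * n * x) := by group
  rw [conjBy_conjBy, h2, ← conjBy_conjBy, hA _ h1]

/-- A normal subgroup of `A ⊔ B`-type either moves `A` (and then `B ≤ N ⊔ A`) or normalises `A`. -/
theorem rankOne_le_sup_of_moves (h : IsRankOnePair A B) {N : Subgroup G}
    (hN : ∀ n ∈ N, ∀ x ∈ A ⊔ B, x * n * x⁻¹ ∈ N) (hNle : N ≤ A ⊔ B)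
    {n : G} (hn : n ∈ N) (hne : conjBy A n ≠ A) : B ≤ N ⊔ A := by
  have hD : conjBy A n ∈ unipotentSubgroups A B := ⟨n, hNle hn, rfl⟩
  obtain ⟨a, ⟨ha, haB⟩, _⟩ := rankOne_regular h hD (rankOne_right_mem_unipotent h) hne h.ne.symm
  have hm : a * n * a⁻¹ ∈ N := hN n hn a (Subgroup.mem_sup_left ha)
  have hB : B = conjBy A (a * n * a⁻¹) := by
    rw [← haB, conjBy_conjBy]
    have : a * n * a⁻¹ = (a * n) * a⁻¹ := by group
    rw [this, ← conjBy_conjBy A (a * n) a⁻¹, conjBy_of_mem (A.inv_mem ha)]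
  intro x hx
  rw [hB, mem_conjBy] at hx
  have h1 : x = (a * n * a⁻¹) * ((a * n * a⁻¹)⁻¹ * x * (a * n * a⁻¹)) * (a * n * a⁻¹)⁻¹ := by group
  rw [h1]
  exact mul_mem (mul_mem (Subgroup.mem_sup_left hm) (Subgroup.mem_sup_right hx))
    (inv_mem (Subgroup.mem_sup_left hm))

end Cfsg.Agent.Helper25
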