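import Cfsg.Agent.Helper25.Necklace
import Mathlib.GroupTheory.Perm.Cycle.Type

set_option autoImplicit false
set_option linter.unusedSectionVars false

/-!
# Counting words of `p`-regular elements (helper25)
-/

namespace Cfsg.Agent.Helper25

open Cfsg

section

variable {G : Type*} [Group G] [Fintype G]

theorem rotT_id_apply {α : Type*} {M : ℕ} (w : Fin (M + 1) → α) (i : Fin (M + 1)) :
    ∃ j : Fin (M + 1), rotT id w i = w j := by
  refine ⟨⟨(i.val + 1) % (M + 1), Nat.mod_lt _ (Nat.succ_pos M)⟩, ?_⟩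
  show extT id w (i.val + 1) = _
  unfold extT
  rw [Function.iterate_id]
  rfl

theorem const_of_rotT_id {α : Type*} {M : ℕ} (w : Fin (M + 1) → α) (h : rotT id w = w)
    (i : Fin (M + 1)) : w i = w 0 := by
  have h1 : ∀ j : ℕ, extT id w j = extT id w 0 := by
    intro j
    induction j with
    | zero => rfl
    | succ j ih =>
      have h2 := extT_rotT id w j
      rw [h] at h2
      rw [← h2, ih]
  have h3 := extT_val id w i
  have h4 := extT_val id w 0
  rw [← h3, h1, ← h4]
  rfl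

theorem rotT_id_const {α : Type*} {M : ℕ} (y : α) :
    rotT id (fun _ : Fin (M + 1) => y) = fun _ => y := by
  funext i
  obtain ⟨j, hj⟩ := rotT_id_apply (fun _ : Fin (M + 1) => y) i
  rw [hj]

theorem orderOf_inv_mul_eq (g y : G) : orderOf (g * y⁻¹) = orderOf (g⁻¹ * y) := by
  have e : g * y⁻¹ = g * (g⁻¹ * y)⁻¹ * g⁻¹ := by group
  rw [e]
  have h2 := orderOf_injective (MulAut.conj g).toMonoidHom (MulAut.conj g).injective
    ((g⁻¹ * y)⁻¹)
  rw [orderOf_inv] at h2
  rw [← h2]
  rfl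

theorem orderOf_inv_mul_of_mul_eq {x y g : G} (h : x * y = g) :
    orderOf (g⁻¹ * y) = orderOf x := by
  subst h
  have e : (x * y)⁻¹ * y = y⁻¹ * x⁻¹ * y⁻¹⁻¹ := by group
  rw [e]
  have h2 := orderOf_injective (MulAut.conj y⁻¹).toMonoidHom (MulAut.conj y⁻¹).injective x⁻¹
  rw [orderOf_inv] at h2
  rw [← h2]
  rfl

/-- The number of words of `p`-regular elements of length `p ^ k` with twisted product one is
congruent to the number of factorizations of `g` into a `p`-element and a `p`-regular element. -/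
theorem regular_words_count (p : ℕ) [Fact p.Prime] (g : G) (k M' : ℕ) (hN : p ^ k = M' + 1)
    (hk : ∀ x : G, (∃ j : ℕ, orderOf x = p ^ j) → x ^ (p ^ k) = 1)
    [Fintype {c : Fin (M' + 1) → G // (∀ i, ¬ p ∣ orderOf (c i))
      ∧ (List.ofFn fun i => g⁻¹ * c i).prod = 1}] :
    Fintype.card {c : Fin (M' + 1) → G // (∀ i, ¬ p ∣ orderOf (c i))
      ∧ (List.ofFn fun i => g⁻¹ * c i).prod = 1}
      ≡ Nat.card {xy : G × G // (∃ j : ℕ, orderOf xy.1 = p ^ j) ∧ ¬ p ∣ orderOf xy.2
        ∧ xy.1 * xy.2 = g} [MOD p] := by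
  classical
  have hp := (Fact.out : p.Prime)
  have hrot : ∀ c : Fin (M' + 1) → G, ((∀ i, ¬ p ∣ orderOf (c i))
      ∧ (List.ofFn fun i => g⁻¹ * c i).prod = 1) →
      ((∀ i, ¬ p ∣ orderOf (rotT id c i))
        ∧ (List.ofFn fun i => g⁻¹ * rotT id c i).prod = 1) := by
    rintro c ⟨h1, h2⟩
    constructor
    · intro i
      obtain ⟨j, hj⟩ := rotT_id_apply c i
      rw [hj]
      exact h1 j
    · have h3 := value_rotT (id : G → G) (1 : G) (fun u => g⁻¹ * u) (fun u => by simp) c
      rw [h2] at h3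
      simpa using h3
  obtain ⟨f, hfdef⟩ : ∃ f : Function.End {c : Fin (M' + 1) → G // (∀ i, ¬ p ∣ orderOf (c i))
      ∧ (List.ofFn fun i => g⁻¹ * c i).prod = 1},
      ∀ c, (f c).1 = rotT id c.1 :=
    ⟨fun c => ⟨rotT id c.1, hrot c.1 c.2⟩, fun c => rfl⟩
  have hiter : ∀ (n : ℕ) (c : {c : Fin (M' + 1) → G // (∀ i, ¬ p ∣ orderOf (c i))
      ∧ (List.ofFn fun i => g⁻¹ * c i).prod = 1}), ((f ^ n) c).1 = (rotT id)^[n] c.1 := by
    intro n
    induction n with
    | zero =>
      intro c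
      rfl
    | succ n ih =>
      intro c
      rw [pow_succ, Function.iterate_succ_apply]
      show ((f ^ n) (f c)).1 = _
      rw [ih (f c), hfdef c]
  have hf : f ^ p ^ k = 1 := by
    funext c
    apply Subtype.ext
    rw [hiter, hN, rotT_iter_period]
    rfl
  have hcard := Equiv.Perm.card_fixedPoints_modEq (f := f) (p := p) (n := k) hf
  refine hcard.trans ?_
  rw [Fintype.card_eq_nat_card]
  have hfix : ∀ c : {c : Fin (M' + 1) → G // (∀ i, ¬ p ∣ orderOf (c i))
      ∧ (List.ofFn fun i => g⁻¹ * c i).prod = 1}, f c = c → ∀ i, c.1 i = c.1 0 := by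
    intro c hc i
    have h1 : rotT id c.1 = c.1 := by
      rw [← hfdef c, hc]
    exact const_of_rotT_id c.1 h1 i
  have hconstprod : ∀ y : G, (List.ofFn fun _ : Fin (M' + 1) => g⁻¹ * y).prod
      = (g⁻¹ * y) ^ (M' + 1) := by
    intro y
    rw [List.ofFn_const, List.prod_replicate]
  have e : ↥(Function.fixedPoints f) ≃ {xy : G × G // (∃ j : ℕ, orderOf xy.1 = p ^ j)
      ∧ ¬ p ∣ orderOf xy.2 ∧ xy.1 * xy.2 = g} :=
    { toFun := fun c => ⟨(g * (c.1.1 0)⁻¹, c.1.1 0), by
        have hc := hfix c.1 c.2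
        have h1 : c.1.1 = fun _ => c.1.1 0 := funext hc
        have h2 := c.1.2.2
        rw [h1, hconstprod] at h2
        have h2' : (g⁻¹ * c.1.1 0) ^ (p ^ k) = 1 := by
          rw [hN]
          exact h2
        refine ⟨?_, c.1.2.1 0, by simp⟩
        have h3 : orderOf (g⁻¹ * c.1.1 0) ∣ p ^ k := orderOf_dvd_of_pow_eq_one h2'
        obtain ⟨j, _, hj⟩ := (Nat.dvd_prime_pow hp).1 h3
        exact ⟨j, by rw [orderOf_inv_mul_eq]; exact hj⟩⟩
      invFun := fun xy => ⟨⟨fun _ => xy.1.2, by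
        obtain ⟨⟨j, hj⟩, hy, hxy⟩ := xy.2
        refine ⟨fun _ => hy, ?_⟩
        rw [hconstprod, ← hN]
        apply hk
        refine ⟨j, ?_⟩
        rw [orderOf_inv_mul_of_mul_eq hxy]
        exact hj⟩, by
        show f _ = _
        apply Subtype.ext
        rw [hfdef]
        exact rotT_id_const _⟩
      left_inv := by
        intro c
        apply Subtype.ext
        apply Subtype.ext
        funext i
        exact (hfix c.1 c.2 i).symm
      right_inv := by
        intro xy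
        apply Subtype.ext
        obtain ⟨_, _, hxy⟩ := xy.2
        show (g * (xy.1.2)⁻¹, xy.1.2) = xy.1
        exact Prod.ext (mul_inv_eq_of_eq_mul hxy.symm) rfl }
  rw [Nat.card_congr e]

end

end Cfsg.Agent.Helper25
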