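import Mathlib
import Cfsg.Prelude.Def_RootSubgroups
import Cfsg.Agent.Helper25.RankOne
import Cfsg.Agent.Helper25.RankOne2

set_option autoImplicit false

namespace Cfsg.Agent.Helper25

open Cfsg
open scoped commutatorElement

variable {G : Type*} [Group G] {S : Set (Subgroup G)}

/-- In the commutator case for `(C, B)`, every conjugate of `B` by an element of `C` commutes
elementwise with `B`. -/
theorem root_comm_case_commute (hS : IsRootSubgroupSet S) {B C : Subgroup G} (hB : B ∈ S)
    (h2 : RootCommutatorCase S C B) {c : G} (hc : c ∈ C) :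
    ∀ x ∈ conjBy B c, ∀ y ∈ B, x * y = y * x := by
  obtain ⟨_, hcent, _, _⟩ := h2
  intro x hx y hy
  rw [mem_conjBy] at hx
  have hx_eq : x = ⁅c, c⁻¹ * x * c⁆ * (c⁻¹ * x * c) := by
    rw [commutatorElement_def]; group
  have hk : ⁅c, c⁻¹ * x * c⁆ ∈ ⁅C, B⁆ := Subgroup.commutator_mem_commutator hc hx
  have hky := hcent _ hk y (Subgroup.mem_sup_right hy)
  have hBc := hS.commutative B hB
  have hxy : (c⁻¹ * x * c) * y = y * (c⁻¹ * x * c) :=
    setLike_mul_comm hx hy
  rw [hx_eq, mul_assoc, hxy, ← mul_assoc, hky, mul_assoc]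

/-- The key lemma: an element `c` of a member `C` acting on `B` like a non-identity element
`a` of `A`, where `(A, B)` is a rank one pair. -/
theorem root_key (hS : IsRootSubgroupSet S) {A B C : Subgroup G}
    (hB : B ∈ S) (hC : C ∈ S) (h : IsRankOnePair A B) {a c : G} (ha : a ∈ A) (ha1 : a ≠ 1)
    (hc : c ∈ C) (hca : conjBy B c = conjBy B a) :
    C = A ∨ ∃ a' ∈ A, a' ≠ 1 ∧ C = conjBy B a' := by
  have hBa : conjBy B a ≠ B := fun hh => ha1 (rankOne_eq_one_of_conjBy_eq h ha hh)
  have hc1 : c ≠ 1 := by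
    rintro rfl
    rw [conjBy_one] at hca
    exact hBa hca.symm
  obtain ⟨b, hb, hb1, hab⟩ := rankOne_exists_conj_left h ha ha1
  rcases hS.pair C hC B hB with h0 | h1 | h2
  · exfalso
    apply hBa
    rw [← hca]
    apply conjBy_eq_self_of_comm
    intro x hx
    have h3 : ⁅c, x⁆ ∈ ⁅C, B⁆ := Subgroup.commutator_mem_commutator hc hx
    rw [h0, Subgroup.mem_bot] at h3
    exact commutatorElement_eq_one_iff_mul_comm.mp h3
  · obtain ⟨b', hb', hb'1, hcb⟩ := rankOne_exists_conj_left h1 hc hc1
    have hC' : C = conjBy A (b'⁻¹ * b) := by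
      rw [← conjBy_conjBy, ← hab, ← hca, hcb, conjBy_conjBy]
      simp [conjBy_one]
    by_cases hbb : b'⁻¹ * b = 1
    · left
      rw [hC', hbb, conjBy_one]
    · right
      obtain ⟨a', ha', ha'1, h'⟩ := rankOne_exists_conj_right h (mul_mem (inv_mem hb') hb) hbb
      exact ⟨a', ha', ha'1, hC'.trans h'⟩
  · exfalso
    have hcomm := root_comm_case_commute hS hB h2 hc
    rw [hca, hab] at hcomm
    apply hBa
    apply conjBy_eq_self_of_comm
    intro y hy
    have h3 := hcomm (b * a * b⁻¹) (conj_mem_conjBy ha) (b * y * b⁻¹)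
      (B.mul_mem (B.mul_mem hb hy) (B.inv_mem hb))
    have h4 : b * (a * y) * b⁻¹ = b * (y * a) * b⁻¹ := by
      calc b * (a * y) * b⁻¹ = (b * a * b⁻¹) * (b * y * b⁻¹) := by group
        _ = (b * y * b⁻¹) * (b * a * b⁻¹) := h3
        _ = b * (y * a) * b⁻¹ := by group
    exact mul_left_cancel (mul_right_cancel h4)

theorem root_exists_partner {A : Subgroup G} (hA : ¬ IsIsolatedIn (FAdj S) S A) (hAS : A ∈ S) :
    ∃ B ∈ S, IsRankOnePair A B := by
  unfold IsIsolatedIn at hA
  push Not at hA
  obtain ⟨B, hB⟩ := hA hAS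
  by_cases h1 : FAdj S A B
  · exact ⟨B, h1.2.1, h1.2.2⟩
  · have h2 := hB h1
    exact ⟨B, h2.1, RankOnePair_symm h2.2.2⟩

/-- A member with a rank one partner meets every other member trivially. -/
theorem root_inf_eq_bot_or_eq (hS : IsRootSubgroupSet S) {A B₀ B : Subgroup G}
    (hB₀ : B₀ ∈ S) (h : IsRankOnePair A B₀) (hAS : A ∈ S) (hB : B ∈ S) : A ⊓ B = ⊥ ∨ A = B := by
  by_cases hbot : A ⊓ B = ⊥
  · left; exact hbot
  · right
    obtain ⟨x, hx, hx1⟩ := exists_ne_one_of_ne_bot hbot
    rw [Subgroup.mem_inf] at hx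
    rcases root_key hS hB₀ hB h hx.1 hx1 hx.2 rfl with h1 | ⟨a', ha', _, h1⟩
    · exact h1.symm
    · exfalso
      have hx2 := hx.2
      rw [h1, mem_conjBy] at hx2
      have hAc := hS.commutative A hAS
      have h3 : a'⁻¹ * x * a' = x := by
        rw [mul_assoc, setLike_mul_comm hx.1 ha']; group
      rw [h3] at hx2
      apply hx1
      apply rankOne_eq_one_of_conjBy_eq h hx.1
      apply conjBy_of_mem hx2

/-- If `z ≠ 1` centralises `⟨A, B⟩`, then `z * a` is not a root element for `1 ≠ a ∈ A`. -/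
theorem root_not_mem_rootElements (hS : IsRootSubgroupSet S) {A B : Subgroup G}
    (hA : A ∈ S) (hB : B ∈ S) (h : IsRankOnePair A B) {z : G}
    (hz : ∀ x ∈ A ⊔ B, z * x = x * z) (hz1 : z ≠ 1) {a : G} (ha : a ∈ A) (ha1 : a ≠ 1) :
    z * a ∉ rootElements S := by
  rintro ⟨_, C, hC, hzaC⟩
  have hca : conjBy B (z * a) = conjBy B a := by
    rw [← conjBy_conjBy]
    apply conjBy_eq_self_of_comm
    intro x hx
    exact hz x (conjBy_le_of_mem le_sup_right (Subgroup.mem_sup_left ha) hx)
  have hBc := hS.commutative B hB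
  have hAc := hS.commutative A hA
  rcases root_key hS hB hC h ha ha1 hzaC hca with h1 | ⟨a', ha', _, h1⟩
  · rw [h1] at hzaC
    have hzA : z ∈ A := by
      have := A.mul_mem hzaC (A.inv_mem ha)
      simpa using this
    apply hz1
    apply rankOne_eq_one_of_conjBy_eq h hzA
    apply conjBy_eq_self_of_comm
    intro x hx
    exact hz x (Subgroup.mem_sup_right hx)
  · rw [h1, mem_conjBy] at hzaC
    have h3 : a'⁻¹ * (z * a) * a' = z * a := by
      have e1 : a * a' = a' * a := setLike_mul_comm ha ha'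
      have e2 : z * a' = a' * z := hz a' (Subgroup.mem_sup_left ha')
      calc a'⁻¹ * (z * a) * a' = a'⁻¹ * (z * (a * a')) := by group
        _ = a'⁻¹ * (z * (a' * a)) := by rw [e1]
        _ = a'⁻¹ * ((z * a') * a) := by group
        _ = a'⁻¹ * ((a' * z) * a) := by rw [e2]
        _ = z * a := by group
    rw [h3] at hzaC
    apply ha1
    apply rankOne_eq_one_of_conjBy_eq h ha
    rw [← hca]
    exact conjBy_of_mem hzaC

/-- An element of the second centre centralises every member having a rank one partner. -/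
theorem root_second_center_comm (hS : IsRootSubgroupSet S) {A B : Subgroup G}
    (hA : A ∈ S) (hB : B ∈ S) (h : IsRankOnePair A B) {z : G}
    (hz : z ∈ Subgroup.upperCentralSeries G 2) : ∀ a ∈ A, z * a = a * z := by
  have hcen : ∀ x : G, ⁅z, x⁆ ∈ Subgroup.center G := by
    intro x
    have := (Subgroup.mem_upperCentralSeries_succ_iff (n := 1)).mp hz x
    rwa [Subgroup.upperCentralSeries_one G] at this
  have hBc := hS.commutative B hB
  -- conjugation by `z a z⁻¹` on `B` agrees with that of `a`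
  have hact : ∀ a ∈ A, conjBy B (z * a * z⁻¹) = conjBy B a := by
    intro a _
    have e : z * a * z⁻¹ = a * ⁅a⁻¹, z⁆ := by rw [commutatorElement_def]; group
    have hc : ⁅a⁻¹, z⁆ ∈ Subgroup.center G := by
      have h1 := hcen a⁻¹
      have e2 : ⁅a⁻¹, z⁆ = ⁅z, a⁻¹⁆⁻¹ := by rw [commutatorElement_def, commutatorElement_def]; group
      rw [e2]
      exact inv_mem h1
    rw [e, ← conjBy_conjBy]
    congr 1
    apply conjBy_eq_self_of_comm
    intro x _
    exact (Subgroup.mem_center_iff.mp hc x).symm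
  have hnorm : conjBy A z = A := by
    obtain ⟨a, ha, ha1⟩ := exists_ne_one_of_ne_bot (rankOne_ne_bot_left h)
    rcases root_key hS hB (hS.conj_mem A hA z) h ha ha1 (conj_mem_conjBy (g := z) ha) (hact a ha)
      with h1 | ⟨a', ha', _, h1⟩
    · exact h1
    · exfalso
      have h2 : z * a * z⁻¹ ∈ conjBy B a' := by
        rw [← h1]; exact conj_mem_conjBy ha
      apply ha1
      apply rankOne_eq_one_of_conjBy_eq h ha
      rw [← hact a ha]
      -- `z a z⁻¹` lies in `conjBy B a'`, which it therefore normalises; so does `a`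
      have h3 : conjBy (conjBy B a') (z * a * z⁻¹) = conjBy B a' := conjBy_of_mem h2
      have h4 : conjBy (conjBy B a') a = conjBy B a' := by
        rw [conjBy_conjBy] at h3 ⊢
        have hAc := hS.commutative A hA
        have e1 : a * a' = a' * a := setLike_mul_comm ha ha'
        rw [← h3]
        -- compare `conjBy B (a * a')` with `conjBy B (z a z⁻¹ * a')`
        have e : z * a * z⁻¹ = a * ⁅a⁻¹, z⁆ := by rw [commutatorElement_def]; group
        have hc : ⁅a⁻¹, z⁆ ∈ Subgroup.center G := by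
          have h1 := hcen a⁻¹
          have e2 : ⁅a⁻¹, z⁆ = ⁅z, a⁻¹⁆⁻¹ := by
            rw [commutatorElement_def, commutatorElement_def]; group
          rw [e2]
          exact inv_mem h1
        have e3 : z * a * z⁻¹ * a' = (a * a') * ⁅a⁻¹, z⁆ := by
          rw [e, mul_assoc, ← Subgroup.mem_center_iff.mp hc a', ← mul_assoc]
        rw [e3, ← conjBy_conjBy B (a * a')]
        congr 1
        symm
        apply conjBy_eq_self_of_comm
        intro x _
        exact (Subgroup.mem_center_iff.mp hc x).symm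
      -- now `a` normalises `conjBy B a'`, hence `B`
      rw [conjBy_conjBy] at h4
      have hAc := hS.commutative A hA
      have e1 : a * a' = a' * a := setLike_mul_comm ha ha'
      rw [e1, ← conjBy_conjBy] at h4
      rw [hact a ha]
      exact conjBy_injective a' h4
  intro a ha
  have hk1 : z * a * z⁻¹ * a⁻¹ ∈ A := by
    have : z * a * z⁻¹ ∈ conjBy A z := conj_mem_conjBy ha
    rw [hnorm] at this
    exact A.mul_mem this (A.inv_mem ha)
  have hk2 : z * a * z⁻¹ * a⁻¹ ∈ Subgroup.center G := hcen a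
  have hk : z * a * z⁻¹ * a⁻¹ = 1 := by
    apply rankOne_eq_one_of_conjBy_eq h hk1
    apply conjBy_eq_self_of_comm
    intro x _
    exact (Subgroup.mem_center_iff.mp hk2 x).symm
  have : z * a = (z * a * z⁻¹ * a⁻¹) * (a * z) := by group
  rw [this, hk, one_mul]

end Cfsg.Agent.Helper25
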