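import Mathlib
import Cfsg.Prelude.Def_RootSubgroups
import Cfsg.Agent.Helper25.RankOne
import Cfsg.Agent.Helper25.RankOne2
import Cfsg.Agent.Helper25.RootSub

set_option autoImplicit false

namespace Cfsg.Agent.Helper25

open Cfsg
open scoped commutatorElement

variable {G : Type*} [Group G] {S : Set (Subgroup G)}

theorem comm_of_commutator_eq_bot {A B : Subgroup G} (h : ⁅A, B⁆ = ⊥) {a b : G} (ha : a ∈ A)
    (hb : b ∈ B) : a * b = b * a := by
  have h3 : ⁅a, b⁆ ∈ ⁅A, B⁆ := Subgroup.commutator_mem_commutator ha hb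
  rw [h, Subgroup.mem_bot] at h3
  exact commutatorElement_eq_one_iff_mul_comm.mp h3

/-- Degenerate case: a member centralising the product of two commuting root elements
centralises the member containing the first. -/
theorem root_degenerate_comm (hS : IsRootSubgroupSet S) (hdeg : IsDegenerateRootSet S)
    {A B E : Subgroup G} (hA : A ∈ S) (hB : B ∈ S) (hE : E ∈ S) {a b : G} (ha : a ∈ A)
    (ha1 : a ≠ 1) (hb : b ∈ B) (hb1 : b ≠ 1) (hab : a * b = b * a) (hab1 : a * b ≠ 1)
    (hEc : ∀ e ∈ E, e * (a * b) = (a * b) * e) : ⁅E, A⁆ = ⊥ := by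
  rcases hS.pair E hE A hA with h0 | h1 | h2
  · exact h0
  · exfalso
    have hAE := RankOnePair_symm h1
    obtain ⟨e₁, he₁, he₁1, hae⟩ := rankOne_exists_conj_left hAE ha ha1
    have hEab : conjBy E (b * a) = E := by
      rw [← hab]
      apply conjBy_eq_self_of_comm
      intro e he
      exact (hEc e he).symm
    have hEa : conjBy E a = conjBy E b⁻¹ := by
      rw [← conjBy_conjBy, conjBy_eq_iff] at hEab
      exact hEab
    have hEane : conjBy E a ≠ E := fun hh => ha1 (rankOne_eq_one_of_conjBy_eq hAE ha hh)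
    rcases hS.pair E hE B hB with g0 | g1 | g2
    · apply hEane
      rw [hEa]
      apply conjBy_eq_self_of_comm
      intro e he
      have := comm_of_commutator_eq_bot g0 he (B.inv_mem hb)
      exact this.symm
    · have hBE := RankOnePair_symm g1
      obtain ⟨e₂, he₂, he₂1, hbe⟩ := rankOne_exists_conj_left hBE (B.inv_mem hb)
        (inv_ne_one.mpr hb1)
      have hBA : B = conjBy A (e₂⁻¹ * e₁) := by
        rw [← conjBy_conjBy, ← hae, hEa, hbe, conjBy_conjBy]
        simp [conjBy_one]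
      by_cases hee : e₂⁻¹ * e₁ = 1
      · rw [hee, conjBy_one] at hBA
        rw [hBA] at hb
        apply hab1
        apply rankOne_eq_one_of_conjBy_eq hAE (A.mul_mem ha hb)
        apply conjBy_eq_self_of_comm
        intro e he
        exact (hEc e he).symm
      · obtain ⟨a₃, ha₃, ha₃1, h3⟩ := rankOne_exists_conj_right hAE
          (E.mul_mem (E.inv_mem he₂) he₁) hee
        rw [h3] at hBA
        rw [hBA, mem_conjBy] at hb
        have hAc := hS.commutative A hA
        have e1 : a * a₃ = a₃ * a := setLike_mul_comm ha ha₃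
        have hcomm : (a₃⁻¹ * b * a₃) * a = a * (a₃⁻¹ * b * a₃) := by
          have e2 : a₃⁻¹ * a = a * a₃⁻¹ := setLike_mul_comm (A.inv_mem ha₃) ha
          calc (a₃⁻¹ * b * a₃) * a = a₃⁻¹ * b * (a₃ * a) := by group
            _ = a₃⁻¹ * b * (a * a₃) := by rw [e1]
            _ = a₃⁻¹ * (b * a) * a₃ := by group
            _ = a₃⁻¹ * (a * b) * a₃ := by rw [hab]
            _ = (a₃⁻¹ * a) * b * a₃ := by group
            _ = (a * a₃⁻¹) * b * a₃ := by rw [e2]
            _ = a * (a₃⁻¹ * b * a₃) := by group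
        have hD : conjBy E a ∈ unipotentSubgroups E A :=
          ⟨a, Subgroup.mem_sup_right ha, rfl⟩
        have hnorm : conjBy (conjBy E a) (a₃⁻¹ * b * a₃) = conjBy E a := by
          rw [conjBy_conjBy, hcomm, ← conjBy_conjBy, conjBy_of_mem hb]
        have h5 := rankOne_eq_one_of_conjBy_unipotent h1 hD hEane hb hnorm
        apply hb1
        have : b = a₃ * (a₃⁻¹ * b * a₃) * a₃⁻¹ := by group
        rw [this, h5]; group
    · exact hdeg E hE B hB g2
  · exact absurd h2 (hdeg E hE A hA)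

/-- The kernel of the action of `C ⊔ D` on the unipotent subgroups. -/
def rankOneKernel (C D : Subgroup G) : Subgroup G where
  carrier := {n | n ∈ C ⊔ D ∧ ∀ E ∈ unipotentSubgroups C D, conjBy E n = E}
  mul_mem' := by
    rintro a b ⟨ha, ha'⟩ ⟨hb, hb'⟩
    refine ⟨mul_mem ha hb, fun E hE => ?_⟩
    rw [← conjBy_conjBy, hb' E hE, ha' E hE]
  one_mem' := ⟨one_mem _, fun E _ => conjBy_one E⟩
  inv_mem' := by
    rintro a ⟨ha, ha'⟩
    refine ⟨inv_mem ha, fun E hE => ?_⟩
    have := ha' E hE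
    rw [conjBy_eq_iff] at this
    exact this.symm

theorem mem_rankOneKernel {C D : Subgroup G} {n : G} :
    n ∈ rankOneKernel C D ↔ n ∈ C ⊔ D ∧ ∀ E ∈ unipotentSubgroups C D, conjBy E n = E :=
  Iff.rfl

theorem rankOneKernel_central {C D : Subgroup G} (h : IsRankOnePair C D) :
    ∀ n ∈ rankOneKernel C D, ∀ y ∈ C ⊔ D, n * y = y * n := by
  apply rankOne_central_of_normalizes h
  · intro n hn x hx
    refine ⟨mul_mem (mul_mem hx hn.1) (inv_mem hx), fun E hE => ?_⟩
    have h1 : conjBy E x⁻¹ ∈ unipotentSubgroups C D := rankOne_conj_mem_unipotent hE (inv_mem hx)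
    rw [← conjBy_conjBy, ← conjBy_conjBy, hn.2 _ h1, conjBy_conjBy]
    simp [conjBy_one]
  · intro n hn
    exact hn.2 C (rankOne_left_mem_unipotent C D)
  · intro n hn
    exact hn.2 D (rankOne_right_mem_unipotent h)

/-- An element of `C ⊔ D` commuting with the commutative group `C` is a product of an element
of `C` and an element central in `C ⊔ D`. -/
theorem rankOne_centralizer_decomp {C D : Subgroup G} (h : IsRankOnePair C D)
    [hCc : IsMulCommutative C] {x : G} (hx : x ∈ C ⊔ D) (hxc : ∀ c ∈ C, x * c = c * x) :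
    ∃ c ∈ C, ∃ z : G, (∀ y ∈ C ⊔ D, z * y = y * z) ∧ x = c * z := by
  have hD' : conjBy D x ∈ unipotentSubgroups C D :=
    rankOne_conj_mem_unipotent (rankOne_right_mem_unipotent h) hx
  have hne : conjBy D x ≠ C := by
    intro hh
    rw [conjBy_eq_iff] at hh
    have h1 : conjBy C x⁻¹ = C := by
      apply conjBy_eq_self_of_comm
      intro c hc
      have := hxc c hc
      have e : x⁻¹ * c = x⁻¹ * (c * x) * x⁻¹ := by group
      rw [e, ← this]; group
    rw [h1] at hh
    exact h.ne hh.symm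
  obtain ⟨c, ⟨hc, hcD⟩, _⟩ := rankOne_regular h (rankOne_right_mem_unipotent h) hD' h.ne.symm hne
  refine ⟨c, hc, c⁻¹ * x, ?_, by group⟩
  apply rankOneKernel_central h
  refine ⟨mul_mem (inv_mem (Subgroup.mem_sup_left hc)) hx, ?_⟩
  have hzc : ∀ c' ∈ C, (c⁻¹ * x) * c' = c' * (c⁻¹ * x) := by
    intro c' hc'
    have e1 : c⁻¹ * c' = c' * c⁻¹ := setLike_mul_comm (C.inv_mem hc) hc'
    rw [mul_assoc, hxc c' hc', ← mul_assoc, e1, mul_assoc]
  have hzD : conjBy D (c⁻¹ * x) = D := by
    rw [← conjBy_conjBy, ← hcD, conjBy_conjBy]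
    simp [conjBy_one]
  intro E hE
  rw [rankOne_mem_unipotent_iff h] at hE
  rcases hE with rfl | ⟨c', hc', rfl⟩
  · exact conjBy_eq_self_of_comm hzc
  · rw [conjBy_conjBy, hzc c' hc', ← conjBy_conjBy, hzD]

theorem le_or_forall_of_forall_or {K C : Subgroup G} {P : G → Prop}
    (hP : ∀ x y, P x → P y → P (x * y)) (hPinv : ∀ x, P x → P x⁻¹)
    (h : ∀ k ∈ K, k ∈ C ∨ P k) : K ≤ C ∨ ∀ k ∈ K, P k := by
  by_contra hcon
  push Not at hcon
  obtain ⟨h1, k₂, hk₂, hk₂P⟩ := hcon
  obtain ⟨k₁, hk₁, hk₁C⟩ := SetLike.not_le_iff_exists.mp h1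
  have hk₁P : P k₁ := (h k₁ hk₁).resolve_left hk₁C
  have hk₂C : k₂ ∈ C := (h k₂ hk₂).resolve_right hk₂P
  rcases h (k₁ * k₂) (K.mul_mem hk₁ hk₂) with h3 | h3
  · apply hk₁C
    have := C.mul_mem h3 (C.inv_mem hk₂C)
    simpa using this
  · apply hk₂P
    have := hP _ _ (hPinv _ hk₁P) h3
    simpa using this

/-- A member of `S` with a rank one partner, both inside a rank one group `⟨C, D⟩` of members
of `S`, is a unipotent subgroup of `⟨C, D⟩`. -/
theorem root_mem_unipotent (hS : IsRootSubgroupSet S) {A B C D : Subgroup G}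
    (hA : A ∈ S) (hB : B ∈ S) (hC : C ∈ S) (hD : D ∈ S) (hAB : IsRankOnePair A B)
    (hCD : IsRankOnePair C D) (hAle : A ≤ C ⊔ D) (hBle : B ≤ C ⊔ D) :
    A ∈ unipotentSubgroups C D := by
  have hCc := hS.commutative C hC
  obtain ⟨a, ha, ha1⟩ := exists_ne_one_of_ne_bot (rankOne_ne_bot_left hAB)
  rcases hS.pair A hA C hC with h0 | h1 | h2
  · have hac : ∀ c ∈ C, a * c = c * a := fun c hc => comm_of_commutator_eq_bot h0 ha hc
    obtain ⟨c, hc, z, hz, haz⟩ := rankOne_centralizer_decomp hCD (hAle ha) hac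
    by_cases hc1 : c = 1
    · exfalso
      rw [hc1, one_mul] at haz
      apply ha1
      apply rankOne_eq_one_of_conjBy_eq hAB ha
      apply conjBy_eq_self_of_comm
      intro x hx
      rw [haz]
      exact hz x (hBle hx)
    by_cases hz1 : z = 1
    · rw [hz1, mul_one] at haz
      have hne : A ⊓ C ≠ ⊥ := by
        intro hbot
        have : a ∈ A ⊓ C := ⟨ha, haz ▸ hc⟩
        rw [hbot, Subgroup.mem_bot] at this
        exact ha1 this
      rcases root_inf_eq_bot_or_eq hS hB hAB hA hC with h3 | h3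
      · exact absurd h3 hne
      · rw [h3]
        exact rankOne_left_mem_unipotent C D
    · exfalso
      apply root_not_mem_rootElements hS hC hD hCD hz hz1 hc hc1
      have e : z * c = a := by rw [haz, hz c (Subgroup.mem_sup_left hc)]
      rw [e]
      exact ⟨ha1, A, hA, ha⟩
  · obtain ⟨c, hc, hc1, hac⟩ := rankOne_exists_conj_left h1 ha ha1
    refine ⟨c⁻¹ * a, mul_mem (inv_mem (Subgroup.mem_sup_left hc)) (hAle ha), ?_⟩
    rw [← conjBy_conjBy, hac, conjBy_conjBy]
    simp [conjBy_one]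
  · exfalso
    obtain ⟨hK, hcent, hgen, _⟩ := h2
    have hKne := hS.ne_bot _ hK
    have hKle : ⁅A, C⁆ ≤ C ⊔ D := by
      rw [Subgroup.commutator_le]
      intro g₁ hg₁ g₂ hg₂
      rw [commutatorElement_def]
      exact mul_mem (mul_mem (mul_mem (hAle hg₁) (Subgroup.mem_sup_left hg₂)) (inv_mem (hAle hg₁)))
        (inv_mem (Subgroup.mem_sup_left hg₂))
    have hKdich : ∀ k ∈ ⁅A, C⁆, k ∈ C ∨ (∀ y ∈ C ⊔ D, k * y = y * k) := by
      intro k hk
      have hkc : ∀ c ∈ C, k * c = c * k := fun c hc => hcent k hk c (Subgroup.mem_sup_right hc)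
      obtain ⟨c, hc, z, hz, hkz⟩ := rankOne_centralizer_decomp hCD (hKle hk) hkc
      by_cases hc1 : c = 1
      · right
        rw [hc1, one_mul] at hkz
        rw [hkz]; exact hz
      by_cases hz1 : z = 1
      · left
        rw [hz1, mul_one] at hkz
        rw [hkz]; exact hc
      · exfalso
        apply root_not_mem_rootElements hS hC hD hCD hz hz1 hc hc1
        have e : z * c = k := by rw [hkz, hz c (Subgroup.mem_sup_left hc)]
        rw [e]
        refine ⟨?_, _, hK, hk⟩
        rintro rfl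
        apply hc1
        have : c = z⁻¹ := by
          rw [eq_inv_iff_mul_eq_one, ← hz c (Subgroup.mem_sup_left hc)]
          exact e
        have hzc : z⁻¹ ∈ C := this ▸ hc
        have hzC : z ∈ C := by simpa using C.inv_mem hzc
        exfalso
        apply hz1
        apply rankOne_eq_one_of_conjBy_eq hCD hzC
        apply conjBy_eq_self_of_comm
        intro x hx
        exact hz x (Subgroup.mem_sup_right hx)
    rcases le_or_forall_of_forall_or (P := fun k => ∀ y ∈ C ⊔ D, k * y = y * k)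
        (fun x y hx hy w hw => by rw [mul_assoc, hy w hw, ← mul_assoc, hx w hw, mul_assoc])
        (fun x hx w hw => by
          have := hx w hw
          have e : x⁻¹ * w = x⁻¹ * (w * x) * x⁻¹ := by group
          rw [e, ← this]; group) hKdich with hcase | hcase
    · have hne : C ⊓ ⁅A, C⁆ ≠ ⊥ := by
        rw [inf_eq_right.mpr hcase]; exact hKne
      rcases root_inf_eq_bot_or_eq hS hD hCD hC hK with h3 | h3
      · exact hne h3
      · apply hKne
        rw [eq_bot_iff, Subgroup.commutator_le]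
        intro g₁ hg₁ g₂ hg₂
        rw [Subgroup.mem_bot, commutatorElement_eq_one_iff_mul_comm]
        have hg₂K : g₂ ∈ ⁅A, C⁆ := by rw [← h3]; exact hg₂
        exact (hcent g₂ hg₂K g₁ (Subgroup.mem_sup_left hg₁)).symm
    · have hE : conjBy C a ∈ unipotentSubgroups C D :=
        rankOne_conj_mem_unipotent (rankOne_left_mem_unipotent C D) (hAle ha)
      have hEcomm : ∀ x ∈ conjBy C a, ∀ c₂ ∈ C, x * c₂ = c₂ * x := by
        intro x hx c₂ hc₂
        rw [mem_conjBy] at hx
        have hx_eq : x = ⁅a, a⁻¹ * x * a⁆ * (a⁻¹ * x * a) := by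
          rw [commutatorElement_def]; group
        have hk : ⁅a, a⁻¹ * x * a⁆ ∈ ⁅A, C⁆ := Subgroup.commutator_mem_commutator ha hx
        have hky := hcase _ hk c₂ (Subgroup.mem_sup_left hc₂)
        have hxy : (a⁻¹ * x * a) * c₂ = c₂ * (a⁻¹ * x * a) := setLike_mul_comm hx hc₂
        rw [hx_eq, mul_assoc, hxy, ← mul_assoc, hky, mul_assoc]
      have hEC : conjBy C a = C := by
        by_contra hne
        obtain ⟨c₀, ⟨hc₀, hc₀D⟩, _⟩ := rankOne_regular hCD (rankOne_right_mem_unipotent hCD) hE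
          hCD.ne.symm hne
        obtain ⟨d, hd, hd1⟩ := exists_ne_one_of_ne_bot (rankOne_ne_bot_right hCD)
        apply hd1
        apply rankOne_eq_one_of_conjBy_eq (RankOnePair_symm hCD) hd
        apply conjBy_eq_self_of_comm
        intro c₂ hc₂
        have h5 := hEcomm (c₀ * d * c₀⁻¹) (by rw [← hc₀D]; exact conj_mem_conjBy hd)
          (c₀ * c₂ * c₀⁻¹) (C.mul_mem (C.mul_mem hc₀ hc₂) (C.inv_mem hc₀))
        have h6 : c₀ * (d * c₂) * c₀⁻¹ = c₀ * (c₂ * d) * c₀⁻¹ := by
          calc c₀ * (d * c₂) * c₀⁻¹ = (c₀ * d * c₀⁻¹) * (c₀ * c₂ * c₀⁻¹) := by group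
            _ = (c₀ * c₂ * c₀⁻¹) * (c₀ * d * c₀⁻¹) := h5
            _ = c₀ * (c₂ * d) * c₀⁻¹ := by group
        exact mul_left_cancel (mul_right_cancel h6)
      apply hKne
      rw [← hgen a ha ha1, Subgroup.closure_eq_bot_iff]
      rintro x ⟨c, hc, rfl⟩
      rw [Set.mem_singleton_iff]
      have hk1 : a * c * a⁻¹ * c⁻¹ ∈ C := by
        have : a * c * a⁻¹ ∈ conjBy C a := conj_mem_conjBy hc
        rw [hEC] at this
        exact C.mul_mem this (C.inv_mem hc)
      have hk2 : a * c * a⁻¹ * c⁻¹ ∈ ⁅A, C⁆ := Subgroup.commutator_mem_commutator ha hc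
      apply rankOne_eq_one_of_conjBy_eq hCD hk1
      apply conjBy_eq_self_of_comm
      intro x hx
      exact hcase _ hk2 x (Subgroup.mem_sup_right hx)

end Cfsg.Agent.Helper25
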