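import Cfsg.Agent.Helper25.HeightZero3
import Cfsg.Agent.Helper25.SecondMain2

set_option autoImplicit false
set_option linter.unusedSectionVars false

/-!
# Nonvanishing of the section of a height-zero character (helper25)
-/

namespace Cfsg.Agent.Helper25

open Cfsg
open scoped ComplexConjugate

section

variable {G : Type*} [Group G] [Fintype G] {M : Ideal AlgInt} {p : ℕ}

/-- For a height-zero character `χ` of `B`, a `p`-element `x` and a block `b` of the centralizer
of `x` inducing `B`, the `b`-part of `c ↦ χ (x c)` does not vanish on the `p`-regular elements. -/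
theorem shift_part_ne_zero [Fact p.Prime] (hpM : IsPModular p M) {B : Set (IrrCharacter G)}
    (hB : IsPBlock M B) (χ : IrrCharacter G) (hχ : χ ∈ B)
    (h0 : blockHeight p B (χ : G → ℂ) = 0) (x : G) (hx : ∃ k : ℕ, orderOf x = p ^ k)
    [Fintype (Subgroup.centralizer ({x} : Set G))]
    (b : Set (IrrCharacter (Subgroup.centralizer ({x} : Set G))))
    (hb : IsInducedBlock M (Subgroup.centralizer ({x} : Set G)) b B) :
    ∃ y : (Subgroup.centralizer ({x} : Set G)), ¬ p ∣ orderOf y ∧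
      ∑ᶠ ψ ∈ b, classInner (fun c : (Subgroup.centralizer ({x} : Set G)) => (χ : G → ℂ) (x * (c : G)))
        (ψ : (Subgroup.centralizer ({x} : Set G)) → ℂ) * (ψ : (Subgroup.centralizer ({x} : Set G)) → ℂ) y ≠ 0 := by
  classical
  have hM := hpM.2.1.isPrime
  have hp := hpM.1
  have := Helper24.finite_irrCharacter (G := G)
  have : Fintype (IrrCharacter G) := Fintype.ofFinite _
  have := Helper24.finite_irrCharacter (G := (Subgroup.centralizer ({x} : Set G)))
  have : Fintype (IrrCharacter (Subgroup.centralizer ({x} : Set G))) := Fintype.ofFinite _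
  by_contra hall
  push Not at hall
  obtain ⟨ψ₀, hψ₀⟩ : ∃ ψ₀ : IrrCharacter (Subgroup.centralizer ({x} : Set G)), ψ₀ ∈ b := by
    obtain ⟨ψ₁, hbeq⟩ := id hb.1
    exact ⟨ψ₁, by rw [hbeq]; exact mem_blockOf_self hM.ne_top ψ₁⟩
  obtain ⟨k, hk⟩ := hx
  have hA : ∑ c : (Subgroup.centralizer ({x} : Set G)), (if p ∣ orderOf c then (0 : ℂ) else (χ : G → ℂ) (x * (c : G)))
      * conj ((ψ₀ : (Subgroup.centralizer ({x} : Set G)) → ℂ) c) = 0 := by
    have hexp : ∀ c : (Subgroup.centralizer ({x} : Set G)), ¬ p ∣ orderOf c → (χ : G → ℂ) (x * (c : G))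
        = ∑ ψ : IrrCharacter (Subgroup.centralizer ({x} : Set G)), if ψ ∈ b then 0 else
          classInner (fun c : (Subgroup.centralizer ({x} : Set G)) => (χ : G → ℂ) (x * (c : G))) (ψ : (Subgroup.centralizer ({x} : Set G)) → ℂ)
            * (ψ : (Subgroup.centralizer ({x} : Set G)) → ℂ) c := by
      intro c hc
      have h1 := shift_expansion x (χ : G → ℂ) (Helper2.IsIrrCharacter.isClassFunction χ.2) c
      have h2 := hall c hc
      rw [finsum_mem_eq_sum_ite] at h2
      rw [h1]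
      have h3 : (∑ ψ : IrrCharacter (Subgroup.centralizer ({x} : Set G)),
            classInner (fun c : (Subgroup.centralizer ({x} : Set G)) => (χ : G → ℂ) (x * (c : G))) (ψ : (Subgroup.centralizer ({x} : Set G)) → ℂ)
              * (ψ : (Subgroup.centralizer ({x} : Set G)) → ℂ) c)
          - (∑ ψ : IrrCharacter (Subgroup.centralizer ({x} : Set G)), if ψ ∈ b then
            classInner (fun c : (Subgroup.centralizer ({x} : Set G)) => (χ : G → ℂ) (x * (c : G))) (ψ : (Subgroup.centralizer ({x} : Set G)) → ℂ)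
              * (ψ : (Subgroup.centralizer ({x} : Set G)) → ℂ) c else 0)
          = ∑ ψ : IrrCharacter (Subgroup.centralizer ({x} : Set G)), if ψ ∈ b then 0 else
            classInner (fun c : (Subgroup.centralizer ({x} : Set G)) => (χ : G → ℂ) (x * (c : G))) (ψ : (Subgroup.centralizer ({x} : Set G)) → ℂ)
              * (ψ : (Subgroup.centralizer ({x} : Set G)) → ℂ) c := by
        rw [← Finset.sum_sub_distrib]
        refine Finset.sum_congr rfl fun ψ _ => ?_
        split_ifs <;> ring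
      rw [h2, sub_zero] at h3
      exact h3
    have e1 : ∀ c : (Subgroup.centralizer ({x} : Set G)), (if p ∣ orderOf c then (0 : ℂ) else (χ : G → ℂ) (x * (c : G)))
        * conj ((ψ₀ : (Subgroup.centralizer ({x} : Set G)) → ℂ) c)
        = ∑ ψ : IrrCharacter (Subgroup.centralizer ({x} : Set G)), if ψ ∈ b then 0 else
          classInner (fun c : (Subgroup.centralizer ({x} : Set G)) => (χ : G → ℂ) (x * (c : G))) (ψ : (Subgroup.centralizer ({x} : Set G)) → ℂ)
            * (if c ∈ {c : (Subgroup.centralizer ({x} : Set G)) | ¬ p ∣ orderOf c} then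
              (ψ : (Subgroup.centralizer ({x} : Set G)) → ℂ) c * conj ((ψ₀ : (Subgroup.centralizer ({x} : Set G)) → ℂ) c) else 0) := by
      intro c
      by_cases hc : p ∣ orderOf c
      · rw [if_pos hc, zero_mul]
        symm
        apply Finset.sum_eq_zero
        intro ψ _
        rw [if_neg (show ¬ c ∈ {c : (Subgroup.centralizer ({x} : Set G)) | ¬ p ∣ orderOf c} from fun h => h hc)]
        simp
      · rw [if_neg hc, hexp c hc, Finset.sum_mul]
        refine Finset.sum_congr rfl fun ψ _ => ?_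
        rw [if_pos (show c ∈ {c : (Subgroup.centralizer ({x} : Set G)) | ¬ p ∣ orderOf c} from hc)]
        split_ifs <;> ring
    rw [Finset.sum_congr rfl fun c _ => e1 c, Finset.sum_comm]
    apply Finset.sum_eq_zero
    intro ψ _
    by_cases hψ : ψ ∈ b
    · simp [hψ]
    · simp only [if_neg hψ]
      rw [← Finset.mul_sum]
      have hns : ¬ SameBlock M (ψ : (Subgroup.centralizer ({x} : Set G)) → ℂ) (ψ₀ : (Subgroup.centralizer ({x} : Set G)) → ℂ) := fun hs =>
        hψ (mem_block_of_sameBlock hM hb.1 hψ₀ (sameBlock_symm hs))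
      have hw := weak_block_orthogonality hpM ψ ψ₀ hns
      rw [finsum_mem_eq_sum_ite] at hw
      rw [hw, mul_zero]
  have hU2 : ¬ MemLocalIdeal M (brLam (Subgroup.centralizer ({x} : Set G)) ψ₀ (tildeSpec p χ)) := by
    intro hmem
    apply restrict_tilde_not_mem hpM (Subgroup.centralizer ({x} : Set G)) hb χ ψ₀ hψ₀ hχ h0
    rw [tildeRatio_restrict]
    refine MemLocalIdeal.mul_left hM (natCast_div_memLocalRing hpM Nat.card_pos.ne' ?_) hmem
    rw [Nat.Prime.factorization_pow hp, Finsupp.single_eq_same]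
  have hcomm : ∀ c : (Subgroup.centralizer ({x} : Set G)), x * (c : G) = (c : G) * x := fun c =>
    Subgroup.mem_centralizer_iff.mp c.2 x (Set.mem_singleton x)
  have hcl : IsClassFunction (Subgroup.centralizer ({x} : Set G)) (fun c : (Subgroup.centralizer ({x} : Set G)) => if p ∣ orderOf c then (0 : ℂ)
      else (χ : G → ℂ) (x * (c : G)⁻¹) - (χ : G → ℂ) (c : G)⁻¹) := by
    intro c k
    have ho : orderOf (k * c * k⁻¹) = orderOf c := orderOf_conj' k c
    have h1 : (χ : G → ℂ) (x * ((k * c * k⁻¹ : (Subgroup.centralizer ({x} : Set G))) : G)⁻¹)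
        = (χ : G → ℂ) (x * (c : G)⁻¹) := by
      have e : x * ((k * c * k⁻¹ : (Subgroup.centralizer ({x} : Set G))) : G)⁻¹ = (k : G) * (x * (c : G)⁻¹) * (k : G)⁻¹ := by
        rw [Subgroup.coe_mul, Subgroup.coe_mul, Subgroup.coe_inv, mul_inv_rev, mul_inv_rev,
          inv_inv, ← mul_assoc, ← mul_assoc, hcomm k]
        group
      rw [e]
      exact (Helper2.IsIrrCharacter.isClassFunction χ.2) _ _
    have h2 : (χ : G → ℂ) ((k * c * k⁻¹ : (Subgroup.centralizer ({x} : Set G))) : G)⁻¹ = (χ : G → ℂ) (c : G)⁻¹ := by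
      have e : ((k * c * k⁻¹ : (Subgroup.centralizer ({x} : Set G))) : G)⁻¹ = (k : G) * (c : G)⁻¹ * (k : G)⁻¹ := by
        rw [Subgroup.coe_mul, Subgroup.coe_mul, Subgroup.coe_inv]
        group
      rw [e]
      exact (Helper2.IsIrrCharacter.isClassFunction χ.2) _ _
    show (if p ∣ orderOf (k * c * k⁻¹) then (0 : ℂ)
      else (χ : G → ℂ) (x * ((k * c * k⁻¹ : (Subgroup.centralizer ({x} : Set G))) : G)⁻¹) - (χ : G → ℂ) ((k * c * k⁻¹ : (Subgroup.centralizer ({x} : Set G))) : G)⁻¹)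
      = if p ∣ orderOf c then (0 : ℂ) else (χ : G → ℂ) (x * (c : G)⁻¹) - (χ : G → ℂ) (c : G)⁻¹
    rw [ho, h1, h2]
  have hJ : ∀ c : (Subgroup.centralizer ({x} : Set G)), MemLocalIdeal M (if p ∣ orderOf c then (0 : ℂ)
      else (χ : G → ℂ) (x * (c : G)⁻¹) - (χ : G → ℂ) (c : G)⁻¹) := by
    intro c
    split_ifs
    · exact MemLocalIdeal.zero hM.ne_top
    · have hc : Commute x ((c : G)⁻¹) := by
        have h1 := hcomm c⁻¹
        rw [Subgroup.coe_inv] at h1
        exact h1
      exact Cfsg.Agent.Helper6.PRegular.char_ppart_congr hpM (Helper24.isCharacter_of_irr χ.2)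
        x (c : G)⁻¹ hc k hk
  have hdiff := omega_mem_ideal hM ψ₀ _ hcl hJ
  have hU1 : ∑ c : (Subgroup.centralizer ({x} : Set G)), (if p ∣ orderOf c then (0 : ℂ) else (χ : G → ℂ) (x * (c : G)⁻¹))
      * ((ψ₀ : (Subgroup.centralizer ({x} : Set G)) → ℂ) c / (ψ₀ : (Subgroup.centralizer ({x} : Set G)) → ℂ) 1) = 0 := by
    have h2 := Equiv.sum_comp (Equiv.inv (Subgroup.centralizer ({x} : Set G))) (fun c : (Subgroup.centralizer ({x} : Set G)) =>
      (if p ∣ orderOf c then (0 : ℂ) else (χ : G → ℂ) (x * (c : G)⁻¹))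
        * ((ψ₀ : (Subgroup.centralizer ({x} : Set G)) → ℂ) c / (ψ₀ : (Subgroup.centralizer ({x} : Set G)) → ℂ) 1))
    rw [← h2]
    have e : ∀ c : (Subgroup.centralizer ({x} : Set G)), (if p ∣ orderOf (c⁻¹) then (0 : ℂ)
          else (χ : G → ℂ) (x * ((c⁻¹ : (Subgroup.centralizer ({x} : Set G))) : G)⁻¹))
          * ((ψ₀ : (Subgroup.centralizer ({x} : Set G)) → ℂ) c⁻¹ / (ψ₀ : (Subgroup.centralizer ({x} : Set G)) → ℂ) 1)
        = ((if p ∣ orderOf c then (0 : ℂ) else (χ : G → ℂ) (x * (c : G)))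
          * conj ((ψ₀ : (Subgroup.centralizer ({x} : Set G)) → ℂ) c)) / (ψ₀ : (Subgroup.centralizer ({x} : Set G)) → ℂ) 1 := by
      intro c
      rw [orderOf_inv, Subgroup.coe_inv, inv_inv, char_conj_eq_inv]
      ring
    show ∑ c : (Subgroup.centralizer ({x} : Set G)), (if p ∣ orderOf (c⁻¹) then (0 : ℂ)
          else (χ : G → ℂ) (x * ((c⁻¹ : (Subgroup.centralizer ({x} : Set G))) : G)⁻¹))
          * ((ψ₀ : (Subgroup.centralizer ({x} : Set G)) → ℂ) c⁻¹ / (ψ₀ : (Subgroup.centralizer ({x} : Set G)) → ℂ) 1) = 0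
    rw [Finset.sum_congr rfl fun c _ => e c, ← Finset.sum_div, hA, zero_div]
  apply hU2
  have hU2eq : brLam (Subgroup.centralizer ({x} : Set G)) ψ₀ (tildeSpec p χ)
      = ∑ c : (Subgroup.centralizer ({x} : Set G)), (if p ∣ orderOf c then (0 : ℂ) else (χ : G → ℂ) (c : G)⁻¹)
        * ((ψ₀ : (Subgroup.centralizer ({x} : Set G)) → ℂ) c / (ψ₀ : (Subgroup.centralizer ({x} : Set G)) → ℂ) 1) := by
    unfold brLam
    refine Finset.sum_congr rfl fun c _ => ?_
    rw [coeffT_tildeSpec, Subgroup.orderOf_coe]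
  have e3 : brLam (Subgroup.centralizer ({x} : Set G)) ψ₀ (tildeSpec p χ)
      = -(∑ c : (Subgroup.centralizer ({x} : Set G)), (if p ∣ orderOf c then (0 : ℂ)
        else (χ : G → ℂ) (x * (c : G)⁻¹) - (χ : G → ℂ) (c : G)⁻¹)
        * ((ψ₀ : (Subgroup.centralizer ({x} : Set G)) → ℂ) c / (ψ₀ : (Subgroup.centralizer ({x} : Set G)) → ℂ) 1)) := by
    have h4 : (∑ c : (Subgroup.centralizer ({x} : Set G)), (if p ∣ orderOf c then (0 : ℂ) else (χ : G → ℂ) (c : G)⁻¹)
          * ((ψ₀ : (Subgroup.centralizer ({x} : Set G)) → ℂ) c / (ψ₀ : (Subgroup.centralizer ({x} : Set G)) → ℂ) 1))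
        + (∑ c : (Subgroup.centralizer ({x} : Set G)), (if p ∣ orderOf c then (0 : ℂ)
          else (χ : G → ℂ) (x * (c : G)⁻¹) - (χ : G → ℂ) (c : G)⁻¹)
          * ((ψ₀ : (Subgroup.centralizer ({x} : Set G)) → ℂ) c / (ψ₀ : (Subgroup.centralizer ({x} : Set G)) → ℂ) 1))
        = ∑ c : (Subgroup.centralizer ({x} : Set G)), (if p ∣ orderOf c then (0 : ℂ) else (χ : G → ℂ) (x * (c : G)⁻¹))
          * ((ψ₀ : (Subgroup.centralizer ({x} : Set G)) → ℂ) c / (ψ₀ : (Subgroup.centralizer ({x} : Set G)) → ℂ) 1) := by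
      rw [← Finset.sum_add_distrib]
      refine Finset.sum_congr rfl fun c _ => ?_
      split_ifs <;> ring
    rw [hU1] at h4
    rw [hU2eq]
    exact eq_neg_of_add_eq_zero_left h4
  rw [e3]
  exact MemLocalIdeal.neg hdiff

end

end Cfsg.Agent.Helper25
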