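import Cfsg.Agent.Helper25.MaxWeight

set_option autoImplicit false
set_option linter.unusedSectionVars false

namespace Cfsg.Agent.Helper25

open Cfsg Cfsg.FusionSystem
open scoped ComplexConjugate

section WeightCentric

variable {G : Type*} [Group G] [Fintype G] {p : ℕ} {M : Ideal AlgInt}

/-- A constituent of the restriction of a member of a block of `T` whose idempotent is the one of
the block `e` of the subgroup `K` lies in `e`. -/
theorem mem_of_constituent_coeff (K T : Subgroup G) [Fintype K] (hKT : K ≤ T)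
    (e : Set (IrrCharacter K)) (F' : Set (IrrCharacter T))
    (hF'e : ∀ t : T, blockCoeff F' t = subgroupBlockCoeff K e (t : G))
    (χ : IrrCharacter T) (hχ : χ ∈ F') (θ : IrrCharacter K)
    (hcon : classInner (fun c : K => (χ : T → ℂ) ⟨(c : G), hKT c.2⟩) (θ : K → ℂ) ≠ 0) :
    θ ∈ e := by
  classical
  have : Fintype T := Fintype.ofFinite _
  have := Helper24.finite_irrCharacter (G := T)
  have : Fintype (IrrCharacter T) := Fintype.ofFinite _
  have := Helper24.finite_irrCharacter (G := K)
  have : Fintype (IrrCharacter K) := Fintype.ofFinite _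
  by_contra hθe
  obtain ⟨f, hfdef⟩ : ∃ f : K → ℂ, f = fun c : K => (χ : T → ℂ) ⟨(c : G), hKT c.2⟩ := ⟨_, rfl⟩
  have hfchar : IsCharacter K f := by
    rw [hfdef]
    exact Helper6.isCharacter_comp_hom (Subgroup.inclusion hKT) (Helper24.isCharacter_of_irr χ.2)
  have hcl := Helper2.IsCharacter.isClassFunction hfchar
  choose k hk using fun θ' : IrrCharacter K =>
    Helper2.classInner_char_nat hfchar (Helper24.isCharacter_of_irr θ'.2)
  have h1 : ∑ t : T, blockCoeff F' t * (χ : T → ℂ) t = (χ : T → ℂ) 1 := by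
    have h := sum_coeffT_mul (fun ψ : IrrCharacter T => if ψ ∈ F' then (1 : ℂ) else 0) χ
    rw [if_pos hχ, mul_one] at h
    rw [← h]
    exact Finset.sum_congr rfl fun t _ => by rw [blockCoeff_eq_coeffT]
  have h2 : ∑ c : K, blockCoeff e c * f c = ∑ t : T, blockCoeff F' t * (χ : T → ℂ) t := by
    refine Fintype.sum_of_injective (fun c : K => (⟨(c : G), hKT c.2⟩ : T))
      (fun a b hab => Subtype.ext (congrArg (fun t : T => (t : G)) hab)) _ _ ?_ ?_
    · intro t ht
      have htK : (t : G) ∉ K := fun h => ht ⟨⟨(t : G), h⟩, rfl⟩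
      rw [hF'e t]
      unfold subgroupBlockCoeff
      rw [dif_neg htK, zero_mul]
    · intro c
      rw [hF'e]
      unfold subgroupBlockCoeff
      rw [dif_pos c.2, hfdef]
  have h3 : ∑ c : K, blockCoeff e c * f c
      = ((∑ θ' : IrrCharacter K, (if θ' ∈ e then k θ' * charDegree (θ' : K → ℂ) else 0) : ℕ) : ℂ) := by
    calc ∑ c : K, blockCoeff e c * f c
        = ∑ c : K, coeffT (fun θ' : IrrCharacter K => if θ' ∈ e then (1 : ℂ) else 0) c * f c :=
          Finset.sum_congr rfl fun c _ => by rw [blockCoeff_eq_coeffT]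
      _ = ∑ θ' : IrrCharacter K, classInner f (θ' : K → ℂ)
            * ((θ' : K → ℂ) 1 * (if θ' ∈ e then (1 : ℂ) else 0)) := sum_coeffT_mul_classFn _ _ hcl
      _ = _ := by
          push_cast
          refine Finset.sum_congr rfl fun θ' _ => ?_
          rw [hk θ', irr_one_eq_degree θ']
          split_ifs <;> simp
  have h4 : f 1 = ((∑ θ' : IrrCharacter K, k θ' * charDegree (θ' : K → ℂ) : ℕ) : ℂ) := by
    have h := congrFun (Helper2.class_fn_expansion hcl) 1
    simp only [Finset.sum_apply, Pi.smul_apply, smul_eq_mul] at h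
    rw [h]
    push_cast
    refine Finset.sum_congr rfl fun θ' _ => ?_
    rw [← hk θ', irr_one_eq_degree θ']
  have hf1 : f 1 = (χ : T → ℂ) 1 := by
    rw [hfdef]
    exact congrArg (χ : T → ℂ) (Subtype.ext rfl)
  have hsum : (∑ θ' : IrrCharacter K, (if θ' ∈ e then k θ' * charDegree (θ' : K → ℂ) else 0))
      = ∑ θ' : IrrCharacter K, k θ' * charDegree (θ' : K → ℂ) := by
    apply Nat.cast_injective (R := ℂ)
    rw [← h3, h2, h1, ← hf1, h4]
  have hle : ∀ θ' ∈ (Finset.univ : Finset (IrrCharacter K)),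
      (if θ' ∈ e then k θ' * charDegree (θ' : K → ℂ) else 0) ≤ k θ' * charDegree (θ' : K → ℂ) := by
    intro θ' _
    split_ifs
    · exact le_rfl
    · exact Nat.zero_le _
  have hθ0 := (Finset.sum_eq_sum_iff_of_le hle).1 hsum θ (Finset.mem_univ θ)
  rw [if_neg hθe] at hθ0
  have hk0 : k θ = 0 := by
    rcases Nat.eq_zero_or_pos (k θ) with h | h
    · exact h
    · exfalso
      have hd : 0 < charDegree (θ : K → ℂ) := Nat.pos_of_ne_zero (charDegree_irr_ne_zero θ)
      have := Nat.mul_pos h hd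
      omega
  apply hcon
  have h5 := hk θ
  rw [hk0, hfdef] at h5
  simpa using h5

/-- If a member of `e` has degree of full `p`-part modulo the centre of `Q`, that centre is a
defect group of `e`. -/
theorem center_defect_of_char [Fact p.Prime] (hpM : IsPModular p M) (Q : Subgroup G)
    (e : Set (IrrCharacter (Subgroup.centralizer (Q : Set G)))) (he : IsBrauerPair p M Q e)
    (θ₀ : IrrCharacter (Subgroup.centralizer (Q : Set G))) (hθ₀ : θ₀ ∈ e)
    (hdeg₀ : (charDegree (θ₀ : (Subgroup.centralizer (Q : Set G)) → ℂ)).factorization p + (Nat.card ↥(Q ⊓ (Subgroup.centralizer (Q : Set G)))).factorization p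
      = (Nat.card (Subgroup.centralizer (Q : Set G))).factorization p) :
    IsDefectGroup p M e ((Q ⊓ (Subgroup.centralizer (Q : Set G))).subgroupOf (Subgroup.centralizer (Q : Set G))) := by
  classical
  have hp : p.Prime := Fact.out
  have hMp := hpM.2.1.isPrime
  have hQ : IsPGroup p Q := he.1
  have heb : IsPBlock M e := he.2
  have : Fintype (Subgroup.centralizer (Q : Set G)) := Fintype.ofFinite _
  have := Helper24.finite_irrCharacter (G := (Subgroup.centralizer (Q : Set G)))
  have : Fintype (IrrCharacter (Subgroup.centralizer (Q : Set G))) := Fintype.ofFinite _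
  obtain ⟨Z', hZdef⟩ : ∃ Z' : Subgroup (Subgroup.centralizer (Q : Set G)), Z' = (Q ⊓ (Subgroup.centralizer (Q : Set G))).subgroupOf (Subgroup.centralizer (Q : Set G)) := ⟨_, rfl⟩
  have hZmem : ∀ z : (Subgroup.centralizer (Q : Set G)), z ∈ Z' ↔ (z : G) ∈ Q := by
    intro z
    rw [hZdef, Subgroup.mem_subgroupOf, Subgroup.mem_inf]
    exact ⟨fun h => h.1, fun h => ⟨h, z.2⟩⟩
  have hZcen : Z' ≤ Subgroup.center (Subgroup.centralizer (Q : Set G)) := by
    intro z hz
    rw [Subgroup.mem_center_iff]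
    intro k
    have h1 := (Subgroup.mem_centralizer_iff.1 k.2) (z : G) ((hZmem z).1 hz)
    exact Subtype.ext h1.symm
  have hZn : Z'.Normal := by
    refine ⟨fun n hn g => ?_⟩
    have h1 := (Subgroup.mem_center_iff.1 (hZcen hn)) g
    have h2 : g * n * g⁻¹ = n := by
      rw [h1]
      group
    rw [h2]
    exact hn
  have hZp : IsPGroup p Z' := by
    rw [hZdef]
    exact (hQ.to_le inf_le_left).comap_subtype
  have hcardZ : Nat.card Z' = Nat.card (Q ⊓ (Subgroup.centralizer (Q : Set G)) : Subgroup G) := by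
    rw [hZdef]
    exact Nat.card_congr (Subgroup.subgroupOfEquivOfLe (inf_le_right : Q ⊓ (Subgroup.centralizer (Q : Set G)) ≤ (Subgroup.centralizer (Q : Set G)))).toEquiv
  have hidxZ : (Nat.card (Q ⊓ (Subgroup.centralizer (Q : Set G)) : Subgroup G)).factorization p + Z'.index.factorization p
      = (Nat.card (Subgroup.centralizer (Q : Set G))).factorization p := by
    rw [← hcardZ, ← Subgroup.card_mul_index Z',
      Nat.factorization_mul Nat.card_pos.ne' (Subgroup.index_ne_zero_of_finite)]
    rfl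
  have hcardZp : Nat.card Z' = p ^ (Nat.card Z').factorization p := by
    obtain ⟨n, hn⟩ := IsPGroup.iff_card.1 hZp
    rw [hn, hp.factorization_pow, Finsupp.single_eq_same]
  have hdefOf : ∀ θ ∈ e, (charDegree (θ : (Subgroup.centralizer (Q : Set G)) → ℂ)).factorization p
      + (Nat.card ↥(Q ⊓ (Subgroup.centralizer (Q : Set G)))).factorization p = (Nat.card (Subgroup.centralizer (Q : Set G))).factorization p →
      IsDefectGroup p M e Z' := by
    intro θ hθ hdeg
    have hdeg' : (charDegree (θ : (Subgroup.centralizer (Q : Set G)) → ℂ)).factorization p = Z'.index.factorization p := by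
      omega
    have h1 := Helper6.lar_defect hpM Z' hZp hZcen θ hdeg'
    rw [← block_eq_blockOf_of_mem hMp heb hθ] at h1
    have := hZn
    refine isDefectGroup_of_normal_card hpM Z' hZp heb ?_
    rw [h1]
    exact hcardZp
  have h := hdefOf θ₀ hθ₀ hdeg₀
  rw [hZdef] at h
  exact h

theorem weight_centric_radical [Fact p.Prime] (hpM : IsPModular p M) (B : Set (IrrCharacter G))
    (Q : Subgroup G) (e : Set (IrrCharacter (Subgroup.centralizer (Q : Set G)))) (hQe : IsBrauerPairOf p M B Q e)
    (T : Subgroup G)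
    (hT : ∀ y : G, y ∈ T ↔ y ∈ Subgroup.normalizer (Q : Set G) ∧ StabilizesBlock (Subgroup.centralizer (Q : Set G)) e y)
    (F' : Set (IrrCharacter T))
    (hF'e : ∀ t : T, blockCoeff F' t = subgroupBlockCoeff (Subgroup.centralizer (Q : Set G)) e (t : G))
    (χ : IrrCharacter T) (hχ : χ ∈ F')
    (hχQ : ∀ q : G, q ∈ Q → ∀ t : T, ∀ t' : T, (t' : G) = q * (t : G) →
      (χ : T → ℂ) t' = (χ : T → ℂ) t)
    (hdeg : (charDegree (χ : T → ℂ)).factorization p + (Nat.card Q).factorization p
      = (Nat.card T).factorization p) :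
    IsDefectGroup p M e ((Q ⊓ (Subgroup.centralizer (Q : Set G))).subgroupOf (Subgroup.centralizer (Q : Set G))) ∧
      ∀ R : Subgroup G, R ≤ T → IsPGroup p R →
        (∀ t ∈ T, t ∈ Subgroup.normalizer (R : Set G)) → R ≤ Q := by
  classical
  have hp : p.Prime := Fact.out
  have hMp := hpM.2.1.isPrime
  have : Fintype T := Fintype.ofFinite _
  have : Fintype (Subgroup.centralizer (Q : Set G)) := Fintype.ofFinite _
  have hTN : T ≤ Subgroup.normalizer (Q : Set G) := fun y hy => ((hT y).1 hy).1
  have hCT : (Subgroup.centralizer (Q : Set G)) ≤ T := cent_le_stab Q e T hT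
  have hQleT : Q ≤ T := self_le_stab Q e T hT
  have hQ'n : (Q.subgroupOf T).Normal := Subgroup.normal_subgroupOf_of_le_normalizer hTN
  have hχker : ∀ n ∈ (Q.subgroupOf T), (χ : T → ℂ) n = (χ : T → ℂ) 1 := by
    intro n hn
    exact hχQ (n : G) (Subgroup.mem_subgroupOf.1 hn) 1 n (by rw [Subgroup.coe_one, mul_one])
  obtain ⟨χb, hχb⟩ := exists_deflation_of_ker (Q.subgroupOf T) χ hχker
  have : Fintype (↥T ⧸ (Q.subgroupOf T)) := Fintype.ofFinite _
  have hdegb : charDegree (χb : ↥T ⧸ (Q.subgroupOf T) → ℂ) = charDegree (χ : T → ℂ) := by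
    unfold charDegree
    rw [hχb]
    rfl
  have hcardTb : Nat.card T = Nat.card (↥T ⧸ (Q.subgroupOf T)) * Nat.card Q := by
    rw [Subgroup.card_eq_card_quotient_mul_card_subgroup (Q.subgroupOf T)]
    congr 1
    exact Nat.card_congr (Subgroup.subgroupOfEquivOfLe hQleT).toEquiv
  have hvTb : (charDegree (χb : ↥T ⧸ (Q.subgroupOf T) → ℂ)).factorization p
      = (Nat.card (↥T ⧸ (Q.subgroupOf T))).factorization p := by
    have h1 : (Nat.card T).factorization p
        = (Nat.card (↥T ⧸ (Q.subgroupOf T))).factorization p + (Nat.card Q).factorization p := by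
      rw [hcardTb, Nat.factorization_mul Nat.card_pos.ne' Nat.card_pos.ne']
      rfl
    rw [hdegb]
    omega
  refine ⟨?_, fun R hRT hRp hRn => ?_⟩
  · -- centric
    have hC'n : ((Subgroup.centralizer (Q : Set G)).subgroupOf T).Normal :=
      Subgroup.normal_subgroupOf_of_le_normalizer
        (hTN.trans (normalizer_le_normalizer_centralizer' Q))
    obtain ⟨Nb, hNbdef⟩ : ∃ Nb : Subgroup (↥T ⧸ (Q.subgroupOf T)),
        Nb = ((Subgroup.centralizer (Q : Set G)).subgroupOf T).map (QuotientGroup.mk' (Q.subgroupOf T)) := ⟨_, rfl⟩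
    have hNbn : Nb.Normal := by
      rw [hNbdef]
      exact Subgroup.Normal.map hC'n _ (QuotientGroup.mk'_surjective _)
    have : Fintype Nb := Fintype.ofFinite _
    obtain ⟨θb, hθb, hconb⟩ := Helper24.exists_constituent_restrict Nb χb.2
    obtain ⟨hdvd1, hdvd2⟩ := Helper24.charDegree_dvd_of_constituent Nb χb.2 hθb hconb
    have hπmem : ∀ c : (Subgroup.centralizer (Q : Set G)), ((QuotientGroup.mk' (Q.subgroupOf T)).comp (Subgroup.inclusion hCT)) c ∈ Nb := by
      intro c
      rw [hNbdef]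
      exact Subgroup.mem_map_of_mem _ (Subgroup.mem_subgroupOf.2 c.2)
    obtain ⟨π, hπ⟩ : ∃ π : (Subgroup.centralizer (Q : Set G)) →* Nb, ∀ c : (Subgroup.centralizer (Q : Set G)), ((π c : Nb) : ↥T ⧸ (Q.subgroupOf T))
        = (QuotientGroup.mk' (Q.subgroupOf T)) (Subgroup.inclusion hCT c) :=
      ⟨((QuotientGroup.mk' (Q.subgroupOf T)).comp (Subgroup.inclusion hCT)).codRestrict Nb hπmem,
        fun c => rfl⟩
    have hπsurj : Function.Surjective π := by
      rintro ⟨nb, hnb⟩
      have hnb' := hnb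
      rw [hNbdef] at hnb'
      obtain ⟨c', hc', hc'eq⟩ := Subgroup.mem_map.1 hnb'
      refine ⟨⟨(c' : G), Subgroup.mem_subgroupOf.1 hc'⟩, Subtype.ext ?_⟩
      rw [hπ]
      exact hc'eq
    obtain ⟨θ, hθdef⟩ : ∃ θ : IrrCharacter (Subgroup.centralizer (Q : Set G)), (θ : (Subgroup.centralizer (Q : Set G)) → ℂ) = θb ∘ π :=
      ⟨⟨θb ∘ π, Helper6.isIrrCharacter_comp_surjective π hπsurj hθb⟩, rfl⟩
    have hres : (fun c : (Subgroup.centralizer (Q : Set G)) => (χ : T → ℂ) ⟨(c : G), hCT c.2⟩)
        = (fun n : Nb => (χb : ↥T ⧸ (Q.subgroupOf T) → ℂ) n) ∘ π := by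
      funext c
      rw [hχb]
      show (χb : ↥T ⧸ (Q.subgroupOf T) → ℂ) (QuotientGroup.mk (⟨(c : G), hCT c.2⟩ : T))
        = (χb : ↥T ⧸ (Q.subgroupOf T) → ℂ) ((π c : Nb) : ↥T ⧸ (Q.subgroupOf T))
      rw [hπ]
      rfl
    have hcon : classInner (fun c : (Subgroup.centralizer (Q : Set G)) => (χ : T → ℂ) ⟨(c : G), hCT c.2⟩) (θ : (Subgroup.centralizer (Q : Set G)) → ℂ) ≠ 0 := by
      rw [hres, hθdef, Helper6.classInner_comp_surjective π hπsurj]
      exact hconb
    have hθe : θ ∈ e := mem_of_constituent_coeff (Subgroup.centralizer (Q : Set G)) T hCT e F' hF'e χ hχ θ hcon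
    have hdegθ : charDegree (θ : (Subgroup.centralizer (Q : Set G)) → ℂ) = charDegree θb := by
      unfold charDegree
      rw [hθdef]
      show ⌊(θb (π 1)).re⌋₊ = _
      rw [map_one]
    -- valuations
    have hb0 : charDegree (χb : ↥T ⧸ (Q.subgroupOf T) → ℂ) ≠ 0 := charDegree_irr_ne_zero χb
    have hmul : charDegree θb * (charDegree (χb : ↥T ⧸ (Q.subgroupOf T) → ℂ) / charDegree θb)
        = charDegree (χb : ↥T ⧸ (Q.subgroupOf T) → ℂ) := Nat.mul_div_cancel' hdvd1
    have ha0 : charDegree θb ≠ 0 := by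
      intro h
      rw [h, zero_mul] at hmul
      exact hb0 hmul.symm
    have hk0 : charDegree (χb : ↥T ⧸ (Q.subgroupOf T) → ℂ) / charDegree θb ≠ 0 := by
      intro h
      rw [h, mul_zero] at hmul
      exact hb0 hmul.symm
    have hidx0 : Nb.index ≠ 0 := Subgroup.index_ne_zero_of_finite
    have hv1 : (charDegree (χb : ↥T ⧸ (Q.subgroupOf T) → ℂ)).factorization p
        = (charDegree θb).factorization p
          + (charDegree (χb : ↥T ⧸ (Q.subgroupOf T) → ℂ) / charDegree θb).factorization p := by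
      conv_lhs => rw [← hmul]
      rw [Nat.factorization_mul ha0 hk0]
      rfl
    have hv2 : (charDegree (χb : ↥T ⧸ (Q.subgroupOf T) → ℂ) / charDegree θb).factorization p
        ≤ Nb.index.factorization p := (Nat.factorization_le_iff_dvd hk0 hidx0).2 hdvd2 p
    have hv3 : (Nat.card (↥T ⧸ (Q.subgroupOf T))).factorization p
        = (Nat.card Nb).factorization p + Nb.index.factorization p := by
      rw [← Subgroup.card_mul_index Nb, Nat.factorization_mul Nat.card_pos.ne' hidx0]
      rfl
    have hv4 : (charDegree θb).factorization p ≤ (Nat.card Nb).factorization p :=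
      (Nat.factorization_le_iff_dvd ha0 Nat.card_pos.ne').2 (Helper2.irr_degree_dvd_card hθb) p
    have hker : π.ker = (Q ⊓ (Subgroup.centralizer (Q : Set G))).subgroupOf (Subgroup.centralizer (Q : Set G)) := by
      ext c
      rw [MonoidHom.mem_ker, Subgroup.mem_subgroupOf, Subgroup.mem_inf]
      constructor
      · intro h
        have h1 : ((π c : Nb) : ↥T ⧸ (Q.subgroupOf T)) = 1 := by rw [h]; rfl
        rw [hπ] at h1
        have h2 := (QuotientGroup.eq_one_iff _).1 h1
        exact ⟨Subgroup.mem_subgroupOf.1 h2, c.2⟩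
      · rintro ⟨h, -⟩
        apply Subtype.ext
        rw [hπ]
        exact (QuotientGroup.eq_one_iff _).2 (Subgroup.mem_subgroupOf.2 h)
    have hv5 : (Nat.card (Subgroup.centralizer (Q : Set G))).factorization p
        = (Nat.card Nb).factorization p + (Nat.card ↥(Q ⊓ (Subgroup.centralizer (Q : Set G)))).factorization p := by
      have h1 : Nat.card (Subgroup.centralizer (Q : Set G)) = Nat.card Nb * Nat.card ↥(Q ⊓ (Subgroup.centralizer (Q : Set G))) := by
        rw [Subgroup.card_eq_card_quotient_mul_card_subgroup π.ker]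
        congr 1
        · exact Nat.card_congr (QuotientGroup.quotientKerEquivOfSurjective π hπsurj).toEquiv
        · rw [hker]
          exact Nat.card_congr (Subgroup.subgroupOfEquivOfLe
            (inf_le_right : Q ⊓ (Subgroup.centralizer (Q : Set G)) ≤ (Subgroup.centralizer (Q : Set G)))).toEquiv
      rw [h1, Nat.factorization_mul Nat.card_pos.ne' Nat.card_pos.ne']
      rfl
    refine center_defect_of_char hpM Q e hQe.1 θ hθe ?_
    rw [hdegθ]
    omega
  · -- radical
    have hR'n : (R.subgroupOf T).Normal :=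
      Subgroup.normal_subgroupOf_of_le_normalizer (fun t ht => hRn t ht)
    obtain ⟨Rb, hRbdef⟩ : ∃ Rb : Subgroup (↥T ⧸ (Q.subgroupOf T)),
        Rb = (R.subgroupOf T).map (QuotientGroup.mk' (Q.subgroupOf T)) := ⟨_, rfl⟩
    have hRbn : Rb.Normal := by
      rw [hRbdef]
      exact Subgroup.Normal.map hR'n _ (QuotientGroup.mk'_surjective _)
    have hRbp : IsPGroup p Rb := by
      rw [hRbdef]
      exact (hRp.comap_subtype).map _
    have hdef0 : blockDefect p (blockOf M (χb : ↥T ⧸ (Q.subgroupOf T) → ℂ)) = 0 := by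
      have h := Helper6.lar_defect hpM (⊥ : Subgroup (↥T ⧸ (Q.subgroupOf T))) IsPGroup.of_bot bot_le χb
        (by rw [Subgroup.index_bot]; exact hvTb)
      rw [h, Subgroup.card_bot]
      simp
    have hblk : IsPBlock M (blockOf M (χb : ↥T ⧸ (Q.subgroupOf T) → ℂ)) := ⟨χb, rfl⟩
    obtain ⟨g, hg⟩ := exists_defectClass hMp hblk
    obtain ⟨P⟩ : Nonempty (Sylow p (Subgroup.centralizer ({g} : Set (↥T ⧸ (Q.subgroupOf T))))) := inferInstance
    have hD : IsDefectGroup p M (blockOf M (χb : ↥T ⧸ (Q.subgroupOf T) → ℂ))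
        ((P : Subgroup (Subgroup.centralizer ({g} : Set (↥T ⧸ (Q.subgroupOf T))))).map
          (Subgroup.centralizer ({g} : Set (↥T ⧸ (Q.subgroupOf T)))).subtype) := ⟨g, hg, P, rfl⟩
    have hc := card_defectGroup hpM hblk _ hD
    rw [hdef0, pow_zero] at hc
    have hle := normal_pgroup_le_defectGroup hpM Rb hRbp hblk hD
    have hRb : Rb = ⊥ := by
      rw [Subgroup.eq_bot_of_card_eq _ hc] at hle
      exact le_bot_iff.1 hle
    intro r hr
    have h1 : (QuotientGroup.mk' (Q.subgroupOf T)) (⟨r, hRT hr⟩ : T) ∈ Rb := by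
      rw [hRbdef]
      exact Subgroup.mem_map_of_mem _ (Subgroup.mem_subgroupOf.2 hr)
    rw [hRb, Subgroup.mem_bot] at h1
    have h2 := (QuotientGroup.eq_one_iff _).1 h1
    exact Subgroup.mem_subgroupOf.1 h2

end WeightCentric

end Cfsg.Agent.Helper25
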